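import Mathlib
import Cfsg.Agent.Lib.Dim4.Defs

/-!
The five-dimensional orthogonal module of `Sp₄`, and the vocabulary for odd characteristic.
See `plans/DIM4.md`, part 2.
-/

set_option autoImplicit false

namespace CfsgLib.Dim4

open Matrix Cfsg Cfsg.Geo CfsgLib.Asch CfsgLib.Forms CfsgLib.Symp Subgroup
open scoped MatrixGroups commutatorElement

/-- the five-dimensional space -/
abbrev W5 (K : Type*) := Fin 5 → K

variable {G F K : Type*} [Group G] [Field F] [Field K] {ρ : G →* Sp4 F}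

/-- the quadratic form -/
def q5 (x : W5 F) : F := x 0 * x 0 + x 1 * x 2 - x 3 * x 4

/-- its polar form -/
def bt : LinearMap.BilinForm F (W5 F) :=
  LinearMap.mk₂ F (fun x y => 2 * x 0 * y 0 + x 1 * y 2 + x 2 * y 1 - x 3 * y 4 - x 4 * y 3)
    (fun _ _ _ => by simp; ring) (fun _ _ _ => by simp; ring)
    (fun _ _ _ => by simp; ring) (fun _ _ _ => by simp; ring)

/-- the self-adjoint matrices of trace zero -/
def psi : W5 F →ₗ[F] M4 F where
  toFun x := fromBlocks !![x 0, x 1; x 2, -x 0] !![0, x 3; -x 3, 0] !![0, x 4; -x 4, 0]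
    !![x 0, x 2; x 1, -x 0]
  map_add' x y := by
    ext (i | i) (j | j) <;> fin_cases i <;> fin_cases j <;> simp [add_comm]
  map_smul' c x := by
    ext (i | i) (j | j) <;> fin_cases i <;> fin_cases j <;> simp

/-- the `W5`-part of a self-adjoint matrix -/
def dv : M4 F →ₗ[F] W5 F where
  toFun A := ![(A (.inl 0) (.inl 0) - A (.inl 1) (.inl 1)) / 2, A (.inl 0) (.inl 1),
    A (.inl 1) (.inl 0), A (.inl 0) (.inr 1), A (.inr 0) (.inl 1)]
  map_add' x y := by ext i; fin_cases i <;> simp; ring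
  map_smul' c x := by ext i; fin_cases i <;> simp; ring

/-- `g + g⁻¹ = tr g / 2 + psi (vd g)` -/
def vd (g : Sp4 F) : W5 F := dv (g.1 + (g⁻¹).1)

/-- `±A` is in the image -/
def Hat (ρ : G →* Sp4 F) (A : M4 F) : Prop := ∃ g, (ρ g).1 = A ∨ (ρ g).1 = -A

/-- no transvection -/
def NT (ρ : G →* Sp4 F) : Prop := ∀ u d, Tv ρ u d → u = 0 ∨ d = 0

/-- no non-central involution -/
def NR (ρ : G →* Sp4 F) : Prop := ∀ g, (ρ g).1 * (ρ g).1 = 1 → (ρ g).1 = 1 ∨ (ρ g).1 = -1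

/-- the non-central involutions of `±ρ G` -/
def roots (ρ : G →* Sp4 F) : Set (W5 F) := {x | q5 x = 1 ∧ Hat ρ (psi x)}

/-- the `N` with `1 + N` in the image, trivial on `L` and on `V / L` -/
def AL (ρ : G →* Sp4 F) (L : Submodule F (V4 F)) : Set (M4 F) :=
  {N | (∃ g, (ρ g).1 = 1 + N) ∧ (∀ v, N *ᵥ v ∈ L) ∧ ∀ v ∈ L, N *ᵥ v = 0}

/-- `AL ρ L` has more than three elements -/
def Big (ρ : G →* Sp4 F) (L : Submodule F (V4 F)) : Prop :=
  ∃ N ∈ AL ρ L, ∃ N' ∈ AL ρ L, N ≠ 0 ∧ N' ≠ 0 ∧ ¬ ((3 : F) = 0 ∧ (N' = N ∨ N' = -N))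

/-- quadratic unipotent subgroups are small -/
def SMm (ρ : G →* Sp4 F) : Prop :=
  ∀ N N' : M4 F, Hat ρ (1 + N) → Hat ρ (1 + N') → N ≠ 0 → N' ≠ 0 → N * N = 0 → N' * N' = 0 →
    N * N' = 0 → N' * N = 0 → (3 : F) = 0 ∧ (N' = N ∨ N' = -N)

/-- `φ` is the quotient map modulo `±1` -/
structure Cov {A : Type*} [Group A] (ρ : G →* Sp4 F) (φ : G →* A) : Prop where
  qs : QS G
  inj : Function.Injective ρ
  abs : Abs ρ
  nr : NR ρ
  surj : Function.Surjective φ
  ker : ∀ g, φ g = 1 ↔ (ρ g).1 = 1 ∨ (ρ g).1 = -1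

/-- the normaliser of the image is not maximal -/
def Over (ρ : G →* Sp4 F) : Prop :=
  ∃ T : Subgroup (Sp4 F), T ≠ ⊤ ∧ normalizer (ρ.range : Set (Sp4 F)) < T

section RS

variable {W : Type*} [AddCommGroup W] [Module K W]

/-- an abstract system of reflection vectors -/
structure RS (β : LinearMap.BilinForm K W) (Δ : Set W) : Prop where
  two : (2 : K) ≠ 0
  symm : ∀ x y, β x y = β y x
  nondeg : ∀ x, (∀ y, β x y = 0) → x = 0
  five : Module.finrank K W = 5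
  fin : Δ.Finite
  ne : Δ.Nonempty
  norm : ∀ a ∈ Δ, β a a = 2
  neg : ∀ a ∈ Δ, -a ∈ Δ
  refl : ∀ a ∈ Δ, ∀ b ∈ Δ, b - β a b • a ∈ Δ
  irr : ∀ U : Submodule K W, (∀ a ∈ Δ, ∀ u ∈ U, u - β a u • a ∈ U) → U = ⊥ ∨ U = ⊤
  frame : ∀ Φ ⊆ Δ, (∀ a ∈ Δ, ∀ b ∈ Φ, b - β a b • a ∈ Φ) →
    (∀ a ∈ Φ, ∀ b ∈ Φ, β a b = 0 ∨ b = a ∨ b = -a) → Φ = ∅
  sgn : ∀ Γ : Subgroup (W ≃ₗ[K] W), (∀ a ∈ Δ, ∃ r ∈ Γ, ∀ x, r x = x - β a x • a) →
    LinearEquiv.neg K ∈ Γ
  sm : ∀ a ∈ Δ, ∀ a' ∈ Δ, ∀ (n : W) (l : K), n ≠ 0 → l ≠ 0 → β a n = 0 → β a' n = 0 → a + n ∈ Δ →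
    a' + l • n ∈ Δ → (3 : K) = 0 ∧ ∃ c : K, l • a' - a = c • n ∨ l • a' + a = c • n
  fr4 : ∀ u : Fin 4 → W, (∀ i, u i ∈ Δ) → (∀ i j, i ≠ j → β (u i) (u j) = 0) →
    ∃ v ∈ Δ, ∀ i, β v (u i) = 0

/-- two reflections generate a dihedral group of order at most ten -/
def T1 (β : LinearMap.BilinForm K W) (Δ : Set W) : Prop :=
  ∀ a ∈ Δ, ∀ b ∈ Δ, b ≠ a → b ≠ -a → β a b = 0 ∨ β a b ^ 2 = 1 ∨ β a b ^ 2 = 2 ∨
    (β a b ^ 2 ≠ 4 ∧ β a b ^ 4 - 3 * β a b ^ 2 + 1 = 0)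

/-- the triples of type `B₃` -/
def T4 (β : LinearMap.BilinForm K W) (Δ : Set W) : Prop :=
  ∀ a ∈ Δ, ∀ b ∈ Δ, ∀ c ∈ Δ, β a b ^ 2 = 2 → c ∉ Submodule.span K {a, b} →
    (β c a ≠ 0 ∨ β c b ≠ 0) →
    (β c b * (β c b - β a b * β c a) = 0 ∧ β c a ^ 2 = 1) ∨
      (β c a * (β c a - β a b * β c b) = 0 ∧ β c b ^ 2 = 1)

/-- the values on the five roots of a plane of type `H₂` -/
def pat (τ x y : K) : List K := [x, y, τ * y - x, τ * (y - x), y - τ * x]

/-- the triples of type `H₃` -/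
def T5 (β : LinearMap.BilinForm K W) (Δ : Set W) : Prop :=
  ∀ a ∈ Δ, ∀ b ∈ Δ, ∀ c ∈ Δ, β a b ^ 2 = β a b + 1 → β a b ^ 2 ≠ 4 →
    c ∉ Submodule.span K {a, b} → (β c a ≠ 0 ∨ β c b ≠ 0) →
    0 ∈ pat (β a b) (β c a) (β c b) ∧ ∃ x ∈ pat (β a b) (β c a) (β c b), x ^ 2 = 1

end RS

/-! ### Clifford calculus -/

theorem bt_apply (x y : W5 F) :
    bt x y = 2 * x 0 * y 0 + x 1 * y 2 + x 2 * y 1 - x 3 * y 4 - x 4 * y 3 := rfl

theorem bt_self (x : W5 F) : bt x x = 2 * q5 x := by rw [bt_apply, q5]; ring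

theorem bt_symm (x y : W5 F) : bt x y = bt y x := by rw [bt_apply, bt_apply]; ring

theorem q5_add (x y : W5 F) : q5 (x + y) = q5 x + q5 y + bt x y := by
  simp only [q5, bt_apply, Pi.add_apply]; ring

theorem q5_sub (x y : W5 F) : q5 (x - y) = q5 x + q5 y - bt x y := by
  simp only [q5, bt_apply, Pi.sub_apply]; ring

theorem q5_smul (c : F) (x : W5 F) : q5 (c • x) = c ^ 2 * q5 x := by
  simp only [q5, Pi.smul_apply, smul_eq_mul]; ring

theorem q5_neg (x : W5 F) : q5 (-x) = q5 x := by simp [q5]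

theorem psi_apply (x : W5 F) : psi x = fromBlocks !![x 0, x 1; x 2, -x 0] !![0, x 3; -x 3, 0]
    !![0, x 4; -x 4, 0] !![x 0, x 2; x 1, -x 0] := rfl

theorem psi_anti (x y : W5 F) : psi x * psi y + psi y * psi x = bt x y • (1 : M4 F) := by
  ext (i | i) (j | j) <;> fin_cases i <;> fin_cases j <;>
    simp [psi_apply, bt_apply, mul_apply, Fin.sum_univ_two] <;> ring

theorem psi_sq (x : W5 F) : psi x * psi x = q5 x • (1 : M4 F) := by
  ext (i | i) (j | j) <;> fin_cases i <;> fin_cases j <;>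
    simp [psi_apply, q5, mul_apply, Fin.sum_univ_two] <;> ring

theorem psi_swap (x y : W5 F) : psi y * psi x = bt x y • (1 : M4 F) - psi x * psi y := by
  rw [← psi_anti]; abel

theorem trace_psi (x : W5 F) : (psi x).trace = 0 := by
  simp [psi_apply, Matrix.trace, Fin.sum_univ_two]

theorem psi_injective : Function.Injective (psi : W5 F → M4 F) := by
  refine (injective_iff_map_eq_zero _).2 fun x h => ?_
  have e := fun i j => congrFun (congrFun h i) j
  have := e (.inl 0) (.inl 0); have := e (.inl 0) (.inl 1); have := e (.inl 1) (.inl 0)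
  have := e (.inl 0) (.inr 1); have := e (.inr 0) (.inl 1)
  ext i; fin_cases i <;> simp_all [psi_apply]

theorem B4_psi (x : W5 F) (u v : V4 F) : B4 (psi x *ᵥ u) v = B4 u (psi x *ᵥ v) := by
  simp [B4_apply, psi_apply, mulVec, dotProduct, Fin.sum_univ_two]; ring

theorem psi_map (f : F →+* K) (x : W5 F) : (psi x).map f = psi (f ∘ x) := by
  ext (i | i) (j | j) <;> fin_cases i <;> fin_cases j <;> simp [psi_apply]

theorem coe_mul_inv (g : Sp4 F) : g.1 * (g⁻¹).1 = 1 := congrArg Subtype.val (mul_inv_cancel g)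

theorem coe_inv_mul (g : Sp4 F) : (g⁻¹).1 * g.1 = 1 := congrArg Subtype.val (inv_mul_cancel g)

theorem B4_mulVec (g : Sp4 F) (u v : V4 F) : B4 (g.1 *ᵥ u) v = B4 u ((g⁻¹).1 *ᵥ v) := B4_inv g u v

theorem coe_inv_of_neg {g h : Sp4 F} (e : h.1 = -g.1) : (h⁻¹).1 = -(g⁻¹).1 := by
  rw [← mul_one (h⁻¹).1, ← coe_mul_inv g, ← mul_assoc, ← neg_neg g.1, ← e, mul_neg, coe_inv_mul]
  simp

theorem vd_inv (g : Sp4 F) : vd g⁻¹ = vd g := by rw [vd, inv_inv, add_comm]; rfl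

theorem vd_neg {g h : Sp4 F} (e : h.1 = -g.1) : vd h = -vd g := by
  rw [vd, coe_inv_of_neg e, e, ← neg_add, map_neg]; rfl

theorem trace_inv (g : Sp4 F) : (g⁻¹).1.trace = g.1.trace := by
  rw [SymplecticGroup.coe_inv]
  simp [Matrix.trace, J, mul_apply, Fin.sum_univ_two, one_apply]
  ring

/-- `psi x * psi y / c` -/
def pr {x y : W5 F} {c : F} (hc : c ≠ 0) (hx : q5 x = c) (hy : q5 y = c) : Sp4 F :=
  ⟨c⁻¹ • (psi x * psi y), (mem_sp_iff _).2 fun u v => by
    simp only [smul_mulVec, ← mulVec_mulVec, map_smul, LinearMap.smul_apply, smul_eq_mul]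
    rw [B4_psi, mulVec_mulVec, psi_sq, B4_psi, smul_mulVec, one_mulVec, mulVec_smul, mulVec_mulVec,
      psi_sq, smul_mulVec, one_mulVec, map_smul, map_smul, hx, hy]
    simp [hc]⟩

theorem coe_pr {x y : W5 F} {c : F} (hc : c ≠ 0) (hx : q5 x = c) (hy : q5 y = c) :
    (pr hc hx hy).1 = c⁻¹ • (psi x * psi y) := rfl

/-- the involution `psi x` -/
def rt {x : W5 F} (hx : q5 x = 1) : Sp4 F :=
  ⟨psi x, (mem_sp_iff _).2 fun u v => by rw [B4_psi, mulVec_mulVec, psi_sq, hx]; simp⟩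

theorem w6 {v n : W5 F} (h2 : (2 : F) ≠ 0) (h : psi v * psi n = 0) (hn : n ≠ 0) :
    ∃ c : F, v = c • n := by
  have e := fun i j => congrFun (congrFun h i) j
  have a1 := e (.inl 0) (.inl 0); have a2 := e (.inl 0) (.inl 1); have a3 := e (.inl 0) (.inr 0)
  have a4 := e (.inl 0) (.inr 1); have a5 := e (.inl 1) (.inl 0); have a6 := e (.inl 1) (.inl 1)
  have a7 := e (.inl 1) (.inr 0); have a8 := e (.inl 1) (.inr 1); have a9 := e (.inr 0) (.inl 0)
  have b1 := e (.inr 0) (.inl 1); have b2 := e (.inr 0) (.inr 0); have b3 := e (.inr 0) (.inr 1)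
  have b4 := e (.inr 1) (.inl 0); have b5 := e (.inr 1) (.inl 1); have b6 := e (.inr 1) (.inr 0)
  have b7 := e (.inr 1) (.inr 1)
  simp [psi_apply, mul_apply, Fin.sum_univ_two] at a1 a2 a3 a4 a5 a6 a7 a8 a9 b1 b2 b3 b4 b5 b6 b7
  have key : ∀ i j, v i * n j = v j * n i := by
    have h01 : v 0 * n 1 = v 1 * n 0 := by linear_combination a2
    have h02 : v 0 * n 2 = v 2 * n 0 := by linear_combination b3
    have h03 : v 0 * n 3 = v 3 * n 0 := by linear_combination a4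
    have h04 : v 0 * n 4 = v 4 * n 0 := by linear_combination b1
    have h13 : v 1 * n 3 = v 3 * n 1 := by linear_combination -a3
    have h23 : v 2 * n 3 = v 3 * n 2 := by linear_combination a8
    have h24 : v 2 * n 4 = v 4 * n 2 := by linear_combination -a9
    have h14 : v 1 * n 4 = v 4 * n 1 := by linear_combination b5
    have h12 : v 1 * n 2 = v 2 * n 1 :=
      mul_left_cancel₀ h2 (by linear_combination a1 - a6 - b2 + b7)
    have h34 : v 3 * n 4 = v 4 * n 3 :=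
      mul_left_cancel₀ h2 (by linear_combination -a1 - a6 + b2 + b7)
    intro i j
    fin_cases i <;> fin_cases j <;> simp_all
  obtain ⟨j, hj⟩ := Function.ne_iff.1 hn
  exact ⟨v j / n j, funext fun i => by
    rw [Pi.smul_apply, smul_eq_mul, div_mul_eq_mul_div, ← key, mul_div_cancel_right₀ _ hj]⟩

variable [NeZero (2 : F)]

theorem bt_nondeg {x : W5 F} (h : ∀ y, bt x y = 0) : x = 0 := by
  have h0 := h (Pi.single 0 1); have h1 := h (Pi.single 1 1); have h2 := h (Pi.single 2 1)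
  have h3 := h (Pi.single 3 1); have h4 := h (Pi.single 4 1)
  have := two_ne_zero (α := F)
  ext i; fin_cases i <;> simp_all [bt_apply]

theorem dv_psi (x : W5 F) : dv (psi x) = x := by
  ext i; fin_cases i <;> simp [dv, psi_apply]

omit [NeZero (2 : F)] in
theorem dv_one : dv (1 : M4 F) = 0 := by
  ext i; fin_cases i <;> simp [dv]

theorem smul_one_add_psi {a b : F} {x y : W5 F} (h : a • (1 : M4 F) + psi x = b • 1 + psi y) :
    a = b ∧ x = y := by
  have h1 : x = y := by simpa [dv_psi, dv_one] using congrArg dv h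
  subst h1
  exact ⟨by simpa using congrFun (congrFun h (.inl 0)) (.inl 0), rfl⟩

theorem selfadj {A : M4 F} (h : ∀ u v, B4 (A *ᵥ u) v = B4 u (A *ᵥ v)) :
    A = (A.trace / 4) • (1 : M4 F) + psi (dv A) := by
  have e := fun i j => h (Pi.single i 1) (Pi.single j 1)
  have a1 := e (.inl 0) (.inl 0); have a2 := e (.inl 0) (.inl 1); have a3 := e (.inl 0) (.inr 0)
  have a4 := e (.inl 0) (.inr 1); have a6 := e (.inl 1) (.inl 1)
  have a7 := e (.inl 1) (.inr 0); have a8 := e (.inl 1) (.inr 1)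
  have b2 := e (.inr 0) (.inr 0); have b3 := e (.inr 0) (.inr 1)
  have b7 := e (.inr 1) (.inr 1)
  simp [B4_apply] at a1 a2 a3 a4 a6 a7 a8 b2 b3 b7
  have h2 : (2 : F) ≠ 0 := two_ne_zero
  have h4 : (4 : F) ≠ 0 := by rw [show (4 : F) = 2 * 2 by norm_num]; exact mul_ne_zero h2 h2
  have z : ∀ x : F, x = -x → x = 0 := fun x hx => mul_left_cancel₀ h2 (by linear_combination hx)
  replace a1 := z _ a1; replace a6 := z _ a6; replace b2 := z _ b2.symm; replace b7 := z _ b7.symm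
  ext (i | i) (j | j) <;> fin_cases i <;> fin_cases j <;>
    simp [psi_apply, dv, Matrix.trace, Fin.sum_univ_two, a1, a2, ← a3, ← a4, a6, ← a7, ← a8, b2,
      ← b3, b7] <;> field_simp <;> ring

theorem add_inv (g : Sp4 F) : g.1 + (g⁻¹).1 = (g.1.trace / 2) • (1 : M4 F) + psi (vd g) := by
  have h := selfadj (A := g.1 + (g⁻¹).1) fun u v => by
    have := B4_mulVec g⁻¹ u v
    rw [inv_inv] at this
    rw [add_mulVec, add_mulVec, map_add, map_add, LinearMap.add_apply, B4_mulVec, this, add_comm]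
  have h2 : (2 : F) ≠ 0 := two_ne_zero
  have h4 : (4 : F) ≠ 0 := by rw [show (4 : F) = 2 * 2 by norm_num]; exact mul_ne_zero h2 h2
  rw [trace_add, trace_inv, show (g.1.trace + g.1.trace) / 4 = g.1.trace / 2 by field_simp; ring] at h
  exact h

theorem psi_dv_conj (h : Sp4 F) (x : W5 F) :
    psi (dv (h.1 * psi x * (h⁻¹).1)) = h.1 * psi x * (h⁻¹).1 := by
  have e := selfadj (A := h.1 * psi x * (h⁻¹).1) fun u v => by
    have := B4_mulVec h⁻¹ u
    rw [inv_inv] at this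
    simp only [← mulVec_mulVec]
    rw [B4_mulVec, B4_psi, this]
  rw [trace_mul_comm, ← mul_assoc, coe_inv_mul, one_mul, trace_psi, zero_div, zero_smul,
    zero_add] at e
  exact e.symm

/-- the action on `W5` -/
def sg : Sp4 F →* Module.End F (W5 F) where
  toFun h := dv ∘ₗ (LinearMap.mulRight F (h⁻¹).1 ∘ₗ LinearMap.mulLeft F h.1) ∘ₗ psi
  map_one' := LinearMap.ext fun x => by simp [dv_psi]
  map_mul' g h := LinearMap.ext fun x => by
    have := psi_dv_conj h x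
    simp only [LinearMap.comp_apply, Module.End.mul_apply, LinearMap.mulRight_apply,
      LinearMap.mulLeft_apply, this, _root_.mul_inv_rev, Submonoid.coe_mul]
    simp only [mul_assoc]

theorem psi_sg (h : Sp4 F) (x : W5 F) : psi (sg h x) = h.1 * psi x * (h⁻¹).1 := psi_dv_conj h x

theorem psi_sg_mul (h : Sp4 F) (x : W5 F) : psi (sg h x) * h.1 = h.1 * psi x := by
  rw [psi_sg, mul_assoc, coe_inv_mul, mul_one]

theorem sg_eq_iff {h : Sp4 F} {x y : W5 F} : sg h x = y ↔ h.1 * psi x = psi y * h.1 :=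
  ⟨fun e => by rw [← e, psi_sg_mul], fun e => psi_injective (by
    rw [psi_sg, e, mul_assoc, coe_mul_inv, mul_one])⟩

theorem sg_mul (g h : Sp4 F) (x : W5 F) : sg (g * h) x = sg g (sg h x) := by rw [map_mul]; rfl

theorem sg_inv_sg (g : Sp4 F) (x : W5 F) : sg g⁻¹ (sg g x) = x := by
  rw [← sg_mul, inv_mul_cancel, map_one]; rfl

theorem sg_sg_inv (g : Sp4 F) (x : W5 F) : sg g (sg g⁻¹ x) = x := by
  rw [← sg_mul, mul_inv_cancel, map_one]; rfl

theorem sg_neg {g h : Sp4 F} (e : h.1 = -g.1) : sg h = sg g :=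
  LinearMap.ext fun x => sg_eq_iff.2 (by rw [e, neg_mul, mul_neg, psi_sg_mul])

theorem bt_sg (h : Sp4 F) (x y : W5 F) : bt (sg h x) (sg h y) = bt x y := by
  have e := psi_anti (sg h x) (sg h y)
  have : ∀ a b : W5 F, psi (sg h a) * psi (sg h b) = h.1 * (psi a * psi b) * (h⁻¹).1 := fun a b => by
    rw [psi_sg h b, ← mul_assoc, ← mul_assoc, psi_sg_mul]; simp only [mul_assoc]
  rw [this, this, ← add_mul, ← mul_add, psi_anti, mul_smul_comm, smul_mul_assoc, mul_one,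
    coe_mul_inv] at e
  simpa using (congrFun (congrFun e (.inl 0)) (.inl 0)).symm

theorem q5_sg (h : Sp4 F) (x : W5 F) : q5 (sg h x) = q5 x :=
  mul_left_cancel₀ two_ne_zero (by rw [← bt_self, ← bt_self, bt_sg])

theorem vd_conj (h g : Sp4 F) : vd (h * g * h⁻¹) = sg h (vd g) := by
  have e := add_inv (h * g * h⁻¹)
  have e' : (h * g * h⁻¹).1 + ((h * g * h⁻¹)⁻¹).1 = h.1 * (g.1 + (g⁻¹).1) * (h⁻¹).1 := by
    rw [show (h * g * h⁻¹)⁻¹ = h * g⁻¹ * h⁻¹ by group, mul_add, add_mul]; rfl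
  rw [e', add_inv, mul_add, add_mul, mul_smul_comm, smul_mul_assoc, mul_one, coe_mul_inv,
    ← psi_sg] at e
  exact (smul_one_add_psi e).2.symm

/-- `y = g + g⁻¹` satisfies `y² = t y + (q - t²/4)`; trace and vector of the square -/
theorem sq_data (g : Sp4 F) : (g ^ 2).1.trace = 2 * ((g.1.trace / 2) ^ 2 + q5 (vd g) - 2) ∧
    vd (g ^ 2) = g.1.trace • vd g := by
  have e := add_inv (g ^ 2)
  have e' : (g ^ 2).1 + ((g ^ 2)⁻¹).1 = (g.1 + (g⁻¹).1) * (g.1 + (g⁻¹).1) - (2 : F) • 1 := by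
    rw [← inv_pow, sq, sq, add_mul, mul_add, mul_add, coe_mul_inv, coe_inv_mul, two_smul]
    simp only [Submonoid.coe_mul]; abel
  have h2 : (2 : F) ≠ 0 := two_ne_zero
  have e2 : ((g.1.trace / 2) ^ 2 + q5 (vd g) - 2) • (1 : M4 F) + psi (g.1.trace • vd g) =
      ((g ^ 2).1.trace / 2) • 1 + psi (vd (g ^ 2)) := by
    rw [← e, e', add_inv, add_mul, mul_add, mul_add, psi_sq, map_smul]
    simp only [smul_mul_assoc, mul_smul_comm, one_mul, mul_one]
    match_scalars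
    · ring
    · field_simp; ring
  obtain ⟨a, b⟩ := smul_one_add_psi e2
  exact ⟨by rw [a]; field_simp, b.symm⟩

theorem sg_of_psi {g : Sp4 F} {a : W5 F} (ha : q5 a = 1) (e : g.1 = psi a ∨ g.1 = -psi a)
    (x : W5 F) : sg g x = -(x - bt a x • a) := by
  have : sg (rt ha) x = -(x - bt a x • a) := sg_eq_iff.2 (by
    change psi a * psi x = _ * psi a
    rw [map_neg, map_sub, map_smul, neg_mul, sub_mul, smul_mul_assoc, psi_sq, ha, psi_swap a x]
    simp)
  rcases e with e | e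
  · rw [show g = rt ha from Subtype.ext e, this]
  · rw [sg_neg (g := rt ha) e, this]

/-- `pr a b` acts as the product of the two reflections -/
theorem sg_pr {a b : W5 F} {c : F} (hc : c ≠ 0) (ha : q5 a = c) (hb : q5 b = c) (x : W5 F) :
    sg (pr hc ha hb) x = (x - (bt b x / c) • b) - (bt a (x - (bt b x / c) • b) / c) • a := by
  have key : ∀ a x : W5 F, q5 a = c → psi a * psi x = -psi (x - (bt a x / c) • a) * psi a :=
    fun a x ha => by
      rw [map_sub, map_smul, neg_mul, sub_mul, smul_mul_assoc, psi_sq, ha, psi_swap a x, smul_smul,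
        div_mul_cancel₀ _ hc]
      simp
  rw [sg_eq_iff, coe_pr, smul_mul_assoc, mul_smul_comm, mul_assoc, key b x hb, neg_mul, mul_neg,
    ← mul_assoc, key a _ ha, ← mul_assoc, neg_mul, neg_mul, neg_neg]

omit [NeZero (2 : F)] in
/-- the `psi x` generate the matrix algebra -/
theorem comm_psi {A : M4 F} (h : ∀ x, A * psi x = psi x * A) : ∃ c : F, A = c • (1 : M4 F) := by
  have e := fun k i j => congrFun (congrFun (h (Pi.single k 1)) i) j
  have a1 := e 1 (.inl 0) (.inl 0); have a2 := e 1 (.inl 0) (.inl 1)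
  have a4 := e 2 (.inl 0) (.inl 0); have a6 := e 3 (.inl 0) (.inl 0)
  have a7 := e 3 (.inl 1) (.inl 1); have a8 := e 3 (.inl 0) (.inl 1); have a9 := e 3 (.inl 1) (.inl 0)
  have b1 := e 3 (.inl 0) (.inr 1); have b2 := e 3 (.inl 1) (.inr 0); have b3 := e 4 (.inl 0) (.inl 0)
  have b4 := e 4 (.inl 1) (.inl 1); have b5 := e 4 (.inl 0) (.inl 1); have b6 := e 4 (.inl 1) (.inl 0)
  have b7 := e 1 (.inr 0) (.inr 0); have b8 := e 2 (.inr 1) (.inr 1)
  simp [psi_apply, mul_apply, Fin.sum_univ_two] at a1 a2 a4 a6 a7 a8 a9 b1 b2 b3 b4 b5 b6 b7 b8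
  refine ⟨A (.inl 0) (.inl 0), ?_⟩
  ext (i | i) (j | j) <;> fin_cases i <;> fin_cases j <;>
    simp [← a1, ← a2, a4, ← a6, a7, ← a8, a9, ← b1, ← b2, b3, b4, b5, b6, b7, b8]

theorem invol {g : Sp4 F} (h : g.1 * g.1 = 1) : g.1 = 1 ∨ g.1 = -1 ∨ ∃ x, q5 x = 1 ∧ g.1 = psi x := by
  have h2 : (2 : F) ≠ 0 := two_ne_zero
  have hi : (g⁻¹).1 = g.1 := by rw [← mul_one (g⁻¹).1, ← h, ← mul_assoc, coe_inv_mul, one_mul]
  have e := selfadj (A := g.1) fun u v => by rw [B4_mulVec, hi]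
  set a := g.1.trace / 4
  set x := dv g.1
  have e2 : (a ^ 2 + q5 x) • (1 : M4 F) + psi ((2 * a) • x) = (1 : F) • (1 : M4 F) + psi 0 := by
    rw [map_zero, add_zero, one_smul]
    refine Eq.trans ?_ h
    conv_rhs => rw [e, add_mul, mul_add, mul_add, psi_sq]
    simp only [map_smul, smul_mul_assoc, mul_smul_comm, one_mul, mul_one]
    match_scalars <;> ring
  obtain ⟨e3, e4⟩ := smul_one_add_psi e2
  rcases smul_eq_zero.1 e4 with h0 | h0
  · have h0 : a = 0 := (mul_eq_zero.1 h0).resolve_left h2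
    exact Or.inr (Or.inr ⟨x, by simpa [h0] using e3, by simpa [h0] using e⟩)
  · rw [h0, map_zero, add_zero] at e
    have : a ^ 2 = 1 := by simpa [h0, q5] using e3
    rcases sq_eq_one_iff.1 this with h1 | h1
    · exact Or.inl (by simpa [h1] using e)
    · exact Or.inr (Or.inl (by simpa [h1] using e))

end CfsgLib.Dim4
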