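import Mathlib
import Cfsg.Agent.Lib.Dim4.W5
import Cfsg.Agent.Lib.Mit.Root

/-!
DIM4, package QDa: big planes are opposite.  See `plans/DIM4.md`.
-/

set_option autoImplicit false
set_option linter.unusedSectionVars false

namespace CfsgLib.Dim4

open Matrix Cfsg Cfsg.Geo CfsgLib.Asch CfsgLib.Forms CfsgLib.Symp Subgroup
open scoped MatrixGroups commutatorElement

variable {G F : Type*} [Group G] [Finite G] [Field F] [NeZero (2 : F)] {ρ : G →* Sp4 F}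
  {p : ℕ} [Fact p.Prime] [CharP F p] {L M : Submodule F (V4 F)}

namespace QD

omit [NeZero (2 : F)] in
theorem mx_ext {A B : M4 F} (h : ∀ v, A *ᵥ v = B *ᵥ v) : A = B :=
  Matrix.toLin'.injective (LinearMap.ext h)

omit [Finite G] [NeZero (2 : F)] in
theorem smul_eq {N : M4 F} {g : G} (h : (ρ g).1 = 1 + N) (v : V4 F) : ρ g • v = v + N *ᵥ v := by
  rw [sp_smul_def, h, add_mulVec, one_mulVec]

section AL

variable {N N' : M4 F}

omit [Finite G] [NeZero (2 : F)]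

theorem mul_eq (hN : N ∈ AL ρ L) (hN' : N' ∈ AL ρ L) : N * N' = 0 :=
  mx_ext fun v => by rw [← mulVec_mulVec, hN.2.2 _ (hN'.2.1 v), zero_mulVec]

theorem skew (hN : N ∈ AL ρ L) (u v : V4 F) : B4 u (N *ᵥ v) = B4 v (N *ᵥ u) := by
  obtain ⟨⟨g, hg⟩, h1, h2⟩ := hN
  have a := B4_smul (ρ g) u v
  have b := B4_smul (ρ g) u (N *ᵥ v)
  rw [smul_eq hg, smul_eq hg] at a b
  rw [h2 _ (h1 v)] at b
  simp only [map_add, LinearMap.add_apply, add_zero] at a b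
  rw [spB_comm v]
  linear_combination a - b

theorem zero_mem : (0 : M4 F) ∈ AL ρ L := ⟨⟨1, by simp⟩, by simp, by simp⟩

theorem add_mem (hN : N ∈ AL ρ L) (hN' : N' ∈ AL ρ L) : N + N' ∈ AL ρ L := by
  have e := mul_eq hN hN'
  obtain ⟨⟨g, hg⟩, h1, h2⟩ := hN
  obtain ⟨⟨g', hg'⟩, h1', h2'⟩ := hN'
  refine ⟨⟨g * g', ?_⟩, fun v => ?_, fun v hv => ?_⟩
  · rw [map_mul, Submonoid.coe_mul, hg, hg', add_mul, mul_add, mul_add, e]
    simp [add_assoc, add_comm]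
  · rw [add_mulVec]; exact L.add_mem (h1 v) (h1' v)
  · rw [add_mulVec, h2 v hv, h2' v hv, add_zero]

theorem neg_mem (hN : N ∈ AL ρ L) : -N ∈ AL ρ L := by
  have e := mul_eq hN hN
  obtain ⟨⟨g, hg⟩, h1, h2⟩ := hN
  refine ⟨⟨g⁻¹, ?_⟩, fun v => ?_, fun v hv => ?_⟩
  · have : (1 + N) * (1 + -N) = 1 := by rw [add_mul, mul_add, mul_add, mul_neg N, e]; simp
    rw [← hg] at this
    rw [map_inv, ← mul_one ((ρ g)⁻¹).1, ← this, ← mul_assoc, coe_inv_mul, one_mul, this]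
  · rw [neg_mulVec]; exact L.neg_mem (h1 v)
  · rw [neg_mulVec, h2 v hv, neg_zero]

/-- `AL` as an additive subgroup -/
def ALs (ρ : G →* Sp4 F) (L : Submodule F (V4 F)) : AddSubgroup (M4 F) where
  carrier := AL ρ L
  zero_mem' := zero_mem
  add_mem' := add_mem
  neg_mem' := neg_mem

theorem sub_mem (hN : N ∈ AL ρ L) (hN' : N' ∈ AL ρ L) : N - N' ∈ AL ρ L :=
  (ALs ρ L).sub_mem hN hN'

theorem mem_map {g : G} {v : V4 F} : v ∈ L.map (toLin' (ρ g).1) ↔ ρ g⁻¹ • v ∈ L :=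
  ⟨by rintro ⟨w, hw, rfl⟩; change ρ g⁻¹ • ρ g • w ∈ L; rwa [map_inv, inv_smul_smul],
    fun h => ⟨_, h, by change ρ g • ρ g⁻¹ • v = v; rw [map_inv, smul_inv_smul]⟩⟩

theorem cjv (g : G) (v : V4 F) :
    ((ρ g).1 * N * (ρ g⁻¹).1) *ᵥ v = ρ g • N *ᵥ (ρ g⁻¹ • v) := by
  simp only [sp_smul_def, mulVec_mulVec, mul_assoc]

theorem cj_smul (g : G) (v : V4 F) :
    ((ρ g).1 * N * (ρ g⁻¹).1) *ᵥ (ρ g • v) = ρ g • N *ᵥ v := by
  rw [cjv, map_inv, inv_smul_smul]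

theorem conj_mem (hN : N ∈ AL ρ L) (g : G) :
    (ρ g).1 * N * (ρ g⁻¹).1 ∈ AL ρ (L.map (toLin' (ρ g).1)) := by
  obtain ⟨⟨k, hk⟩, h1, h2⟩ := hN
  refine ⟨⟨g * k * g⁻¹, ?_⟩, fun v => ?_, fun v hv => ?_⟩
  · rw [map_mul, map_mul, Submonoid.coe_mul, Submonoid.coe_mul, hk, mul_add, add_mul, mul_one,
      map_inv, coe_mul_inv]
  · rw [cjv]; exact ⟨_, h1 _, rfl⟩
  · rw [cjv, h2 _ (mem_map.1 hv), smul_zero']

theorem map_eq {g : G} (h : ∀ v ∈ L, ρ g • v ∈ L) : L.map (toLin' (ρ g).1) = L :=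
  Submodule.eq_of_le_of_finrank_le (by rintro _ ⟨v, hv, rfl⟩; exact h v hv)
    (Submodule.equivMapOfInjective _ (MulAction.injective (ρ g)) L).finrank_eq.le

theorem conj_mem' (hN : N ∈ AL ρ L) {g : G} (h : ∀ v ∈ L, ρ g • v ∈ L) :
    (ρ g).1 * N * (ρ g⁻¹).1 ∈ AL ρ L := map_eq h ▸ conj_mem hN g

theorem cj_eq_iff (g : G) :
    (ρ g).1 * N * (ρ g⁻¹).1 = (ρ g).1 * N' * (ρ g⁻¹).1 ↔ N = N' :=
  ⟨fun h => mx_ext fun v => MulAction.injective (ρ g) (by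
    have := congrArg (· *ᵥ (ρ g • v)) h
    simpa only [cj_smul] using this), fun h => by rw [h]⟩

theorem pow_p (hN : N ∈ AL ρ L) {g : G} (hg : (ρ g).1 = 1 + N) : ρ g ^ p ^ 1 = 1 := by
  refine Subtype.ext ?_
  rw [pow_one, SubmonoidClass.coe_pow, hg, add_pow_char_of_commute _ (Commute.one_left N), one_pow,
    pow_eq_zero_of_le (Fact.out : p.Prime).two_le (by rw [sq, mul_eq hN hN]), add_zero]
  rfl

end AL

theorem span_two (hL : Module.finrank F L = 2) {x l : V4 F} (hx : x ∈ L) (hl : l ∈ L) (h0 : x ≠ 0)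
    (h : ∀ c : F, l ≠ c • x) : ∀ v ∈ L, ∃ a b : F, v = a • l + b • x := by
  have li : LinearIndependent F ![x, l] :=
    (LinearIndependent.pair_iff' h0).2 fun c e => h c e.symm
  have e : Submodule.span F (Set.range ![x, l]) = L :=
    Submodule.eq_of_le_of_finrank_le (Submodule.span_le.2 (by
      rintro _ ⟨i, rfl⟩; fin_cases i; exacts [hx, hl])) (by rw [finrank_span_eq_card li, hL]; simp)
  intro v hv
  rw [← e, Matrix.range_cons_cons_empty, Submodule.mem_span_pair] at hv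
  obtain ⟨a, b, rfl⟩ := hv
  exact ⟨b, a, add_comm _ _⟩

theorem exists_two (hL : Module.finrank F L = 2) {x : V4 F} (h0 : x ≠ 0) :
    ∃ l ∈ L, ∀ c : F, l ≠ c • x := by
  by_contra! h
  have := Submodule.finrank_mono (show L ≤ Submodule.span F {x} from fun l hl => by
    obtain ⟨c, rfl⟩ := h l hl
    exact Submodule.smul_mem _ _ (Submodule.mem_span_singleton_self x))
  rw [finrank_span_singleton h0] at this
  omega

theorem eq_zero_of_comb {x l : V4 F} (h : ∀ c : F, l ≠ c • x) {a b : F} (e : a • l = b • x) :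
    a = 0 := by
  by_contra ha
  exact h (a⁻¹ * b) (by rw [mul_smul, ← e, inv_smul_smul₀ ha])

end QD

open QD

omit [Finite G] in
/-- without transvections the plane of a non-zero `N` is its kernel and its image, a Lagrangian -/
theorem AL.lag (ht : NT ρ) {N : M4 F} (hN : N ∈ AL ρ L) (h0 : N ≠ 0) :
    Module.finrank F L = 2 ∧ (∀ v, v ∈ L ↔ N *ᵥ v = 0) ∧ (∀ v ∈ L, ∃ w, N *ᵥ w = v) ∧
      ∀ u ∈ L, ∀ v ∈ L, B4 u v = 0 := by
  have h1 : LinearMap.range (toLin' N) ≤ L := by rintro _ ⟨v, rfl⟩; exact hN.2.1 v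
  have h2 : L ≤ LinearMap.ker (toLin' N) := hN.2.2
  have h3 := LinearMap.finrank_range_add_finrank_ker (toLin' N)
  rw [finrank_V4] at h3
  have h4 : 2 ≤ Module.finrank F (LinearMap.range (toLin' N)) := by
    by_contra hc
    obtain ⟨⟨y, hy⟩, h⟩ := finrank_le_one_iff.1 (Nat.le_of_lt_succ (not_le.1 hc))
    have h' : ∀ v, ∃ c : F, c • y = N *ᵥ v := fun v =>
      (h ⟨_, v, rfl⟩).imp fun _ e => congrArg Subtype.val e
    have y0 : y ≠ 0 := by
      rintro rfl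
      exact h0 (mx_ext fun v => by obtain ⟨c, hc⟩ := h' v; rw [← hc]; simp)
    obtain ⟨u, hu⟩ := exists_spB_eq_one y0
    obtain ⟨d, hd⟩ := h' u
    have e : ∀ v, N *ᵥ v = (d * B4 v y) • y := fun v => by
      obtain ⟨c, hc⟩ := h' v
      have := skew hN u v
      rw [← hc, ← hd, map_smul, map_smul, hu] at this
      rw [← hc, ← smul_eq_mul, ← this, smul_eq_mul, mul_one]
    obtain ⟨g, hg⟩ := hN.1
    rcases ht y d ⟨g, sp_ext fun v => by rw [smul_eq hg, spT_smul, e]⟩ with h | h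
    · exact y0 h
    · exact h0 (mx_ext fun v => by rw [e, h]; simp)
  have f1 := Submodule.finrank_mono h1
  have f2 := Submodule.finrank_mono h2
  have f3 : ∀ {a b c : ℕ}, a + c = 4 → 2 ≤ a → a ≤ b → b ≤ c → b ≤ a ∧ c ≤ b ∧ b = 2 := by omega
  obtain ⟨f4, f5, f6⟩ := f3 h3 h4 f1 f2
  have e1 := Submodule.eq_of_le_of_finrank_le h1 f4
  have e2 := Submodule.eq_of_le_of_finrank_le h2 f5
  refine ⟨f6, fun v => by rw [e2]; rfl, fun v hv => (e1.ge hv :), fun u hu v hv => ?_⟩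
  obtain ⟨w, rfl⟩ : ∃ w, N *ᵥ w = v := (e1.ge hv :)
  rw [skew hN, hN.2.2 u hu, map_zero]

namespace QD

variable {N N' : M4 F}

omit [Finite G] in
theorem mem_of_perp (ht : NT ρ) (hN : N ∈ AL ρ L) (h0 : N ≠ 0) {v : V4 F}
    (h : ∀ l ∈ L, B4 v l = 0) : v ∈ L :=
  ((AL.lag ht hN h0).2.1 v).2 (eq_zero_of_B4 fun u => by rw [skew hN, h _ (hN.2.1 u)])

omit [Finite G] in
theorem sing (ht : NT ρ) (hN : N ∈ AL ρ L) {v : V4 F} (hv : v ∉ L) (h : N *ᵥ v = 0) : N = 0 := by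
  by_contra h0
  exact hv (((AL.lag ht hN h0).2.1 v).2 h)

omit [Finite G] in
theorem comm_fix (ht : NT ρ) (hN : N ∈ AL ρ L) (h0 : N ≠ 0) {g : G} {x l : V4 F} {b : F}
    (hx : x ∈ L) (hl : l ∈ L) (x0 : x ≠ 0) (sp : ∀ v ∈ L, ∃ a b : F, v = a • l + b • x)
    (h1 : ρ g • x = x) (h2 : ρ g • l = l + b • x)
    (hc : (ρ g).1 * N * (ρ g⁻¹).1 - N = 0) : b = 0 := by
  obtain ⟨-, k, sur, iso⟩ := AL.lag ht hN h0
  have hc' : ∀ v, N *ᵥ (ρ g • v) = ρ g • N *ᵥ v := fun v => by rw [← cj_smul, sub_eq_zero.1 hc]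
  obtain ⟨w₁, e₁⟩ := sur x hx
  obtain ⟨w₂, e₂⟩ := sur l hl
  have a₁ : ρ g • w₁ - w₁ ∈ L := (k _).2 (by rw [mulVec_sub, hc', e₁, h1, sub_self])
  have a₂ : ρ g • w₂ - (w₂ + b • w₁) ∈ L := (k _).2 (by
    rw [mulVec_sub, hc', mulVec_add, mulVec_smul, e₁, e₂, h2, sub_self])
  have hlx : l + b • x ∈ L := L.add_mem hl (L.smul_mem b hx)
  have c₁ := iso _ a₁ _ hlx
  have c₂ := iso _ a₂ _ hlx
  have s := skew hN w₁ w₂
  rw [map_sub, LinearMap.sub_apply, ← h2, B4_smul, h2] at c₁ c₂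
  rw [e₁, e₂] at s
  simp only [map_add, map_smul, LinearMap.add_apply, LinearMap.smul_apply, smul_eq_mul] at c₁ c₂
  by_contra hb
  have d₁ : B4 w₁ x = 0 := mul_left_cancel₀ hb (by linear_combination -c₁)
  have d₂ : B4 w₁ l = 0 := mul_left_cancel₀ (mul_ne_zero (two_ne_zero' F) hb) (by
    linear_combination -c₂ + b * s - b * b * d₁)
  refine x0 (e₁ ▸ hN.2.2 _ (mem_of_perp ht hN h0 fun v hv => ?_))
  obtain ⟨a, c, rfl⟩ := sp v hv
  simp [d₁, d₂]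

end QD

omit [Finite G] in
/-- a `p`-element stabilising the plane is trivial on it -/
theorem pfix (ht : NT ρ) {N : M4 F} (hN : N ∈ AL ρ L) (h0 : N ≠ 0) {g : G} {k : ℕ}
    (hg : ρ g ^ p ^ k = 1) (hL : ∀ v ∈ L, ρ g • v ∈ L) : ∀ v ∈ L, ρ g • v = v := by
  obtain ⟨h2, ker, sur, iso⟩ := AL.lag ht hN h0
  have nil : ((ρ g).1 - 1) ^ p ^ k = 0 := by
    rw [sub_pow_char_pow_of_commute _ _ (Commute.one_right _), one_pow, ← SubmonoidClass.coe_pow,
      hg]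
    exact sub_self _
  have fx : ∀ n, ∀ v ∈ L, v ≠ 0 → (((ρ g).1 - 1) ^ n) *ᵥ v = 0 → ∃ x ∈ L, x ≠ 0 ∧ ρ g • x = x := by
    intro n
    induction n with
    | zero => intro v _ h1 h; simp [h1] at h
    | succ n ih =>
      intro v hv h1 h
      by_cases e : ρ g • v = v
      · exact ⟨v, hv, h1, e⟩
      · refine ih _ (L.sub_mem (hL v hv) hv) (sub_ne_zero.2 e) ?_
        rwa [pow_succ, ← mulVec_mulVec, sub_mulVec, one_mulVec] at h
  intro v hv
  by_cases v0 : v = 0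
  · rw [v0, smul_zero']
  obtain ⟨x, hx, x0, fx⟩ := fx _ v hv v0 (by rw [nil, zero_mulVec])
  obtain ⟨l, hl, nl⟩ := exists_two h2 x0
  have sp := span_two h2 hx hl x0 nl
  obtain ⟨a, b, e⟩ := sp _ (hL l hl)
  have pw : ∀ n : ℕ, ∃ c : F, ρ g ^ n • l = a ^ n • l + c • x := fun n => by
    induction n with
    | zero => exact ⟨0, by simp⟩
    | succ n ih =>
      obtain ⟨c, hc⟩ := ih
      refine ⟨a ^ n * b + c, ?_⟩
      rw [pow_succ', mul_smul, hc, smul_add', smul_smul', smul_smul', e, fx]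
      module
  obtain rfl : a = 1 := by
    obtain ⟨c, hc⟩ := pw (p ^ k)
    rw [hg, one_smul] at hc
    have := eq_zero_of_comb nl (a := a ^ p ^ k - 1) (b := -c) (by
      rw [sub_smul, one_smul, neg_smul, sub_eq_iff_eq_add, neg_add_eq_sub, eq_sub_iff_add_eq, ← hc])
    rw [← one_pow (p ^ k), ← sub_pow_char_pow] at this
    exact sub_eq_zero.1 (eq_zero_of_pow_eq_zero this)
  rw [one_smul] at e
  suffices hb : b = 0 by
    obtain ⟨c, d, rfl⟩ := sp v hv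
    rw [smul_add', smul_smul', smul_smul', e, fx, hb, zero_smul, add_zero]
  by_contra hb
  obtain ⟨w₁, e₁⟩ := sur x hx
  obtain ⟨w₂, e₂⟩ := sur l hl
  have s := skew hN w₁ w₂
  rw [e₁, e₂] at s
  set y := B4 w₂ x • w₁ - B4 w₁ x • w₂ with hy
  have y1 : B4 y x = 0 := by simp [hy, mul_comm]
  have y2 : y ∉ L := fun h => by
    have := hN.2.2 _ h
    rw [hy, mulVec_sub, mulVec_smul, mulVec_smul, e₁, e₂, sub_eq_zero] at this
    have d₁ := eq_zero_of_comb nl this.symm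
    rw [d₁, zero_smul] at this
    have d₂ := (smul_eq_zero.1 this).resolve_right x0
    refine x0 (e₁ ▸ hN.2.2 _ (mem_of_perp ht hN h0 fun v hv => ?_))
    obtain ⟨a, c, rfl⟩ := sp v hv
    simp [d₁, d₂, s]
  have y3 : ρ g⁻¹ • y - y ∈ L := mem_of_perp ht hN h0 fun v hv => by
    obtain ⟨a, c, rfl⟩ := sp v hv
    rw [map_sub, LinearMap.sub_apply, B4_inv, ← map_inv, inv_inv, smul_add', smul_smul', smul_smul',
      e, fx]
    simp [y1]
  have del : ∀ N' ∈ AL ρ L, ((ρ g).1 * N' * (ρ g⁻¹).1 - N') *ᵥ y = ρ g • N' *ᵥ y - N' *ᵥ y :=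
    fun N' hN' => by
      have := hN'.2.2 _ y3
      rw [mulVec_sub, sub_eq_zero] at this
      rw [sub_mulVec, cjv, this]
  have m1 := sub_mem (conj_mem' hN hL) hN
  have m2 := sub_mem (conj_mem' m1 hL) m1
  have z2 := sing ht m2 y2 (by
    obtain ⟨a, c, hac⟩ := sp _ (hN.2.1 y)
    have : ρ g • N *ᵥ y - N *ᵥ y = (a * b) • x := by
      rw [hac, smul_add', smul_smul', smul_smul', e, fx]; module
    rw [del _ m1, del _ hN, this, smul_smul', fx, sub_self])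
  have z1 : (ρ g).1 * N * (ρ g⁻¹).1 - N = 0 := by
    by_contra h
    exact hb (comm_fix ht m1 h hx hl x0 sp fx e z2)
  exact hb (comm_fix ht hN h0 hx hl x0 sp fx e z1)

omit [Finite G] [NeZero (2 : F)] in
theorem Big.conj (h : Big ρ L) (g : G) : Big ρ (L.map (toLin' (ρ g).1)) := by
  obtain ⟨N, hN, N', hN', h1, h2, h3⟩ := h
  have z : ∀ {A : M4 F}, (ρ g).1 * A * (ρ g⁻¹).1 = 0 → A = 0 := fun e =>
    (cj_eq_iff g).1 (by rw [e]; simp)
  refine ⟨_, conj_mem hN g, _, conj_mem hN' g, fun e => h1 (z e), fun e => h2 (z e),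
    fun e => h3 ⟨e.1, e.2.imp (cj_eq_iff g).1 fun e => (cj_eq_iff (ρ := ρ) g).1 ?_⟩⟩
  rw [e, mul_neg, neg_mul]

namespace QD

open CfsgLib.Dickson CfsgLib.Dickson.P1

/-- the action on the span of `e, f` modulo the fixed vector `x` -/
def act (ρ : G →* Sp4 F) (x e f : V4 F) : Subgroup SL(2, F) where
  carrier := {A | ∃ g, ρ g • x = x ∧ (∃ a : F, ρ g • e = A 0 0 • e + A 1 0 • f + a • x) ∧
    ∃ b : F, ρ g • f = A 0 1 • e + A 1 1 • f + b • x}
  one_mem' := ⟨1, by simp, ⟨0, by simp [SL2.one_00, SL2.one_10]⟩, 0, by simp [SL2.one_01, SL2.one_11]⟩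
  mul_mem' := by
    rintro A A' ⟨g, h1, ⟨a, h2⟩, b, h3⟩ ⟨g', h1', ⟨a', h2'⟩, b', h3'⟩
    refine ⟨g * g', by rw [map_mul, mul_smul, h1', h1], ⟨A' 0 0 * a + A' 1 0 * b + a', ?_⟩,
      A' 0 1 * a + A' 1 1 * b + b', ?_⟩
    · rw [map_mul, mul_smul, h2']
      simp only [smul_add', smul_smul', h1, h2, h3, SL2.mul_ap]
      module
    · rw [map_mul, mul_smul, h3']
      simp only [smul_add', smul_smul', h1, h2, h3, SL2.mul_ap]
      module
  inv_mem' := by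
    rintro A ⟨g, h1, ⟨a, h2⟩, b, h3⟩
    have d := SL2.det_eq A
    refine ⟨g⁻¹, by rw [map_inv, inv_smul_eq_iff, h1], ⟨A 1 0 * b - A 1 1 * a, ?_⟩,
      A 0 1 * a - A 0 0 * b, ?_⟩
    · rw [map_inv, inv_smul_eq_iff]
      simp only [smul_add', smul_smul', h1, h2, h3, SL2.inv_00, SL2.inv_10]
      linear_combination (norm := module) (-d) • e
    · rw [map_inv, inv_smul_eq_iff]
      simp only [smul_add', smul_smul', h1, h2, h3, SL2.inv_01, SL2.inv_11]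
      linear_combination (norm := module) (-d) • f

theorem finite_act {x e f : V4 F}
    (ind : ∀ s t c : F, s • e + t • f + c • x = 0 → s = 0 ∧ t = 0) : Finite (act ρ x e f) := by
  refine Finite.of_injective (fun A : act ρ x e f => A.2.choose) fun A A' h => ?_
  obtain ⟨-, ⟨a, h2⟩, b, h3⟩ := A.2.choose_spec
  obtain ⟨-, ⟨a', h2'⟩, b', h3'⟩ := A'.2.choose_spec
  simp only at h
  rw [← h] at h2' h3'
  have e1 := ind (A.1 0 0 - A'.1 0 0) (A.1 1 0 - A'.1 1 0) (a - a') (by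
    linear_combination (norm := module) h2.symm.trans h2')
  have e2 := ind (A.1 0 1 - A'.1 0 1) (A.1 1 1 - A'.1 1 1) (b - b') (by
    linear_combination (norm := module) h3.symm.trans h3')
  exact Subtype.ext (SL2.ext2 (sub_eq_zero.1 e1.1) (sub_eq_zero.1 e2.1) (sub_eq_zero.1 e1.2)
    (sub_eq_zero.1 e2.2))

theorem uu_mem {x e f : V4 F} {g : G} {c b : F} (h1 : ρ g • x = x) (h2 : ρ g • e = e)
    (h3 : ρ g • f = f + (c • e + b • x)) : SL2.uu c ∈ act ρ x e f :=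
  ⟨g, h1, ⟨0, by simp [h2, SL2.uu_00, SL2.uu_10]⟩, b, by
    rw [h3, SL2.uu_01, SL2.uu_11]; module⟩

theorem ll_mem {x e f : V4 F} {g : G} {c b : F} (h1 : ρ g • x = x) (h2 : ρ g • f = f)
    (h3 : ρ g • e = e + (c • f + b • x)) : SL2.ll c ∈ act ρ x e f :=
  ⟨g, h1, ⟨b, by rw [h3, SL2.ll_00, SL2.ll_10]; module⟩, 0, by simp [h2, SL2.ll_01, SL2.ll_11]⟩

include p in
theorem pair (X : Subgroup SL(2, F)) [Finite X] {lam : F} (hlam : lam ≠ 0)
    (hu : SL2.uu lam ∈ X) (hv : SL2.ll 1 ∈ X) :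
    (∃ K : Subfield F, (∀ b, SL2.uu b ∈ X ↔ b ∈ K) ∧ ∀ c, SL2.ll c ∈ X ↔ c ∈ K) ∨
    ((3 : F) = 0 ∧ lam ^ 2 = -1 ∧ (∀ b, SL2.uu b ∈ X → b = 0 ∨ b = lam ∨ b = -lam)) := by
  have hp : Odd (p : ℕ) := (Fact.out : p.Prime).odd_of_ne_two fun e =>
    two_ne_zero' F (by have := CharP.cast_eq_zero F p; rw [e] at this; exact_mod_cast this)
  have key : ∀ {u : F → SL(2, F)}, (∀ (b : F) (n : ℕ), u b ^ n = u (n * b)) → ∀ {b : F},
      slPGL F (u b) ∈ X.map (slPGL F) → u b ∈ X := by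
    rintro u hu b ⟨g, hg, e⟩
    rcases slPGL_eq_iff.1 e with rfl | rfl
    · exact hg
    · have := X.pow_mem hg (p + 1)
      rwa [(hp.add_one).neg_pow, hu, Nat.cast_add, Nat.cast_one, CharP.cast_eq_zero, zero_add,
        one_mul] at this
  have e1 : ∀ b, aff 1 b one_ne_zero ∈ X.map (slPGL F) ↔ SL2.uu b ∈ X := fun b => by
    rw [← slPGL_uu]
    exact ⟨key SL2.uu_pow, Subgroup.mem_map_of_mem _⟩
  have e2 : ∀ c, pm 1 0 c 1 (by simp) ∈ X.map (slPGL F) ↔ SL2.ll c ∈ X := fun c => by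
    rw [← slPGL_ll]
    exact ⟨key Mit.ll_pow, Subgroup.mem_map_of_mem _⟩
  haveI : Finite (X.map (slPGL F)) :=
    Finite.of_surjective _ (MonoidHom.subgroupMap_surjective (slPGL F) X)
  have := Mit.pair_pgl p (X.map (slPGL F)) hlam ((e1 _).2 hu) ((e2 _).2 hv)
  simp only [e1, e2] at this
  rcases this with h | h | h
  exacts [.inl h, absurd h.1 (two_ne_zero' F), .inr ⟨h.1, h.2.1, h.2.2.1⟩]

end QD

include p in
theorem opp (ht : NT ρ) (hL : Big ρ L) (hM : Big ρ M) (hne : L ≠ M) : L ⊓ M = ⊥ := by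
  obtain ⟨N, hN, N', hN', h0, h0', hbig⟩ := hL
  obtain ⟨C, hC, -, -, c0, -⟩ := hM
  by_contra hb
  obtain ⟨x, ⟨xL, xM⟩, x0⟩ := (Submodule.ne_bot_iff _).1 hb
  obtain ⟨L2, kL, surL, isoL⟩ := AL.lag ht hN h0
  obtain ⟨M2, kM, -, isoM⟩ := AL.lag ht hC c0
  obtain ⟨l, hl, nl⟩ := exists_two L2 x0
  have spL := span_two L2 xL hl x0 nl
  have lM : l ∉ M := fun h => hne (Submodule.eq_of_le_of_finrank_le (fun v hv => by
    obtain ⟨a, b, rfl⟩ := spL v hv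
    exact M.add_mem (M.smul_mem a h) (M.smul_mem b xM)) (by omega))
  -- an element of `AL` of one plane mapping the other plane into `x` is zero
  have inj : ∀ {P Q : Submodule F (V4 F)} {A B : M4 F} {q : V4 F}, A ∈ AL ρ P → B ∈ AL ρ Q →
      B ≠ 0 → x ∈ P → x ∈ Q → q ∈ Q → q ∉ P → ∀ c : F, A *ᵥ q = c • x → A = 0 := by
    intro P Q A B q hA hB b0 xP xQ hq hq' c e
    obtain ⟨g, hg⟩ := hA.1
    have := pfix ht hB b0 (pow_p (p := p) hA hg) (fun v hv => by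
      obtain ⟨a, b, rfl⟩ := span_two (AL.lag ht hB b0).1 xQ hq x0
        (fun c e => hq' (e ▸ P.smul_mem c xP)) v hv
      rw [smul_eq hg, mulVec_add, mulVec_smul, mulVec_smul, e, hA.2.2 x xP]
      exact Q.add_mem hv (Q.add_mem (Q.smul_mem _ (Q.smul_mem _ xQ)) (by simp))) q hq
    rw [smul_eq hg, add_eq_left] at this
    exact sing ht hA hq' this
  set m := C *ᵥ l with hm
  have mM : m ∈ M := hC.2.1 l
  have nm : ∀ c : F, m ≠ c • x := fun c e => c0 (inj hC hN h0 xM xL hl lM c e)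
  have mL : m ∉ L := fun h => hne (Submodule.eq_of_le_of_finrank_le (fun v hv => by
    obtain ⟨a, b, rfl⟩ := span_two M2 xM mM x0 nm v hv
    exact L.add_mem (L.smul_mem a h) (L.smul_mem b xL)) (by omega)).symm
  have mx : B4 m x = 0 := isoM m mM x xM
  have ml : B4 m l ≠ 0 := fun e => mL (mem_of_perp ht hN h0 fun v hv => by
    obtain ⟨a, b, rfl⟩ := spL v hv
    simp [e, mx])
  haveI := finite_act (ρ := ρ) (x := x) (e := l) (f := m) fun s t c e => by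
    have a := congrArg (B4 m) e
    have b := congrArg (B4 l) e
    simp only [map_add, map_smul, smul_eq_mul, spB_self, mx, isoL l hl x xL, mul_zero, add_zero,
      zero_add, map_zero, spB_comm l m, mul_eq_zero, neg_eq_zero, ml, or_false] at a b
    exact ⟨a, b⟩
  choose! c κ hc using fun (A : M4 F) (hA : A ∈ AL ρ L) => spL _ (hA.2.1 m)
  have cinj : ∀ A ∈ AL ρ L, ∀ A' ∈ AL ρ L, c A = c A' → A = A' := fun A hA A' hA' e =>
    sub_eq_zero.1 (inj (sub_mem hA hA') hC c0 xL xM mM mL (κ A - κ A') (by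
      rw [sub_mulVec, hc A hA, hc A' hA', e]; module))
  have cz : ∀ A ∈ AL ρ L, A ≠ 0 → c A ≠ 0 := fun A hA a0 e =>
    a0 (inj hA hC c0 xL xM mM mL (κ A) (by rw [hc A hA, e]; module))
  have cneg : ∀ A ∈ AL ρ L, c (-A) = -c A := fun A hA => by
    have := hc _ (neg_mem hA)
    rw [neg_mulVec, hc A hA] at this
    exact eq_neg_of_add_eq_zero_left (eq_zero_of_comb nl (b := -κ (-A) - κ A) (by
      linear_combination (norm := module) -this))
  have um : ∀ A ∈ AL ρ L, SL2.uu (c A) ∈ act ρ x l m := fun A hA => by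
    obtain ⟨g, hg⟩ := hA.1
    exact uu_mem (g := g) (by rw [smul_eq hg, hA.2.2 x xL, add_zero])
      (by rw [smul_eq hg, hA.2.2 l hl, add_zero]) (by rw [smul_eq hg, hc A hA])
  have lm : SL2.ll 1 ∈ act ρ x l m := by
    obtain ⟨g, hg⟩ := hC.1
    exact ll_mem (g := g) (b := 0) (by rw [smul_eq hg, hC.2.2 x xM, add_zero])
      (by rw [smul_eq hg, hC.2.2 m mM, add_zero]) (by rw [smul_eq hg]; simp [hm])
  have fin : (3 : F) = 0 → c N' = c N ∨ c N' = -c N → False := fun h3 h =>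
    hbig ⟨h3, h.imp (cinj _ hN' _ hN) fun e => cinj _ hN' _ (neg_mem hN) (e.trans (cneg N hN).symm)⟩
  rcases pair (p := p) _ (cz N hN h0) (um N hN) lm with ⟨K, k1, k2⟩ | ⟨h3, -, h⟩
  swap
  · exact fin h3 ((h _ (um N' hN')).resolve_left (cz N' hN' h0'))
  have tor : ∀ μ ∈ K, μ ≠ 0 → ∃ g, ρ g • x = x ∧ (∃ a : F, ρ g • l = μ • l + a • x) ∧
      ∃ b : F, ρ g • m = μ⁻¹ • m + b • x := fun μ hμ μ0 => by
    have w : ∀ ν ∈ K, SL2.uu ν * SL2.ll (-ν⁻¹) * SL2.uu ν ∈ act ρ x l m := fun ν hν =>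
      mul_mem (mul_mem ((k1 _).2 hν) ((k2 _).2 (K.neg_mem (K.inv_mem hν)))) ((k1 _).2 hν)
    obtain ⟨g, h1, ⟨a, h2⟩, b, h3⟩ := mul_mem (w μ hμ) (w (-1) (K.neg_mem K.one_mem))
    refine ⟨g, h1, ⟨a, ?_⟩, b, ?_⟩
    · rw [h2]
      simp [SL2.mul_ap, SL2.uu_00, SL2.uu_01, SL2.uu_10, SL2.uu_11, SL2.ll_00, SL2.ll_01,
        SL2.ll_10, SL2.ll_11, μ0]
    · rw [h3]
      simp [SL2.mul_ap, SL2.uu_00, SL2.uu_01, SL2.uu_10, SL2.uu_11, SL2.ll_00, SL2.ll_01,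
        SL2.ll_10, SL2.ll_11, μ0]
  -- the action of a torus element on `AL`
  have tact : ∀ {μ a b : F} {g : G}, μ ≠ 0 → ρ g • x = x → ρ g • l = μ • l + a • x →
      ρ g • m = μ⁻¹ • m + b • x → ∀ A ∈ AL ρ L, (ρ g).1 * A * (ρ g⁻¹).1 ∈ AL ρ L ∧
        c ((ρ g).1 * A * (ρ g⁻¹).1) = μ ^ 2 * c A ∧
        κ ((ρ g).1 * A * (ρ g⁻¹).1) = μ * (c A * a + κ A) := by
    intro μ a b g μ0 h1 h2 h3 A hA
    have h4 := conj_mem' hA (g := g) fun v hv => by
      obtain ⟨s, t, rfl⟩ := spL v hv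
      rw [smul_add', smul_smul', smul_smul', h1, h2]
      exact L.add_mem (L.smul_mem _ (L.add_mem (L.smul_mem _ hl) (L.smul_mem _ xL)))
        (L.smul_mem _ xL)
    have h5 := cj_smul (N := A) (ρ := ρ) g m
    rw [h3, mulVec_add, mulVec_smul, mulVec_smul, h4.2.2 x xL, hc _ h4, hc A hA, smul_add',
      smul_smul', smul_smul', h1, h2] at h5
    set c' := c ((ρ g).1 * A * (ρ g⁻¹).1)
    set κ' := κ ((ρ g).1 * A * (ρ g⁻¹).1)
    have h6 : (μ⁻¹ * c' - c A * μ) • l = (c A * a + κ A - μ⁻¹ * κ') • x := by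
      linear_combination (norm := module) h5
    have h7 := eq_zero_of_comb nl h6
    rw [h7, zero_smul] at h6
    have h8 := (smul_eq_zero.1 h6.symm).resolve_right x0
    refine ⟨h4, ?_, ?_⟩
    · field_simp at h7; linear_combination h7
    · field_simp at h8; linear_combination -h8
  obtain ⟨z, z1, ⟨a₀, z2⟩, b₀, z3⟩ := tor (-1) (K.neg_mem K.one_mem) (by simp)
  have hκ : ∀ A ∈ AL ρ L, 2 * κ A = -(c A * a₀) := fun A hA => by
    obtain ⟨t1, t2, t3⟩ := tact (by simp) z1 z2 z3 A hA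
    rw [cinj _ t1 _ hA (by rw [t2]; ring)] at t3
    linear_combination t3
  have sq1 : ∀ μ ∈ K, μ ≠ 0 → μ ^ 2 = 1 := fun μ hμ μ0 => by
    obtain ⟨g, h1, ⟨a, h2⟩, b, h3⟩ := tor μ hμ μ0
    obtain ⟨t1, t2, -⟩ := tact μ0 h1 h2 h3 N hN
    obtain ⟨w, hw⟩ := surL x xL
    have s := skew hN m w
    rw [hw, mx, hc N hN] at s
    simp only [map_add, map_smul, smul_eq_mul] at s
    have s1 : 2 * B4 w l = a₀ * B4 w x := mul_left_cancel₀ (cz N hN h0) (by
      linear_combination -2 * s - B4 w x * hκ N hN)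
    have wx : B4 w x ≠ 0 := fun e => x0 (hw ▸ hN.2.2 _ (mem_of_perp ht hN h0 fun v hv => by
      obtain ⟨s, t, rfl⟩ := spL v hv
      have : B4 w l = 0 := mul_left_cancel₀ (two_ne_zero' F) (by rw [s1, e]; ring)
      simp [e, this]))
    obtain ⟨α, β, e⟩ := spL _ (t1.2.1 w)
    have s2 := skew t1 m w
    rw [e, hc _ t1] at s2
    simp only [map_add, map_smul, smul_eq_mul, mx] at s2
    have α0 : α = 0 := mul_right_cancel₀ (mul_ne_zero (two_ne_zero' F) ml) (by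
      linear_combination 2 * s2 + c ((ρ g).1 * N * (ρ g⁻¹).1) * s1 + B4 w x * hκ _ t1)
    have s3 := skew t1 w (ρ g • w)
    have s4 := B4_smul (ρ g) w x
    rw [cj_smul, hw, h1, e, α0, zero_smul, zero_add, map_smul] at s3
    rw [h1] at s4
    have β1 : β = 1 := mul_right_cancel₀ wx (by rw [s4] at s3; rw [one_mul]; exact s3.symm)
    have := sing ht (sub_mem t1 hN) (v := w) (fun h => x0 (hw ▸ hN.2.2 w h)) (by
      rw [sub_mulVec, e, α0, β1, hw]; simp)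
    rw [sub_eq_zero.1 this] at t2
    exact mul_right_cancel₀ (cz N hN h0) (by linear_combination -t2)
  refine fin ?_ (sq_eq_sq_iff_eq_or_eq_neg.1 ?_)
  · have := sq1 2 (by simp)
      (two_ne_zero' F)
    linear_combination this
  · rw [sq1 _ ((k1 _).1 (um N hN)) (cz N hN h0), sq1 _ ((k1 _).1 (um N' hN')) (cz N' hN' h0')]

end CfsgLib.Dim4
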