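import Mathlib
import Cfsg.Agent.Lib.Dim4.QDa

/-!
DIM4, package QDb: there is no big plane.  See `plans/DIM4.md`.
-/

set_option autoImplicit false
set_option linter.unusedSectionVars false

namespace CfsgLib.Dim4

open Matrix Cfsg Cfsg.Geo CfsgLib.Asch CfsgLib.Forms CfsgLib.Symp Subgroup
open scoped MatrixGroups commutatorElement

variable {G F : Type*} [Group G] [Finite G] [Field F] [NeZero (2 : F)] {ρ : G →* Sp4 F}

namespace QD

section Jordan

variable (J : AddSubgroup (Matrix (Fin 2) (Fin 2) F)) [Finite J]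

theorem half {d : Matrix (Fin 2) (Fin 2) F} (h : d + d ∈ J) : d ∈ J := by
  have inj : ∀ x y : Matrix (Fin 2) (Fin 2) F, x + x = y + y → x = y := fun x y e => by
    rw [← two_smul F, ← two_smul F] at e
    exact smul_right_injective _ (two_ne_zero' F) e
  obtain ⟨y, hy⟩ := Finite.surjective_of_injective (f := fun x : J => x + x)
    (fun x y e => Subtype.ext (inj _ _ (congrArg Subtype.val e))) ⟨_, h⟩
  exact inj _ _ (congrArg Subtype.val hy) ▸ y.2

variable {J}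

omit [Finite J] in
theorem jor (hsq : ∀ d ∈ J, d * d ∈ J) {d e : Matrix (Fin 2) (Fin 2) F} (hd : d ∈ J) (he : e ∈ J) :
    d * e + e * d ∈ J := by
  have := J.sub_mem (J.sub_mem (hsq _ (J.add_mem hd he)) (hsq d hd)) (hsq e he)
  convert this using 1
  noncomm_ring

theorem jsmul (hsq : ∀ d ∈ J, d * d ∈ J) {a : F} (ha : a • (1 : Matrix (Fin 2) (Fin 2) F) ∈ J)
    {d : Matrix (Fin 2) (Fin 2) F} (hd : d ∈ J) : a • d ∈ J :=
  half J (by simpa using jor hsq ha hd)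

/-- two anticommuting members of trace zero -/
theorem anti (h1 : 1 ∈ J) (hsq : ∀ d ∈ J, d * d ∈ J) (hdet : ∀ d ∈ J, d ≠ 0 → d.det ≠ 0)
    {x y z x' y' z' : F} (hu : !![x, y; z, -x] ∈ J) (hv : !![x', y'; z', -x'] ∈ J)
    (h : 2 * x * x' + y * z' + z * y' = 0) (h0 : x * x + y * z ≠ 0) :
    x' = 0 ∧ y' = 0 ∧ z' = 0 := by
  let R : Subring F :=
    { carrier := {a | a • (1 : Matrix (Fin 2) (Fin 2) F) ∈ J}
      mul_mem' := fun ha hb => by simpa [mul_smul] using jsmul hsq ha hb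
      one_mem' := by simpa using h1
      add_mem' := fun ha hb => by simpa [add_smul] using J.add_mem ha hb
      zero_mem' := by simp
      neg_mem' := fun ha => by simpa using J.neg_mem ha }
  haveI : Finite R := Finite.of_injective (fun a : R => (⟨_, a.2⟩ : J)) fun a b e =>
    Subtype.ext (by simpa using congrArg (fun t : J => t.1 0 0) e)
  haveI := Fintype.ofFinite R
  have odd : Fintype.card R % 2 = 1 := by
    by_contra hc
    obtain ⟨t, ht⟩ := exists_prime_addOrderOf_dvd_card (G := R) 2 (by omega)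
    have e := addOrderOf_nsmul_eq_zero t
    rw [ht] at e
    have : t = 0 := Subtype.ext (mul_left_cancel₀ (two_ne_zero' F) (by
      rw [two_nsmul] at e
      have := congrArg Subtype.val e
      simp only [Subring.coe_add, Subring.coe_zero] at this ⊢
      linear_combination this))
    simp [this] at ht
  have sq : ∀ {x y z : F}, !![x, y; z, -x] ∈ J → x * x + y * z ∈ R := fun {x y z} h => by
    change (x * x + y * z) • (1 : Matrix (Fin 2) (Fin 2) F) ∈ J
    convert hsq _ h using 1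
    ext i j; fin_cases i <;> fin_cases j <;> simp <;> ring
  obtain ⟨a, b, e⟩ := FiniteField.exists_root_sum_quadratic (R := R)
    (f := Polynomial.X ^ 2 - Polynomial.C ⟨_, sq hv⟩)
    (g := Polynomial.C (-⟨_, sq hu⟩) * Polynomial.X ^ 2)
    (Polynomial.degree_X_pow_sub_C (by norm_num) _)
    (Polynomial.degree_C_mul_X_pow 2 (neg_ne_zero.2 fun e => h0 (congrArg Subtype.val e))) odd
  have e' := congrArg Subtype.val e
  simp at e'
  have hw := J.add_mem (J.add_mem a.2 (jsmul hsq b.2 hu)) hv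
  have := by_contra fun c => hdet _ hw c (by
    simp [det_fin_two]; linear_combination e' - b.1 * h)
  have e0 := congrFun (congrFun this 0) 0
  have e1 := congrFun (congrFun this 0) 1
  have e2 := congrFun (congrFun this 1) 0
  have e3 := congrFun (congrFun this 1) 1
  simp at e0 e1 e2 e3
  have hb : b.1 = 0 := mul_right_cancel₀ (mul_ne_zero (two_ne_zero' F) h0) (by
    linear_combination x * (e0 - e3) + z * e1 + y * e2 - h)
  rw [hb] at e0 e1 e2 e3
  exact ⟨mul_left_cancel₀ (two_ne_zero' F) (by linear_combination e0 - e3),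
    by linear_combination e1, by linear_combination e2⟩

omit [Finite J] in
theorem br (hsq : ∀ d ∈ J, d * d ∈ J) {a b c s a' b' c' s' x y z : F} (hd : !![a, b; c, s] ∈ J)
    (he : !![a', b'; c', s'] ∈ J) (hx : x = 2 * b * c * (a' - s') - (b * c' + c * b') * (a - s))
    (hy : y = ((a - s) ^ 2 + 4 * b * c) * b' - ((a - s) * (a' - s') + 2 * b * c' + 2 * c * b') * b)
    (hz : z = ((a - s) ^ 2 + 4 * b * c) * c' - ((a - s) * (a' - s') + 2 * b * c' + 2 * c * b') * c) :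
    !![x, y; z, -x] ∈ J := by
  have h := jor hsq (hsq _ hd) he
  have := J.sub_mem (J.add_mem h h) (jor hsq hd (jor hsq hd he))
  convert this using 1
  subst hx hy hz
  ext i j; fin_cases i <;> fin_cases j <;> simp <;> ring

end Jordan

end QD

open QD

/-- a finite Jordan ring of invertible `2 × 2` matrices is commutative -/
theorem jordan_comm (J : AddSubgroup (Matrix (Fin 2) (Fin 2) F)) [Finite J] (h1 : 1 ∈ J)
    (hsq : ∀ d ∈ J, d * d ∈ J) (hdet : ∀ d ∈ J, d ≠ 0 → d.det ≠ 0) :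
    ∀ d ∈ J, ∀ e ∈ J, d * e = e * d := by
  have key : ∀ {a b c s a' b' c' s' : F}, !![a, b; c, s] ∈ J → !![a', b'; c', s'] ∈ J →
      (a - s = 0 ∧ b = 0 ∧ c = 0) ∨
      (2 * b * c * (a' - s') - (b * c' + c * b') * (a - s) = 0 ∧
      ((a - s) ^ 2 + 4 * b * c) * b' - ((a - s) * (a' - s') + 2 * b * c' + 2 * c * b') * b = 0 ∧
      ((a - s) ^ 2 + 4 * b * c) * c' - ((a - s) * (a' - s') + 2 * b * c' + 2 * c * b') * c = 0) := by
    intro a b c s a' b' c' s' hd he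
    have hu := br hsq hd he rfl rfl rfl
    set x := 2 * b * c * (a' - s') - (b * c' + c * b') * (a - s) with hx
    set y := ((a - s) ^ 2 + 4 * b * c) * b' - ((a - s) * (a' - s') + 2 * b * c' + 2 * c * b') * b
      with hy
    set z := ((a - s) ^ 2 + 4 * b * c) * c' - ((a - s) * (a' - s') + 2 * b * c' + 2 * c * b') * c
      with hz
    have o : x * (a - s) + y * c + z * b = 0 := by rw [hx, hy, hz]; ring
    clear_value x y z
    by_cases h0 : x * x + y * z = 0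
    · have := by_contra fun c => hdet _ hu c (by simp [det_fin_two]; linear_combination -h0)
      exact .inr ⟨congrFun (congrFun this 0) 0, congrFun (congrFun this 0) 1,
        congrFun (congrFun this 1) 0⟩
    have h4 : 2 * 2 * (x * x + y * z) ≠ 0 :=
      mul_ne_zero (mul_ne_zero (two_ne_zero' F) (two_ne_zero' F)) h0
    obtain ⟨e1, e2, e3⟩ := anti h1 hsq hdet hu (br hsq hu hd rfl rfl rfl) (by ring) h0
    exact .inl ⟨mul_left_cancel₀ h4 (by linear_combination 2 * e1 + 4 * x * o),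
      mul_left_cancel₀ h4 (by linear_combination e2 + 2 * y * o),
      mul_left_cancel₀ h4 (by linear_combination e3 + 2 * z * o)⟩
  intro d hd e he
  rw [eta_fin_two d] at hd ⊢
  rw [eta_fin_two e] at he ⊢
  generalize d 0 0 = a, d 0 1 = b, d 1 0 = c, d 1 1 = s, e 0 0 = a', e 0 1 = b', e 1 0 = c',
    e 1 1 = s' at hd he ⊢
  suffices h : b * c' - b' * c = 0 ∧ (a - s) * b' - (a' - s') * b = 0 ∧
      c * (a' - s') - c' * (a - s) = 0 by
    obtain ⟨m1, m2, m3⟩ := h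
    ext i j; fin_cases i <;> fin_cases j <;> simp
    exacts [by linear_combination m1, by linear_combination m2, by linear_combination m3,
      by linear_combination -m1]
  rcases key hd he with ⟨e1, e2, e3⟩ | ⟨e1, e2, e3⟩
  · simp [e1, e2, e3]
  rcases key he hd with ⟨f1, f2, f3⟩ | ⟨f1, f2, f3⟩
  · simp [f1, f2, f3]
  generalize a - s = x, a' - s' = x' at e1 e2 e3 f1 f2 f3 ⊢
  have t : ∀ {m k u v w : F}, k ≠ 0 → (x ^ 2 + 4 * b * c) * m = 0 → (x' ^ 2 + 4 * b' * c') * m = 0 →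
      (x * x' + 2 * b * c' + 2 * c * b') * m = 0 → k * m ^ 2 = u * (x ^ 2 + 4 * b * c) +
        v * (x' ^ 2 + 4 * b' * c') + w * (x * x' + 2 * b * c' + 2 * c * b') → m = 0 :=
    fun {m k u v w} hk a1 a2 a3 a4 => eq_zero_of_pow_eq_zero (n := 3) (mul_left_cancel₀ hk (by
      linear_combination m * a4 + u * a1 + v * a2 + w * a3))
  refine ⟨t (u := x' ^ 2 - (x' ^ 2 + 4 * b' * c')) (v := x ^ 2)
      (w := x * x' + 2 * b * c' + 2 * c * b' - 2 * x * x')
      (mul_ne_zero (two_ne_zero' F) (two_ne_zero' F)) (by linear_combination b * e3 - c * e2)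
      (by linear_combination c' * f2 - b' * f3) (by linear_combination c * f2 - b * f3) (by ring),
    t (u := b' ^ 2) (v := b ^ 2) (w := -2 * b * b') one_ne_zero
      (by linear_combination x * e2 - 2 * b * e1) (by linear_combination 2 * b' * f1 - x' * f2)
      (by linear_combination 2 * b * f1 - x * f2) (by ring),
    t (u := c' ^ 2) (v := c ^ 2) (w := -2 * c * c') one_ne_zero
      (by linear_combination 2 * c * e1 - x * e3) (by linear_combination x' * f3 - 2 * c' * f1)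
      (by linear_combination x * f3 - 2 * c * f1) (by ring)⟩


namespace QD

open CfsgLib.Dickson

variable {L M P : Submodule F (V4 F)} {N C D X : M4 F}

theorem exists_co (hL : Module.finrank F L = 2) :
    ∃ (E : Matrix I4 (Fin 2) F) (E' : Matrix (Fin 2) I4 F), E' * E = 1 ∧ (∀ w, E *ᵥ w ∈ L) ∧
      ∀ v ∈ L, E *ᵥ E' *ᵥ v = v := by
  let φ : L ≃ₗ[F] (Fin 2 → F) := LinearEquiv.ofFinrankEq _ _ (by simp [hL])
  obtain ⟨ψ, hψ⟩ := LinearMap.exists_extend φ.toLinearMap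
  have h : ∀ v : L, ψ v = φ v := fun v => LinearMap.congr_fun hψ v
  refine ⟨LinearMap.toMatrix' (L.subtype ∘ₗ φ.symm.toLinearMap), LinearMap.toMatrix' ψ, ?_,
    fun w => ?_, fun v hv => ?_⟩
  · rw [← LinearMap.toMatrix'_comp, ← LinearMap.toMatrix'_id]
    congr 1
    exact LinearMap.ext fun w => by simp [h]
  · rw [LinearMap.toMatrix'_mulVec]; exact (φ.symm w).2
  · rw [LinearMap.toMatrix'_mulVec, LinearMap.toMatrix'_mulVec, h ⟨v, hv⟩]; simp

theorem eig [IsAlgClosed F] (A : Matrix (Fin 2) (Fin 2) F)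
    (h : ∀ (c : F) w, w ≠ 0 → A *ᵥ w = c • w → c ^ 2 = -1) : 2 * A.det = A.trace ^ 2 + 2 := by
  have k : ∀ c : F, c ^ 2 - A.trace * c + A.det = 0 → c ^ 2 = -1 := fun c hc => by
    obtain ⟨w, w0, hw⟩ := exists_mulVec_eq_zero_iff.2 (show (A - c • 1).det = 0 by
      rw [trace_fin_two, det_fin_two] at hc
      simp [det_fin_two]; linear_combination hc)
    exact h c w w0 (by rwa [sub_mulVec, smul_mulVec, one_mulVec, sub_eq_zero] at hw)
  obtain ⟨z, hz⟩ := IsAlgClosed.exists_eq_mul_self (A.trace ^ 2 - 4 * A.det)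
  have h2 := two_ne_zero' F
  have a := k ((A.trace + z) / 2) (by field_simp; linear_combination -hz)
  have b := k ((A.trace - z) / 2) (by field_simp; linear_combination -hz)
  field_simp at a b
  exact mul_left_cancel₀ (mul_ne_zero h2 h2) (by linear_combination -2 * hz - a - b)

omit [Finite G] in
theorem eq_zero_of_disj (h : L ⊓ M = ⊥) {v : V4 F} (h1 : v ∈ L) (h2 : v ∈ M) : v = 0 :=
  (Submodule.eq_bot_iff _).1 h v ⟨h1, h2⟩

variable (p : ℕ) [Fact p.Prime] [CharP F p]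
include p

theorem eq_of_mem (ht : NT ρ) (hL : Big ρ L) (hM : Big ρ M) {v : V4 F} (h0 : v ≠ 0) (h1 : v ∈ L)
    (h2 : v ∈ M) : L = M := by
  by_contra hne
  exact h0 (eq_zero_of_disj (opp (p := p) ht hL hM hne) h1 h2)

theorem inv_of (ht : NT ρ) (hL : Big ρ L) (hM : Big ρ M) (hne : L ≠ M) (hN : N ∈ AL ρ L)
    {e f : V4 F} {c : F} (he : e ∈ L) (hf : f ∈ M) (f0 : f ≠ 0) (c0 : c ≠ 0) (h : N *ᵥ f = c • e)
    (hy : SL2.ll (-c⁻¹) ∈ act ρ 0 e f) : ∃ C ∈ AL ρ M, ∀ l ∈ L, N *ᵥ C *ᵥ l = l := by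
  have hp : p.Prime := Fact.out
  obtain ⟨y, -, ⟨a, h2⟩, b, h3⟩ := hy
  simp only [SL2.ll_00, SL2.ll_01, SL2.ll_10, SL2.ll_11, smul_zero, add_zero, one_smul, zero_smul,
    zero_add] at h2 h3
  have hM' := eq_of_mem p ht (hM.conj y) hM f0 ⟨f, hf, h3⟩ hf
  have st : ∀ n : ℕ, ∀ v ∈ M, ρ (y ^ n) • v ∈ M := fun n => by
    induction n with
    | zero => simp
    | succ n ih => intro v hv; rw [pow_succ', map_mul, mul_smul]; exact hM'.le ⟨_, ih v hv, rfl⟩
  have pw : ∀ n : ℕ, ρ (y ^ n) • e = e + (n * -c⁻¹) • f := fun n => by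
    induction n with
    | zero => simp
    | succ n ih =>
      rw [pow_succ', map_mul, mul_smul, ih, smul_add', smul_smul', h2, h3]; push_cast; module
  obtain ⟨k, n, hn, e1⟩ := Nat.exists_eq_pow_mul_and_not_dvd (orderOf_pos y).ne' p hp.ne_one
  have n1 : ((n ^ (p - 1) : ℕ) : F) = 1 := by
    have := (CharP.natCast_eq_natCast' F p (Nat.ModEq.pow_totient
      ((Nat.coprime_comm.1 (hp.coprime_iff_not_dvd.2 hn)))))
    rwa [Nat.totient_prime hp, Nat.cast_one] at this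
  have e2 := pw (n ^ (p - 1))
  rw [n1, one_mul] at e2
  have e3 := st (n ^ (p - 1))
  have e4 : ρ (y ^ n ^ (p - 1)) ^ p ^ k = 1 := by
    rw [← map_pow, ← pow_mul, orderOf_dvd_iff_pow_eq_one.1, map_one]
    rw [e1, mul_comm]
    exact Nat.mul_dvd_mul_right (dvd_pow_self _ (Nat.sub_ne_zero_of_lt hp.one_lt)) _
  generalize y ^ n ^ (p - 1) = u at e2 e3 e4
  obtain ⟨C₀, hC₀, -, -, C0, -⟩ := id hM
  have fx := pfix ht hC₀ C0 e4 e3
  have hu : (ρ u).1 = 1 + ((ρ u).1 - 1) := by abel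
  have ev : ∀ v, ((ρ u).1 - 1) *ᵥ v = ρ u • v - v := fun v => by rw [sub_mulVec, one_mulVec]; rfl
  have hC : (ρ u).1 - 1 ∈ AL ρ M := ⟨⟨u, hu⟩, fun v => mem_of_perp ht hC₀ C0 fun m hm => by
    rw [ev, map_sub, LinearMap.sub_apply, ← B4_smul (ρ u) v m, fx m hm, sub_self],
    fun v hv => by rw [ev, fx v hv, sub_self]⟩
  obtain ⟨s, hs⟩ := hN.1
  have e5 : ρ (s * u) • e = -c⁻¹ • f := by
    rw [map_mul, mul_smul, e2, smul_eq hs, mulVec_add, mulVec_smul, h, hN.2.2 e he, smul_smul,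
      neg_mul, inv_mul_cancel₀ c0]
    module
  have e6 := eq_of_mem p ht (hL.conj (s * u)) hM (v := -c⁻¹ • f) (by simp [c0, f0]) ⟨e, he, e5⟩
    (M.smul_mem _ hf)
  refine ⟨_, neg_mem hC, fun l hl => ?_⟩
  have e7 : ρ (s * u) • l ∈ M := e6.le ⟨l, hl, rfl⟩
  rw [map_mul, mul_smul, smul_eq hs, smul_eq hu, mulVec_add, hN.2.2 l hl, zero_add] at e7
  have := eq_zero_of_disj (opp (p := p) ht hL hM hne) (L.add_mem hl (hN.2.1 (((ρ u).1 - 1) *ᵥ l)))
    (by convert M.sub_mem e7 (hC.2.1 l) using 1; abel)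
  rw [neg_mulVec, mulVec_neg, neg_eq_iff_add_eq_zero, add_comm, this]

theorem inv [IsAlgClosed F] (ht : NT ρ) (hL : Big ρ L) (hM : Big ρ M) (hne : L ≠ M)
    (hN : N ∈ AL ρ L) (h0 : N ≠ 0) : ∃ C ∈ AL ρ M, ∀ l ∈ L, N *ᵥ C *ᵥ l = l := by
  by_contra hc
  have dj := opp (p := p) ht hL hM hne
  obtain ⟨L2, kL, -⟩ := AL.lag ht hN h0
  obtain ⟨E, E', i1, i2, i3⟩ := exists_co L2
  obtain ⟨s, hs⟩ := hN.1
  have key : ∀ C ∈ AL ρ M, C ≠ 0 → ∀ (c : F) w, w ≠ 0 → (E' * (N * C) * E) *ᵥ w = c • w →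
      (3 : F) = 0 ∧ c ^ 2 = -1 := by
    intro C hC c0 c w w0 hw
    obtain ⟨r, hr⟩ := hC.1
    have e0 : E *ᵥ w ≠ 0 := fun e => w0 (by rw [← one_mulVec w, ← i1, ← mulVec_mulVec, e, mulVec_zero])
    have h : N *ᵥ C *ᵥ E *ᵥ w = c • E *ᵥ w := by
      rw [← mulVec_smul, ← hw, ← i3 _ (hN.2.1 _)]; simp only [mulVec_mulVec, Matrix.mul_assoc]
    have he := i2 w
    generalize E *ᵥ w = e at e0 h he
    have f0 : C *ᵥ e ≠ 0 := fun z => e0 (eq_zero_of_disj dj he (((AL.lag ht hC c0).2.1 e).2 z))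
    have hf := hC.2.1 e
    have cz : c ≠ 0 := fun z => f0 (eq_zero_of_disj dj ((kL _).2 (by rw [h, z, zero_smul])) hf)
    haveI := finite_act (ρ := ρ) (x := 0) (e := e) (f := C *ᵥ e) fun a b _ z => by
      rw [smul_zero, add_zero, add_eq_zero_iff_eq_neg] at z
      have := eq_zero_of_disj dj (L.smul_mem a he) (z ▸ M.neg_mem (M.smul_mem b hf))
      rw [this, eq_comm, neg_eq_zero] at z
      exact ⟨(smul_eq_zero.1 this).resolve_right e0, (smul_eq_zero.1 z).resolve_right f0⟩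
    have um : SL2.uu c ∈ act ρ 0 e (C *ᵥ e) := uu_mem (g := s) (b := 0) (smul_zero' _)
      (by rw [smul_eq hs, hN.2.2 e he, add_zero]) (by rw [smul_eq hs, h]; simp)
    rcases pair (p := p) _ cz um (ll_mem (g := r) (b := 0) (smul_zero' _)
      (by rw [smul_eq hr, hC.2.2 _ hf, add_zero]) (by rw [smul_eq hr]; simp)) with ⟨K, k1, k2⟩ | h3
    · exact (hc (inv_of p ht hL hM hne hN he hf f0 cz h
        ((k2 _).2 (K.neg_mem (K.inv_mem ((k1 _).1 um)))))).elim
    · exact ⟨h3.1, h3.2.1⟩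
  obtain ⟨C, hC, C', hC', c0, c0', hb⟩ := hM
  have h3 : (3 : F) = 0 := by
    by_contra h3
    obtain ⟨c, hc⟩ := Module.End.exists_eigenvalue (toLin' (E' * (N * C) * E))
    obtain ⟨w, hw⟩ := hc.exists_hasEigenvector
    exact h3 (key C hC c0 c w hw.2 hw.apply_eq_smul).1
  have k := fun C hC c0 => eig _ fun c w w0 hw => (key C hC c0 c w w0 hw).2
  have a1 := k _ hC c0
  have a2 := k _ hC' c0'
  have a3 := k _ (add_mem hC hC') fun e => hb ⟨h3, .inr (eq_neg_of_add_eq_zero_right e)⟩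
  have a4 := k _ (sub_mem hC hC') fun e => hb ⟨h3, .inl (sub_eq_zero.1 e).symm⟩
  rw [mul_add, Matrix.mul_add, Matrix.add_mul] at a3
  rw [mul_sub, Matrix.mul_sub, Matrix.sub_mul] at a4
  generalize E' * (N * C) * E = A, E' * (N * C') * E = A' at a1 a2 a3 a4
  simp only [det_fin_two, trace_fin_two, Matrix.add_apply, Matrix.sub_apply] at a1 a2 a3 a4
  exact one_ne_zero (α := F) (by linear_combination a3 + a4 - 2 * a1 - 2 * a2 - h3)

omit p in
/-- `N` and `C` are inverse to each other -/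
structure IP (ρ : G →* Sp4 F) (L M : Submodule F (V4 F)) (N C : M4 F) : Prop where
  n : N ∈ AL ρ L
  c : C ∈ AL ρ M
  n0 : N ≠ 0
  c0 : C ≠ 0
  l : ∀ l ∈ L, N *ᵥ C *ᵥ l = l
  m : ∀ m ∈ M, C *ᵥ N *ᵥ m = m

theorem ip [IsAlgClosed F] (ht : NT ρ) (hL : Big ρ L) (hM : Big ρ M) (hne : L ≠ M)
    (hN : N ∈ AL ρ L) (h0 : N ≠ 0) : ∃ C, IP ρ L M N C := by
  obtain ⟨C, hC, h⟩ := inv p ht hL hM hne hN h0
  refine ⟨C, hN, hC, h0, ?_, h, fun m hm => sub_eq_zero.1 (eq_zero_of_disj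
    (opp (p := p) ht hL hM hne) (((AL.lag ht hN h0).2.1 _).2 ?_) (M.sub_mem (hC.2.1 _) hm))⟩
  · rintro rfl
    exact h0 (mx_ext fun v => by rw [← h _ (hN.2.1 v)]; simp)
  · rw [mulVec_sub, h _ (hN.2.1 m), sub_self]

omit p in
theorem IP.left (h : IP ρ L M N C) (hX : ∀ v, X *ᵥ v ∈ L) : N * C * X = X :=
  mx_ext fun v => by rw [← mulVec_mulVec, ← mulVec_mulVec, h.l _ (hX v)]

omit p in
theorem IP.right (ht : NT ρ) (h : IP ρ L M N C) (hX : ∀ v ∈ L, X *ᵥ v = 0) : X * C * N = X :=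
  mx_ext fun v => by
    rw [← mulVec_mulVec, ← mulVec_mulVec, ← sub_eq_zero, ← mulVec_sub]
    exact hX _ (((AL.lag ht h.n h.n0).2.1 _).2 (by rw [mulVec_sub, h.l _ (h.n.2.1 v), sub_self]))

omit p in
theorem IP.symm (h : IP ρ L M N C) : IP ρ M L C N := ⟨h.c, h.n, h.c0, h.n0, h.m, h.l⟩

theorem dcd [IsAlgClosed F] (ht : NT ρ) (hL : Big ρ L) (hM : Big ρ M) (hne : L ≠ M)
    (h1 : ∀ v, D *ᵥ v ∈ L) (h2 : ∀ v ∈ L, D *ᵥ v = 0) (hP : Big ρ (M.map (toLin' (1 + D))))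
    (hC : C ∈ AL ρ M) : D * C * D ∈ AL ρ L := by
  have dj := opp (p := p) ht hL hM hne
  by_cases c0 : C = 0
  · rw [c0, mul_zero, zero_mul]; exact zero_mem
  obtain ⟨N, hN⟩ := ip p ht hM hL hne.symm hC c0
  set P := M.map (toLin' (1 + D)) with hP'
  have mP : ∀ m ∈ M, m + D *ᵥ m ∈ P := fun m hm => ⟨m, hm, by simp⟩
  have Pm : ∀ v ∈ P, ∃ m ∈ M, v = m + D *ᵥ m := by
    rintro _ ⟨m, hm, rfl⟩; exact ⟨m, hm, by simp⟩
  by_cases e : P = M
  · have : D = 0 := by
      rw [← hN.symm.right ht h2]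
      refine mx_ext fun v => ?_
      rw [← mulVec_mulVec, ← mulVec_mulVec, zero_mulVec]
      refine eq_zero_of_disj dj (h1 _) ?_
      exact (M.add_mem_iff_right (hC.2.1 _)).1 (e.le (mP _ (hC.2.1 _)))
    rw [this, mul_zero]; exact zero_mem
  have LP : L ≠ P := fun e => c0 (mx_ext fun v => (eq_zero_of_disj dj
    ((L.add_mem_iff_left (h1 _)).1 (e.ge (mP _ (hC.2.1 v)))) (hC.2.1 v)).trans (zero_mulVec v).symm)
  obtain ⟨Q, hQ⟩ := ip p ht hL hP LP hN.c hN.c0
  obtain ⟨C', hC'⟩ := ip p ht hP hM e hQ.c hQ.c0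
  obtain ⟨N', hN'⟩ := ip p ht hM hL hne.symm hC'.c hC'.c0
  have Ql : ∀ l ∈ L, Q *ᵥ l = C *ᵥ l + D *ᵥ C *ᵥ l := fun l hl => by
    obtain ⟨m, hm, e⟩ := Pm _ (hQ.c.2.1 l)
    have := hQ.l l hl
    rw [e, mulVec_add, hN.c.2.2 _ (h1 m), add_zero] at this
    rw [e, ← this, hN.l m hm]
  have a : ∀ m ∈ M, C *ᵥ D *ᵥ C' *ᵥ D *ᵥ m = -m := fun m hm => by
    have b := hC'.l _ (mP m hm)
    rw [mulVec_add, hC'.c.2.2 m hm, zero_add] at b
    have c := hQ.c.2.2 _ (mP _ (hC'.c.2.1 (D *ᵥ m)))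
    rw [mulVec_add, b, Ql _ (h1 _)] at c
    refine eq_neg_of_add_eq_zero_left (eq_zero_of_disj dj ?_ (M.add_mem (hC.2.1 _) hm))
    convert L.neg_mem (L.add_mem (h1 m) (h1 (C *ᵥ D *ᵥ C' *ᵥ D *ᵥ m))) using 1
    linear_combination (norm := module) c
  have inj : ∀ m ∈ M, C *ᵥ D *ᵥ m = 0 → m = 0 := fun m hm h => by
    have := eq_zero_of_disj dj (h1 m) (((AL.lag ht hC c0).2.1 _).2 h)
    exact eq_zero_of_disj (opp (p := p) ht hP hM e) (by simpa [this] using mP m hm) hm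
  have b : ∀ m ∈ M, D *ᵥ C *ᵥ D *ᵥ m = -N' *ᵥ m := fun m hm => by
    have := inj _ (M.add_mem (hC'.c.2.1 (D *ᵥ C *ᵥ D *ᵥ m)) hm) (by
      rw [mulVec_add, mulVec_add, a _ (hC.2.1 _), neg_add_cancel])
    rw [neg_mulVec]
    refine eq_neg_of_add_eq_zero_left (eq_zero_of_disj dj (L.add_mem (h1 _) (hN'.c.2.1 m))
      (((AL.lag ht hC'.c hC'.c0).2.1 _).2 ?_))
    rw [mulVec_add, hN'.l m hm, this]
  convert neg_mem hN'.c using 1
  rw [← hN.symm.right ht (neg_mem hN'.c).2.2, ← hN.symm.right ht h2]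
  refine mx_ext fun v => ?_
  simp only [← mulVec_mulVec]
  rw [← b _ (hC.2.1 _), mulVec_mulVec _ D C, mulVec_mulVec _ (D * C) N, hN.symm.right ht h2]

theorem plane [IsAlgClosed F] (ht : NT ρ) (hL : Big ρ L) (hM : Big ρ M) (hne : L ≠ M)
    (hP : Big ρ P) (LP : L ≠ P) : ∃ g, (ρ g).1 - 1 ∈ AL ρ L ∧ P = M.map (toLin' (ρ g).1) := by
  obtain ⟨N, hN, -, -, h0, -⟩ := id hL
  obtain ⟨C, hC⟩ := ip p ht hL hM hne hN h0
  obtain ⟨Q, hQ⟩ := ip p ht hL hP LP hN h0
  obtain ⟨D, hD⟩ : ∃ D, D = (Q - C) * N := ⟨_, rfl⟩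
  have h1 : ∀ v, D *ᵥ v ∈ L := fun v => ((AL.lag ht hN h0).2.1 _).2 (by
    rw [hD, ← mulVec_mulVec, sub_mulVec, mulVec_sub, hC.l _ (hN.2.1 v), hQ.l _ (hN.2.1 v), sub_self])
  have h2 : ∀ v ∈ L, D *ᵥ v = 0 := fun v hv => by rw [hD, ← mulVec_mulVec, hN.2.2 v hv, mulVec_zero]
  have h3 : ∀ m ∈ M, toLin' (1 + D) m = Q *ᵥ N *ᵥ m := fun m hm => by
    rw [toLin'_apply, add_mulVec, one_mulVec, hD, ← mulVec_mulVec, sub_mulVec, hC.m m hm]; abel
  have e : P = M.map (toLin' (1 + D)) := le_antisymm (fun v hv => ⟨C *ᵥ N *ᵥ v, hC.c.2.1 _, by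
      rw [h3 _ (hC.c.2.1 _), hC.l _ (hN.2.1 v), hQ.m v hv]⟩)
    (by rintro _ ⟨m, hm, rfl⟩; rw [h3 m hm]; exact hQ.c.2.1 _)
  obtain ⟨s, hs⟩ := hN.1
  have ND : N * D = 0 := mx_ext fun v => by rw [← mulVec_mulVec, hN.2.2 _ (h1 v), zero_mulVec]
  have a := dcd p ht hL hM hne h1 h2 (e ▸ hP) hC.c
  have b := dcd p ht hL hM hne (D := D + N) (fun v => by
      rw [add_mulVec]; exact L.add_mem (h1 v) (hN.2.1 v))
    (fun v hv => by rw [add_mulVec, h2 v hv, hN.2.2 v hv, add_zero]) (by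
      have := hP.conj s
      rwa [e, ← Submodule.map_comp, ← toLin'_mul, hs, add_mul, one_mul, mul_add, mul_one, ND,
        add_zero, add_assoc] at this) hC.c
  have c : D + D ∈ AL ρ L := by
    convert sub_mem (sub_mem b a) hN using 1
    rw [add_mul, add_mul, mul_add, mul_add, hC.right ht h2, hC.left h1, hC.left hN.2.1]; abel
  obtain ⟨k, hk⟩ : Odd p := (Fact.out : p.Prime).odd_of_ne_two fun e =>
    two_ne_zero' F (by have := CharP.cast_eq_zero F p; rw [e] at this; exact_mod_cast this)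
  have d : D ∈ ALs ρ L := by
    convert (ALs ρ L).nsmul_mem (x := D + D) c (k + 1) using 1
    have := CharP.cast_eq_zero F p
    rw [hk] at this
    push_cast at this
    rw [← Nat.cast_smul_eq_nsmul F]
    push_cast
    linear_combination (norm := module) (-this) • D
  obtain ⟨g, hg⟩ := d.1
  exact ⟨g, by rw [hg, add_sub_cancel_left]; exact d, by rw [hg, e]⟩

end QD

theorem not_big [IsAlgClosed F] (p : ℕ) [Fact p.Prime] [CharP F p] (hq : QS G) (ha : Abs ρ)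
    (ht : NT ρ) (L : Submodule F (V4 F)) : ¬ Big ρ L := by
  intro hL
  obtain ⟨N, hN, -, -, h0, -⟩ := id hL
  obtain ⟨L2, -⟩ := AL.lag ht hN h0
  obtain ⟨M, hM, hne⟩ : ∃ M, Big ρ M ∧ L ≠ M := by
    by_contra! h
    rcases ha.irr L fun g v hv => (h _ (hL.conj g)).ge ⟨v, hv, rfl⟩ with e | e
    · rw [e, finrank_bot] at L2; omega
    · rw [e, finrank_top, finrank_V4] at L2; omega
  have dj := opp (p := p) ht hL hM hne
  obtain ⟨C, hC⟩ := ip p ht hL hM hne hN h0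
  obtain ⟨E, E', i1, i2, i3⟩ := exists_co L2
  have i4 : ∀ {X : M4 F}, (∀ v, X *ᵥ v ∈ L) → E * (E' * X) = X := fun h =>
    mx_ext fun v => by rw [← mulVec_mulVec, ← mulVec_mulVec, i3 _ (h v)]
  have i4' : ∀ {X : M4 F}, (∀ v, X *ᵥ v ∈ L) → ∀ {n : Type} (T : Matrix I4 n F),
      E * (E' * (X * T)) = X * T := fun h _ T => by
    rw [← Matrix.mul_assoc E', ← Matrix.mul_assoc E, i4 h]
  have i5 : ∀ {X : M4 F}, (∀ v ∈ L, X *ᵥ v = 0) → X * E = 0 := fun h =>
    Matrix.toLin'.injective (LinearMap.ext fun w => by simp [← mulVec_mulVec, h _ (i2 w)])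
  have i6 : N * C * E = E := Matrix.toLin'.injective (LinearMap.ext fun w => by
    simp [← mulVec_mulVec, hC.l _ (i2 w)])
  let co : M4 F →+ Matrix (Fin 2) (Fin 2) F :=
    { toFun := fun X => E' * X * C * E
      map_zero' := by simp
      map_add' := fun X Y => by simp [Matrix.mul_add, Matrix.add_mul] }
  have fin : Finite (ALs ρ L) :=
    Finite.of_injective (fun X : ALs ρ L => X.2.1.choose) fun X Y e => Subtype.ext (by
      have a := X.2.1.choose_spec
      have b := Y.2.1.choose_spec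
      simp only at e
      rw [e, b] at a
      exact (add_left_cancel a).symm)
  haveI : Finite ((ALs ρ L).map co) :=
    Finite.of_surjective _ (AddMonoidHom.addSubgroupMap_surjective co (ALs ρ L))
  have jc := jordan_comm ((ALs ρ L).map co) ⟨N, hN, by
      change E' * N * C * E = 1
      rw [Matrix.mul_assoc E', Matrix.mul_assoc E', i6, i1]⟩
    (by
      rintro _ ⟨X, hX, rfl⟩
      obtain ⟨g, hg⟩ := hX.1
      refine ⟨_, dcd p ht hL hM hne hX.2.1 hX.2.2 (hg ▸ hM.conj g) hC.c, ?_⟩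
      change E' * (X * C * X) * C * E = E' * X * C * E * (E' * X * C * E)
      simp only [Matrix.mul_assoc, i4' hX.2.1])
    (by
      rintro _ ⟨X, hX, rfl⟩ x0 hd
      obtain ⟨w, w0, hw⟩ := exists_mulVec_eq_zero_iff.2 hd
      have X0 : X ≠ 0 := fun e => x0 (by rw [e, map_zero])
      have a : X *ᵥ C *ᵥ E *ᵥ w = 0 := by
        rw [← i3 _ (hX.2.1 _), ← mulVec_zero E, ← hw]
        simp [co, Matrix.mul_assoc]
      have b := eq_zero_of_disj dj (((AL.lag ht hX X0).2.1 _).2 a) (hC.c.2.1 _)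
      have c := eq_zero_of_disj dj (i2 w) (((AL.lag ht hC.c hC.c0).2.1 _).2 b)
      exact w0 (by rw [← one_mulVec w, ← i1, ← mulVec_mulVec, c, mulVec_zero]))
  obtain ⟨Z, z1, z2⟩ : ∃ Z : Matrix (Fin 2) (Fin 2) F, (∀ c : F, Z ≠ c • 1) ∧
      ∀ X ∈ AL ρ L, co X * Z = Z * co X := by
    by_cases h : ∀ X ∈ AL ρ L, ∃ c : F, co X = c • 1
    · refine ⟨!![0, 1; 0, 0], fun c e => by simpa using congrFun (congrFun e 0) 1, fun X hX => ?_⟩
      obtain ⟨c, hc⟩ := h X hX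
      simp [hc]
    · push Not at h
      obtain ⟨Y, hY, h⟩ := h
      exact ⟨_, h, fun X hX => jc _ ⟨X, hX, rfl⟩ _ ⟨Y, hY, rfl⟩⟩
  obtain ⟨Y, hY⟩ : ∃ Y, Y = E * Z * E' := ⟨_, rfl⟩
  have y1 : ∀ X ∈ AL ρ L, X * Y = 0 := fun X hX => by
    rw [hY, Matrix.mul_assoc, ← Matrix.mul_assoc, i5 hX.2.2, Matrix.zero_mul]
  have y2 : ∀ X ∈ AL ρ L, X * C * Y * N = Y * X := fun X hX => by
    have := congrArg (fun A => E * A * (E' * N)) (z2 X hX)
    conv_rhs => rw [← hC.right ht hX.2.2]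
    simpa only [co, AddMonoidHom.coe_mk, ZeroHom.coe_mk, hY, Matrix.mul_assoc, i4' hX.2.1,
      i4 hN.2.1] using this
  obtain ⟨W, hW⟩ : ∃ W, W = Y * N * C + C * Y * N := ⟨_, rfl⟩
  have w1 : ∀ X ∈ AL ρ L, W * X = X * W := fun X hX => by
    calc W * X = Y * (N * C * X) + C * Y * (N * X) := by rw [hW]; noncomm_ring
      _ = X * Y * N * C + X * C * Y * N := by rw [hC.left hX.2.1, mul_eq hN hX, y1 X hX, y2 X hX]; simp
      _ = _ := by rw [hW]; noncomm_ring
  have w2 : ∀ X ∈ AL ρ M, W * X = X * W := fun X hX => by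
    by_cases X0 : X = 0
    · simp [X0]
    obtain ⟨N', hN'⟩ := ip p ht hM hL hne.symm hX X0
    have a : N' * X = N * C := by
      rw [← hC.symm.right ht hX.2.2, ← mul_assoc, ← mul_assoc, hN'.symm.left hN.2.1]
    have b : X * N' * C = C := hN'.left hC.c.2.1
    calc W * X = Y * N * (C * X) + X * N' * C * Y * N * X := by rw [hW, b]; noncomm_ring
      _ = X * (N' * C * Y * N) * X := by rw [mul_eq hC.c hX]; noncomm_ring
      _ = X * Y * (N * C) + X * C * Y * N := by rw [y2 _ hN'.c, mul_eq hX hC.c, ← a]; noncomm_ring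
      _ = _ := by rw [hW]; noncomm_ring
  let H : Subgroup G :=
    { carrier := {g | W * (ρ g).1 = (ρ g).1 * W}
      one_mem' := by simp
      mul_mem' := fun {a b} ha hb => by
        change W * _ = _ at ha hb ⊢
        rw [map_mul, Submonoid.coe_mul, ← mul_assoc, ha, mul_assoc, hb, mul_assoc]
      inv_mem' := fun {a} ha => by
        change W * _ = _ at ha ⊢
        rw [map_inv, ← one_mul (W * _), ← coe_inv_mul (ρ a), mul_assoc, ← mul_assoc _ W, ← ha,
          mul_assoc W, coe_mul_inv, mul_one] }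
  have hH : ∀ {g X}, (ρ g).1 = 1 + X → W * X = X * W → g ∈ H := fun {g X} h1 h2 => by
    change W * _ = _
    rw [h1, mul_add, add_mul, h2, mul_one, one_mul]
  have cj : ∀ {g k : G} {X}, (ρ g).1 = 1 + X → (ρ (k * g * k⁻¹)).1 = 1 + (ρ k).1 * X * (ρ k⁻¹).1 :=
    fun {g k X} h => by
      rw [map_mul, map_mul, Submonoid.coe_mul, Submonoid.coe_mul, h, mul_add, add_mul, mul_one,
        map_inv, coe_mul_inv]
  obtain ⟨s, hs⟩ := hN.1
  have top := hq.closure_eq_top (D := {g | ∃ P, Big ρ P ∧ ∃ X ∈ AL ρ P, (ρ g).1 = 1 + X})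
    (by rintro d ⟨P, hP, X, hX, e⟩ g; exact ⟨_, hP.conj g, _, conj_mem hX g, cj e⟩)
    ⟨L, hL, N, hN, hs⟩ (fun hc => by
      obtain ⟨c, hc⟩ := ha.comm (x := N) fun g => by
        have := congrArg (fun t => (ρ t).1) (mem_center_iff.1 hc g)
        simp only [map_mul, Submonoid.coe_mul, hs, mul_add, add_mul, mul_one, one_mul] at this
        exact (add_left_cancel this).symm
      have := mul_eq hN hN
      rw [hc, smul_mul_smul_comm, smul_eq_zero, mul_self_eq_zero] at this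
      exact h0 (by rw [hc, this.resolve_right (by simp), zero_smul]))
  have : H = ⊤ := eq_top_iff.2 (top ▸ (closure_le H).2 (by
    rintro g ⟨P, hP, X, hX, e⟩
    by_cases LP : L = P
    · exact hH e (w1 X (LP ▸ hX))
    obtain ⟨k, hk, rfl⟩ := plane p ht hL hM hne hP LP
    have k1 : k ∈ H := hH (by abel) (w1 _ hk)
    have k2 := conj_mem hX k⁻¹
    rw [show (M.map (toLin' (ρ k).1)).map (toLin' (ρ k⁻¹).1) = M from Submodule.ext fun v => by
      rw [QD.mem_map, QD.mem_map, inv_inv, map_inv, inv_smul_smul]] at k2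
    simpa [mul_assoc] using H.mul_mem (H.mul_mem k1 (hH (cj e) (w2 _ k2))) (H.inv_mem k1)))
  obtain ⟨c, hc⟩ := ha.comm (x := W) fun g => (this.ge (mem_top g) :)
  refine z1 c ?_
  have := congrArg (fun A => E' * (A * E)) hc
  simp only [Matrix.mul_assoc] at i6
  simp only [hW, hY, Matrix.add_mul, Matrix.mul_assoc, i6, i5 hN.2.2, i1, Matrix.mul_zero, add_zero,
    Matrix.mul_one, Matrix.smul_mul, Matrix.one_mul, Matrix.mul_smul] at this
  rwa [← Matrix.mul_assoc, i1, Matrix.one_mul] at this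

theorem smm [IsAlgClosed F] (p : ℕ) [Fact p.Prime] [CharP F p] (hq : QS G) (ha : Abs ρ)
    (ht : NT ρ) : SMm ρ := by
  intro N N' hN hN' h0 h0' e1 e2 e3 e4
  have hp : Odd p := (Fact.out : p.Prime).odd_of_ne_two fun e =>
    two_ne_zero' F (by have := CharP.cast_eq_zero F p; rw [e] at this; exact_mod_cast this)
  have lift : ∀ {X : M4 F}, Hat ρ (1 + X) → X * X = 0 → ∃ g, (ρ g).1 = 1 + X := by
    rintro X ⟨g, h | h⟩ e
    · exact ⟨g, h⟩
    · refine ⟨g ^ (p + 1), ?_⟩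
      rw [map_pow, SubmonoidClass.coe_pow, h, hp.add_one.neg_pow, pow_succ,
        add_pow_char_of_commute _ (Commute.one_left X), one_pow,
        pow_eq_zero_of_le (Fact.out : p.Prime).two_le (by rw [sq, e]), add_zero, one_mul]
  have m : ∀ {X : M4 F}, N * X = 0 → ∀ v, X *ᵥ v ∈ LinearMap.ker (toLin' N) := fun e v => by
    simp [e]
  have a : N ∈ AL ρ (LinearMap.ker (toLin' N)) := ⟨lift hN e1, m e1, fun v hv => hv⟩
  have b : N' ∈ AL ρ (LinearMap.ker (toLin' N)) := ⟨lift hN' e2, m e3, fun v hv => by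
    obtain ⟨w, rfl⟩ := (AL.lag ht a h0).2.2.1 v hv
    simp [e4]⟩
  by_contra hc
  exact not_big p hq ha ht _ ⟨N, a, N', b, h0, h0', hc⟩

end CfsgLib.Dim4
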