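import Mathlib
import Cfsg.Agent.Lib.Dim4.W5

/-!
DIM4, packages M45 and SL: linear algebra tools for abstract root systems.
-/

set_option autoImplicit false

namespace CfsgLib.Dim4

open Module Submodule

variable {K W : Type*} [Field K] [AddCommGroup W] [Module K W] {β : LinearMap.BilinForm K W}
  {Δ : Set W}

theorem RsA.pm {e : K} (h : e ^ 2 = 1) : e = 1 ∨ e = -1 :=
  mul_self_eq_one_iff.1 (by rw [← h]; ring)

namespace RS

variable (h : RS β Δ)
include h

theorem fd : FiniteDimensional K W := Module.finite_of_finrank_eq_succ h.five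

theorem ne_zero {a : W} (ha : a ∈ Δ) : a ≠ 0 := by
  rintro rfl
  have := h.norm _ ha
  rw [map_zero] at this
  exact h.two this.symm

theorem span4 (a b c d : W) : span K {a, b, c, d} ≠ ⊤ := fun e => by
  have h1 := finrank_range_le_card (R := K) ![a, b, c, d]
  rw [Set.finrank, show Set.range ![a, b, c, d] = {a, b, c, d} by
    simp only [Matrix.range_cons, Matrix.range_empty, Set.union_empty, Set.singleton_union], e,
    finrank_top, h.five] at h1
  simp at h1

theorem exists_not_mem {X : Set W} (hX : span K X = ⊤) (a b c d : W) :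
    ∃ z ∈ X, z ∉ span K {a, b, c, d} := by
  by_contra hn
  push Not at hn
  exact h.span4 a b c d (eq_top_iff.2 (hX ▸ span_le.2 hn))

theorem eq_zero_of_span {X : Set W} (hX : span K X = ⊤) {x : W} (hx : ∀ v ∈ X, β x v = 0) :
    x = 0 := h.nondeg x fun y => by
  have : span K X ≤ LinearMap.ker (β x) := span_le.2 hx
  exact this (hX ▸ mem_top)

theorem eq_zero5 {a b c d e : W} (hX : span K {a, b, c, d, e} = ⊤) {x : W} (h1 : β x a = 0)
    (h2 : β x b = 0) (h3 : β x c = 0) (h4 : β x d = 0) (h5 : β x e = 0) : x = 0 :=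
  h.eq_zero_of_span hX (by rintro v (rfl | rfl | rfl | rfl | rfl) <;> assumption)

/-- no relation between five spanning vectors -/
theorem indep {a b c d e : W} (hX : span K {a, b, c, d, e} = ⊤) : e ∉ span K {a, b, c, d} :=
  fun he => h.span4 a b c d (eq_top_iff.2 (hX ▸ span_le.2 (by
    rintro v (rfl | rfl | rfl | rfl | rfl)
    exacts [subset_span (by simp), subset_span (by simp), subset_span (by simp),
      subset_span (by simp), he])))

theorem indep' {a b c d e : W} (hX : span K {a, b, c, d, e} = ⊤) {r s t u v : K} (hv : v ≠ 0)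
    (e0 : r • a + s • b + t • c + u • d + v • e = 0) : False := by
  refine h.indep hX ?_
  have : e = -v⁻¹ • (r • a + s • b + t • c + u • d) := by
    rw [eq_neg_of_add_eq_zero_left e0, smul_neg, neg_smul, neg_neg, smul_smul, inv_mul_cancel₀ hv,
      one_smul]
  rw [this]
  refine smul_mem _ _ (add_mem (add_mem (add_mem ?_ ?_) ?_) ?_) <;>
    exact smul_mem _ _ (subset_span (by simp))

theorem exists_three {a b : W} {E : Set W} (hab : LinearIndependent K ![a, b])
    (hE : span K ({a, b} ∪ E) = ⊤) :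
    ∃ c ∈ E, ∃ d ∈ E, ∃ e ∈ E, span K {a, b, c, d, e} = ⊤ := by
  have := h.fd
  have key : ∀ c d : W, ∃ e ∈ E, e ∉ span K {a, b, c, d} := fun c d => by
    obtain ⟨z, hz | hz, hz'⟩ := h.exists_not_mem hE a b c d
    · exact (hz' (subset_span (by rcases hz with rfl | rfl <;> simp))).elim
    · exact ⟨z, hz, hz'⟩
  obtain ⟨c, hc, hc'⟩ := key a a
  obtain ⟨d, hd, hd'⟩ := key c c
  obtain ⟨e, he, he'⟩ := key c d
  refine ⟨c, hc, d, hd, e, he, ?_⟩
  have lt : ∀ {S T : Set W} {z : W}, S ⊆ T → z ∈ T → z ∉ span K S →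
      finrank K (span K S) < finrank K (span K T) := fun h1 h2 h3 =>
    finrank_lt_finrank_of_lt (lt_of_le_of_ne (span_mono h1) fun e => h3 (e ▸ subset_span h2))
  have f2 : finrank K (span K ({a, b} : Set W)) = 2 := by
    have := finrank_span_eq_card hab
    rwa [show Set.range ![a, b] = {a, b} by
      simp only [Matrix.range_cons, Matrix.range_empty, Set.union_empty, Set.singleton_union]] at this
  have f3 := lt (S := {a, b}) (T := {a, b, c}) (z := c) (by intro; simp; tauto) (by simp)
    fun e => hc' (span_mono (by intro; simp; tauto) e)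
  have f4 := lt (S := {a, b, c}) (T := {a, b, c, d}) (z := d) (by intro; simp; tauto) (by simp)
    fun e => hd' (span_mono (by intro; simp) e)
  have f5 := lt (S := {a, b, c, d}) (T := {a, b, c, d, e}) (z := e) (by intro; simp; tauto)
    (by simp) he'
  refine eq_top_of_finrank_eq (le_antisymm (finrank_le _) ?_)
  rw [h.five]; omega

theorem span_of_li {v : Fin 5 → W} (hv : LinearIndependent K v) : span K (Set.range v) = ⊤ := by
  have := h.fd
  exact hv.span_eq_top_of_card_eq_finrank' (by simp [h.five])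

/-- five orthogonal roots span the space -/
theorem span_frame {v : Fin 5 → W} (hv : ∀ i, v i ∈ Δ) (ho : ∀ i j, i ≠ j → β (v i) (v j) = 0) :
    span K (Set.range v) = ⊤ :=
  h.span_of_li (LinearMap.BilinForm.linearIndependent_of_iIsOrtho
    (LinearMap.BilinForm.iIsOrtho_def.2 ho) fun i e => h.two (by rw [← h.norm _ (hv i)]; exact e))

/-- the orthogonal complement of four orthogonal roots is anisotropic -/
theorem aniso {v : Fin 4 → W} (hv : ∀ i, v i ∈ Δ) (ho : ∀ i j, i ≠ j → β (v i) (v j) = 0) {x : W}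
    (hx : ∀ i, β x (v i) = 0) (hxx : β x x = 0) : x = 0 := by
  by_contra x0
  have li : LinearIndependent K (Fin.cons x v : Fin 5 → W) := by
    rw [linearIndependent_finCons]
    refine ⟨LinearMap.BilinForm.linearIndependent_of_iIsOrtho
      (LinearMap.BilinForm.iIsOrtho_def.2 ho) fun i e => h.two (by rw [← h.norm _ (hv i)]; exact e),
      fun hm => ?_⟩
    obtain ⟨c, rfl⟩ := (mem_span_range_iff_exists_fun K).1 hm
    refine x0 (Finset.sum_eq_zero fun i _ => ?_)
    have h1 := hx i
    rw [map_sum, LinearMap.sum_apply, Finset.sum_eq_single i (fun j _ hj => by simp [ho j i hj])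
      (by simp)] at h1
    simp only [map_smul, LinearMap.smul_apply, h.norm _ (hv i), smul_eq_mul] at h1
    rw [(mul_eq_zero.1 h1).resolve_right h.two, zero_smul]
  exact x0 (h.eq_zero_of_span (h.span_of_li li) (by
    rintro _ ⟨i, rfl⟩
    exact Fin.cases hxx hx i))

theorem orth4 {a b c d : W} (ab : β a b = 0) (ac : β a c = 0) (ad : β a d = 0) (bc : β b c = 0)
    (bd : β b d = 0) (cd : β c d = 0) : ∀ i j, i ≠ j → β (![a, b, c, d] i) (![a, b, c, d] j) = 0 := by
  have := (h.symm _ _).trans ab; have := (h.symm _ _).trans ac; have := (h.symm _ _).trans ad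
  have := (h.symm _ _).trans bc; have := (h.symm _ _).trans bd; have := (h.symm _ _).trans cd
  intro i j hij
  fin_cases i <;> fin_cases j <;> first | exact (hij rfl).elim | assumption

theorem orth5 {a b c d e : W} (ab : β a b = 0) (ac : β a c = 0) (ad : β a d = 0) (ae : β a e = 0)
    (bc : β b c = 0) (bd : β b d = 0) (be : β b e = 0) (cd : β c d = 0) (ce : β c e = 0)
    (de : β d e = 0) : ∀ i j, i ≠ j → β (![a, b, c, d, e] i) (![a, b, c, d, e] j) = 0 := by
  have := (h.symm _ _).trans ab; have := (h.symm _ _).trans ac; have := (h.symm _ _).trans ad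
  have := (h.symm _ _).trans bc; have := (h.symm _ _).trans bd; have := (h.symm _ _).trans cd
  have := (h.symm _ _).trans ae; have := (h.symm _ _).trans be; have := (h.symm _ _).trans ce
  have := (h.symm _ _).trans de
  intro i j hij
  fin_cases i <;> fin_cases j <;> first | exact (hij rfl).elim | assumption

omit h in
theorem mem4 {a b c d : W} (ha : a ∈ Δ) (hb : b ∈ Δ) (hc : c ∈ Δ) (hd : d ∈ Δ) :
    ∀ i, ![a, b, c, d] i ∈ Δ := fun i => by fin_cases i <;> assumption

omit h in
theorem mem5 {a b c d e : W} (ha : a ∈ Δ) (hb : b ∈ Δ) (hc : c ∈ Δ) (hd : d ∈ Δ) (he : e ∈ Δ) :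
    ∀ i, ![a, b, c, d, e] i ∈ Δ := fun i => by fin_cases i <;> assumption

/-- expansion with respect to a frame -/
theorem expand {v : Fin 5 → W} (hv : ∀ i, v i ∈ Δ) (ho : ∀ i j, i ≠ j → β (v i) (v j) = 0)
    (x : W) : (2 : K) • x = β (v 0) x • v 0 + β (v 1) x • v 1 + β (v 2) x • v 2 + β (v 3) x • v 3 +
      β (v 4) x • v 4 := by
  have nm := fun i => h.norm _ (hv i)
  refine sub_eq_zero.1 (h.eq_zero_of_span (h.span_frame hv ho) ?_)
  rintro _ ⟨i, rfl⟩
  rw [h.symm]
  fin_cases i <;> simp [nm, ho, mul_comm]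

theorem sum_sq {v : Fin 5 → W} (hv : ∀ i, v i ∈ Δ) (ho : ∀ i j, i ≠ j → β (v i) (v j) = 0)
    {x : W} (hx : x ∈ Δ) : β (v 0) x ^ 2 + β (v 1) x ^ 2 + β (v 2) x ^ 2 + β (v 3) x ^ 2 +
      β (v 4) x ^ 2 = 4 := by
  have := congrArg (β · x) (h.expand hv ho x)
  simp only [map_add, map_sub, map_neg, map_smul, LinearMap.add_apply, LinearMap.sub_apply, LinearMap.neg_apply, LinearMap.smul_apply, smul_eq_mul, h.norm x hx] at this
  linear_combination -this

theorem smul_mem {a : W} (ha : a ∈ Δ) {e : K} (he : e ^ 2 = 1) : e • a ∈ Δ := by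
  rcases RsA.pm he with rfl | rfl
  · rwa [one_smul]
  · rw [neg_one_smul]; exact h.neg a ha

theorem eq_of_smul {a b : W} (ha : a ∈ Δ) (hb : b ∈ Δ) {c : K} (e : b = c • a) : b = a ∨ b = -a := by
  have h1 := h.norm b hb
  rw [e] at h1
  simp only [map_add, map_sub, map_neg, map_smul, LinearMap.add_apply, LinearMap.sub_apply, LinearMap.neg_apply, LinearMap.smul_apply, smul_eq_mul, h.norm a ha] at h1
  rcases RsA.pm (e := c) (mul_left_cancel₀ h.two (by linear_combination h1))
    with rfl | rfl
  · exact Or.inl (by rw [e, one_smul])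
  · exact Or.inr (by rw [e, neg_one_smul])

/-- a subspace is everything if each root lies in it or stabilises its generators -/
theorem irr' {X : Set W} {a : W} (ha : a ∈ Δ) (haX : a ∈ X)
    (hX : ∀ c ∈ Δ, c ∈ span K X ∨ ∀ x ∈ X, x - β c x • c ∈ X) : span K X = ⊤ := by
  refine (h.irr _ fun c hc u hu => ?_).resolve_left fun e =>
    h.ne_zero ha (by simpa [e] using (subset_span haX : a ∈ span K X))
  rcases hX c hc with h1 | h1
  · exact sub_mem hu (Submodule.smul_mem _ _ h1)
  · have : span K X ≤ (span K X).comap (LinearMap.id - (β c).smulRight c) :=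
      span_le.2 fun x hx => subset_span (h1 x hx)
    exact this hu

end RS

end CfsgLib.Dim4
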