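import Mathlib
import Cfsg.Agent.Lib.Dim4.W5
import Cfsg.Agent.Lib.Dim4.RsA

/-!
DIM4, package M45: no dihedral planes of order eight or ten.  See `plans/DIM4.md`.
-/

set_option autoImplicit false

namespace CfsgLib.Dim4

open Matrix Cfsg Cfsg.Geo CfsgLib.Asch CfsgLib.Forms CfsgLib.Symp Subgroup
open scoped MatrixGroups commutatorElement

variable {K W : Type*} [Field K] [AddCommGroup W] [Module K W] {β : LinearMap.BilinForm K W}
  {Δ : Set W}

namespace M45

theorem not_mem_span {a b c w : W} (h1 : β w a = 0) (h2 : β w b = 0) (h3 : β w c ≠ 0) :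
    c ∉ Submodule.span K ({a, b} : Set W) := fun hm => by
  obtain ⟨r, s, rfl⟩ := Submodule.mem_span_pair.1 hm
  exact h3 (by simp [h1, h2])

variable (h : RS β Δ)
include h

theorem li2 {a b : W} (ha : a ∈ Δ) (hb : b ∈ Δ) (hab : β a b ^ 2 ≠ 4) :
    LinearIndependent K ![a, b] := by
  refine LinearIndependent.pair_iff.2 fun s t e => ?_
  have e1 := congrArg (β a) e
  have e2 := congrArg (β b) e
  simp only [map_add, map_sub, map_neg, map_smul, LinearMap.add_apply, LinearMap.sub_apply, LinearMap.neg_apply, LinearMap.smul_apply, smul_eq_mul, map_zero, h.norm a ha, h.norm b hb, h.symm b a] at e1 e2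
  have h4 : 4 - β a b ^ 2 ≠ 0 := sub_ne_zero.2 hab.symm
  exact ⟨mul_left_cancel₀ h4 (by linear_combination 2 * e1 - β a b * e2),
    mul_left_cancel₀ h4 (by linear_combination 2 * e2 - β a b * e1)⟩

section four

variable {x : K} (hx : x ^ 2 = 2)
include hx

theorem x_ne : x ≠ 0 := fun e => h.two (by rw [← hx, e]; ring)

theorem R_neg {u v : W} (hv : v ∈ Δ) (uv : β v u = 0) (r : (x / 2) • (u + v) ∈ Δ) :
    (x / 2) • (u + -v) ∈ Δ := by
  have two := h.two
  convert h.refl v hv _ r using 1
  simp only [map_add, map_sub, map_neg, map_smul, LinearMap.add_apply, LinearMap.sub_apply, LinearMap.neg_apply, LinearMap.smul_apply, smul_eq_mul, uv, h.norm v hv]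
  match_scalars <;> field_simp <;> ring

theorem R_trans {u v w : W} (hu : u ∈ Δ) (hv : v ∈ Δ) (uv : β v u = 0) (uw : β u w = 0)
    (vw : β v w = 0) (r : (x / 2) • (u + v) ∈ Δ) (r' : (x / 2) • (u + w) ∈ Δ) :
    (x / 2) • (w + v) ∈ Δ := by
  have two := h.two
  have : (x / 2) • (w + -v) ∈ Δ := by
    convert h.refl _ r _ r' using 1
    simp only [map_add, map_sub, map_neg, map_smul, LinearMap.add_apply, LinearMap.sub_apply, LinearMap.neg_apply, LinearMap.smul_apply, smul_eq_mul, uv, uw, vw, h.norm u hu]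
    match_scalars <;> field_simp <;> grind
  simpa using R_neg h hx (h.neg v hv) (by simp [vw]) this

variable (h4 : T4 β Δ)
include h4

/-- the condition on the pair `(x / 2) • (u - v)`, `u` -/
theorem pair {u v c : W} (hu : u ∈ Δ) (uv : β v u = 0) (r : (x / 2) • (u + v) ∈ Δ)
    (hc : c ∈ Δ) (h1 : c ∉ Submodule.span K ({u, v} : Set W)) (h2 : β c u ≠ 0 ∨ β c v ≠ 0) :
    (β c u * β c v = 0 ∧ (β c u + β c v) ^ 2 = 2) ∨ (β c u ^ 2 = 1 ∧ β c v ^ 2 = 1) := by
  have two := h.two
  have x0 := x_ne h hx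
  have e : β ((x / 2) • (u + v)) u = x := by simp only [map_add, map_sub, map_neg, map_smul, LinearMap.add_apply, LinearMap.sub_apply, LinearMap.neg_apply, LinearMap.smul_apply, smul_eq_mul, uv, h.norm u hu]; field_simp; ring
  have := h4 _ r u hu c hc (by rw [e, hx]) (fun hm => h1 (Submodule.span_le.2 (by
    rintro _ (rfl | rfl)
    · exact Submodule.smul_mem _ _ (add_mem (Submodule.subset_span (by simp))
        (Submodule.subset_span (by simp)))
    · exact Submodule.subset_span (by simp)) hm)) (by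
      by_cases k : β c u = 0
      · exact Or.inl (by simpa [k, x0, two] using h2)
      · exact Or.inr k)
  rw [e] at this
  simp only [map_add, map_sub, map_neg, map_smul, LinearMap.add_apply, LinearMap.sub_apply, LinearMap.neg_apply, LinearMap.smul_apply, smul_eq_mul] at this
  rcases this with ⟨k1, k2⟩ | ⟨k1, k2⟩
  · field_simp at k1 k2
    exact Or.inl ⟨by grind, by grind⟩
  · field_simp at k1
    exact Or.inr ⟨k2, by grind⟩

theorem frame {f : Fin 5 → W} (hf : ∀ i, f i ∈ Δ) (ho : ∀ i j, i ≠ j → β (f i) (f j) = 0)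
    (r0 : ∀ j, j ≠ 0 → (x / 2) • (f 0 + f j) ∈ Δ) : False := by
  have two := h.two
  have r : ∀ i j, i ≠ j → (x / 2) • (f i + f j) ∈ Δ := fun i j hij => by
    by_cases e : i = 0
    · subst e; exact r0 j hij.symm
    by_cases e' : j = 0
    · subst e'; rw [add_comm]; exact r0 i e
    · exact R_trans h hx (hf 0) (hf j) (ho j 0 e') (ho 0 i (Ne.symm e)) (ho j i hij.symm) (r0 j e')
        (r0 i e)
  have sp := h.span_frame hf ho
  have nm := fun i => h.norm _ (hf i)
  have ext : ∀ y : W, (∀ i, β (f i) y = 0) → y = 0 := fun y hy =>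
    h.eq_zero_of_span sp (by rintro _ ⟨i, rfl⟩; rw [h.symm]; exact hy i)
  have := h.frame {y | ∃ i, y = f i ∨ y = -f i} (by
      rintro _ ⟨i, rfl | rfl⟩
      exacts [hf i, h.neg _ (hf i)]) (fun c hc => ?_) (by
      rintro _ ⟨i, e⟩ _ ⟨j, e'⟩
      by_cases k : i = j
      · subst k; rcases e with rfl | rfl <;> rcases e' with rfl | rfl <;> simp
      · rcases e with rfl | rfl <;> rcases e' with rfl | rfl <;> simp [ho i j k])
  · exact (this ▸ (⟨0, Or.inl rfl⟩ : f 0 ∈ {y | ∃ i, y = f i ∨ y = -f i}) : f 0 ∈ (∅ : Set W))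
  suffices key : ∀ i, ∃ j, f i - β c (f i) • c = f j ∨ f i - β c (f i) • c = -f j by
    rintro _ ⟨i, rfl | rfl⟩
    · exact key i
    · obtain ⟨j, e | e⟩ := key i
      · exact ⟨j, Or.inr (by rw [← e, map_neg]; module)⟩
      · exact ⟨j, Or.inl (by rw [← neg_neg (f j), ← e, map_neg]; module)⟩
  intro i
  by_cases ci : β c (f i) = 0
  · exact ⟨i, Or.inl (by simp [ci])⟩
  have P : ∀ i j k, i ≠ j → k ≠ i → k ≠ j → β c (f k) ≠ 0 → β c (f i) ≠ 0 →
      (β c (f j) = 0 ∧ β c (f i) ^ 2 = 2) ∨ (β c (f i) ^ 2 = 1 ∧ β c (f j) ^ 2 = 1) :=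
    fun i j k ij ki kj ck ci => by
    rcases pair h hx h4 (hf i) (ho j i ij.symm) (r i j ij) hc
      (not_mem_span (ho k i ki) (ho k j kj) (by rwa [h.symm])) (Or.inl ci) with ⟨k1, k2⟩ | k1
    · have := (mul_eq_zero.1 k1).resolve_left ci
      exact Or.inl ⟨this, by rwa [this, add_zero] at k2⟩
    · exact Or.inr k1
  by_cases h1 : ∀ j, j ≠ i → β c (f j) = 0
  · have e : c = (β c (f i) / 2) • f i := sub_eq_zero.1 (ext _ fun k => by
      by_cases e : k = i
      · simp only [map_add, map_sub, map_neg, map_smul, LinearMap.add_apply, LinearMap.sub_apply, LinearMap.neg_apply, LinearMap.smul_apply, smul_eq_mul, e, nm, h.symm (f i) c]; field_simp; ring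
      · simp only [map_add, map_sub, map_neg, map_smul, LinearMap.add_apply, LinearMap.sub_apply, LinearMap.neg_apply, LinearMap.smul_apply, smul_eq_mul, ho k i e, h.symm (f k) c, h1 k e]; ring)
    refine ⟨i, Or.inr ?_⟩
    rcases h.eq_of_smul (hf i) hc e with e | e <;> rw [e] <;> simp only [map_add, map_sub, map_neg, map_smul, LinearMap.add_apply, LinearMap.sub_apply, LinearMap.neg_apply, LinearMap.smul_apply, smul_eq_mul, nm] <;> module
  push Not at h1
  obtain ⟨j, ji, cj⟩ := h1
  by_cases h2 : ∀ k, k ≠ i → k ≠ j → β c (f k) = 0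
  · obtain ⟨k, ki, kj⟩ : ∃ k, k ≠ i ∧ k ≠ j := (by decide : ∀ i j : Fin 5, ∃ k, k ≠ i ∧ k ≠ j) i j
    have a1 : β c (f i) ^ 2 = 2 := by
      rcases P i k j ki.symm ji kj.symm cj ci with e | e
      · exact e.2
      · exact absurd e.2 (by simp [h2 k ki kj])
    have a2 : β c (f j) ^ 2 = 2 := by
      rcases P j k i kj.symm ji.symm ki.symm ci cj with e | e
      · exact e.2
      · exact absurd e.2 (by simp [h2 k ki kj])
    have e : f i - β c (f i) • c = (-(β c (f i) * β c (f j)) / 2) • f j :=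
      sub_eq_zero.1 (ext _ fun l => by
        by_cases e : l = i
        · simp only [map_add, map_sub, map_neg, map_smul, LinearMap.add_apply, LinearMap.sub_apply, LinearMap.neg_apply, LinearMap.smul_apply, smul_eq_mul, e, nm, h.symm (f i) c, ho i j ji.symm]; linear_combination -a1
        by_cases e' : l = j
        · simp only [map_add, map_sub, map_neg, map_smul, LinearMap.add_apply, LinearMap.sub_apply, LinearMap.neg_apply, LinearMap.smul_apply, smul_eq_mul, e', nm, h.symm (f j) c, ho j i ji]; field_simp; ring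
        · simp only [map_add, map_sub, map_neg, map_smul, LinearMap.add_apply, LinearMap.sub_apply, LinearMap.neg_apply, LinearMap.smul_apply, smul_eq_mul, ho l i e, ho l j e', h.symm (f l) c, h2 l e e']; ring)
    exact ⟨j, h.eq_of_smul (hf j) (h.refl c hc _ (hf i)) e⟩
  push Not at h2
  obtain ⟨k, ki, kj, ck⟩ := h2
  have a1 : β c (f i) ^ 2 = 1 := ((P i j k ji.symm ki kj ck ci).resolve_left fun e => cj e.1).1
  have a2 : ∀ l, β (f l) c ^ 2 = 1 := fun l => by
    rw [h.symm]
    by_cases e : l = i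
    · rw [e, a1]
    by_cases e' : l = j
    · rw [e']; exact ((P i j k ji.symm ki kj ck ci).resolve_left fun e => cj e.1).2
    · exact ((P i l j (Ne.symm e) ji (Ne.symm e') cj ci).resolve_left fun e =>
        one_ne_zero (by linear_combination a1 - e.2 : (1 : K) = 0)).2
  have := h.sum_sq hf ho hc
  simp only [a2] at this
  exact absurd (by linear_combination this : (1 : K) = 0) one_ne_zero

theorem E_orth {b n n' : W} (hb : b ∈ Δ) (hn : n ∈ Δ) (hn' : n' ∈ Δ) (bn : β b n = 0)
    (bn' : β b n' = 0) (r : (x / 2) • (b + n) ∈ Δ) (r' : (x / 2) • (b + n') ∈ Δ)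
    (hne : n' ∉ Submodule.span K ({n, b} : Set W)) : β n n' = 0 := by
  by_contra t0
  have two := h.two
  have x0 := x_ne h hx
  rw [add_comm] at r
  have nb := (h.symm _ _).trans bn
  have n'b := (h.symm _ _).trans bn'
  have a1 := pair h hx h4 hn bn r hn' hne (Or.inl (by rwa [h.symm]))
  have a2 := pair h hx h4 hn bn r r' (fun hm => hne (by
    have := sub_mem (Submodule.smul_mem _ (2 / x) hm)
      (Submodule.subset_span (by simp) : b ∈ Submodule.span K ({n, b} : Set W))
    convert this using 1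
    match_scalars <;> field_simp <;> ring)) (Or.inl (by simpa [bn, x0, two, h.symm n' n] using t0))
  simp only [map_add, map_sub, map_neg, map_smul, LinearMap.add_apply, LinearMap.sub_apply, LinearMap.neg_apply, LinearMap.smul_apply, smul_eq_mul, bn, n'b, h.norm b hb, h.symm n' n] at a1 a2
  field_simp at a2
  grind

theorem E_mixed {a b n n' : W} (ha : a ∈ Δ) (hb : b ∈ Δ) (ab : β a b = x) (hn : n ∈ Δ)
    (an : β a n = 0) (bn : β b n = 0) (an' : β a n' = 0) (bn' : β b n' = 0)
    (r : (x / 2) • (b + n) ∈ Δ) (r' : (x / 2) • (a + n') ∈ Δ) : β n n' ^ 2 = 2 := by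
  have two := h.two
  have x0 := x_ne h hx
  rw [add_comm] at r
  have n'b := (h.symm _ _).trans bn'
  have a2 := pair h hx h4 hn bn r r' (not_mem_span (β := β) (w := b - x • a) (by simp [an, bn])
    (by simp only [map_add, map_sub, map_neg, map_smul, LinearMap.add_apply, LinearMap.sub_apply, LinearMap.neg_apply, LinearMap.smul_apply, smul_eq_mul, h.norm b hb, ab]; linear_combination -hx)
    (by simp only [map_add, map_sub, map_neg, map_smul, LinearMap.add_apply, LinearMap.sub_apply, LinearMap.neg_apply, LinearMap.smul_apply, smul_eq_mul, h.norm a ha, h.symm b a, ab, an', bn']; field_simp; grind))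
    (Or.inr (by simp only [map_add, map_sub, map_neg, map_smul, LinearMap.add_apply, LinearMap.sub_apply, LinearMap.neg_apply, LinearMap.smul_apply, smul_eq_mul, ab, n'b]; field_simp; grind))
  simp only [map_add, map_sub, map_neg, map_smul, LinearMap.add_apply, LinearMap.sub_apply, LinearMap.neg_apply, LinearMap.smul_apply, smul_eq_mul, an, ab, n'b, h.symm n' n] at a2
  field_simp at a2
  grind

theorem all1 {a b c d e : W} (ha : a ∈ Δ) (hb : b ∈ Δ) (ab : β a b = x)
    (hc : c ∈ Δ ∧ β a c = 0 ∧ β b c = 0) (hd : d ∈ Δ ∧ β a d = 0 ∧ β b d = 0)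
    (he : e ∈ Δ ∧ β a e = 0 ∧ β b e = 0) (rc : (x / 2) • (b + c) ∈ Δ) (rd : (x / 2) • (b + d) ∈ Δ)
    (re : (x / 2) • (b + e) ∈ Δ) (sp : Submodule.span K {a, b, c, d, e} = ⊤) : False := by
  have two := h.two
  have o : ∀ {c d e : W}, c ∈ Δ ∧ β a c = 0 ∧ β b c = 0 → d ∈ Δ ∧ β a d = 0 ∧ β b d = 0 →
      (x / 2) • (b + c) ∈ Δ → (x / 2) • (b + d) ∈ Δ → Submodule.span K {a, b, c, e, d} = ⊤ →
      β c d = 0 := fun hc hd rc rd sp => E_orth h hx h4 hb hc.1 hd.1 hc.2.2 hd.2.2 rc rd
        fun hm => h.indep sp (Submodule.span_mono (by intro; simp; tauto) hm)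
  have hb' : -(b - x • a) ∈ Δ := ab ▸ h.neg _ (h.refl a ha b hb)
  refine frame h hx h4 (RS.mem5 hb hb' hc.1 hd.1 he.1) (h.orth5
    (by simp only [map_add, map_sub, map_neg, map_smul, LinearMap.add_apply, LinearMap.sub_apply, LinearMap.neg_apply, LinearMap.smul_apply, smul_eq_mul, h.norm b hb, h.symm b a, ab]; linear_combination hx) hc.2.2 hd.2.2 he.2.2
    (by simp [hc.2]) (by simp [hd.2]) (by simp [he.2])
    (o hc hd rc rd (by rwa [Set.pair_comm e d])) (o hc he rc re sp)
    (o hd he rd re (by rwa [Set.insert_comm d c]))) fun j hj => ?_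
  fin_cases j
  · exact (hj rfl).elim
  · show (x / 2) • (b + -(b - x • a)) ∈ Δ
    convert ha using 1
    match_scalars <;> field_simp <;> grind
  exacts [rc, rd, re]

theorem two1 {a b c d e : W} (ha : a ∈ Δ) (hb : b ∈ Δ) (ab : β a b = x)
    (hc : c ∈ Δ ∧ β a c = 0 ∧ β b c = 0) (hd : d ∈ Δ ∧ β a d = 0 ∧ β b d = 0)
    (he : e ∈ Δ ∧ β a e = 0 ∧ β b e = 0) (rc : (x / 2) • (b + c) ∈ Δ) (rd : (x / 2) • (b + d) ∈ Δ)
    (re : (x / 2) • (a + e) ∈ Δ) (sp : Submodule.span K {a, b, c, d, e} = ⊤) : False := by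
  have two := h.two
  have cd : β c d = 0 := E_orth h hx h4 hb hc.1 hd.1 hc.2.2 hd.2.2 rc rd
    fun hm => h.indep (d := e) (e := d) (by rwa [Set.pair_comm e d])
      (Submodule.span_mono (by intro; simp; tauto) hm)
  have dc := (h.symm _ _).trans cd
  have ce := E_mixed h hx h4 ha hb ab hc.1 hc.2.1 hc.2.2 he.2.1 he.2.2 rc re
  have de := E_mixed h hx h4 ha hb ab hd.1 hd.2.1 hd.2.2 he.2.1 he.2.2 rd re
  have hb' : b - x • a ∈ Δ := ab ▸ h.refl a ha b hb
  have := h.aniso (RS.mem4 hb hb' hc.1 hd.1) (h.orth4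
    (by simp only [map_add, map_sub, map_neg, map_smul, LinearMap.add_apply, LinearMap.sub_apply, LinearMap.neg_apply, LinearMap.smul_apply, smul_eq_mul, h.norm b hb, h.symm b a, ab]; linear_combination -hx) hc.2.2 hd.2.2
    (by simp [hc.2]) (by simp [hd.2]) cd) (x := (2 : K) • e - β c e • c - β d e • d) (fun i => by
      rw [h.symm]
      fin_cases i
      · simp [hc.2, hd.2, he.2]
      · simp [hc.2, hd.2, he.2]
      · simp [cd, h.norm c hc.1, mul_comm]
      · simp [dc, h.norm d hd.1, mul_comm]) (by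
      simp only [map_add, map_sub, map_neg, map_smul, LinearMap.add_apply, LinearMap.sub_apply, LinearMap.neg_apply, LinearMap.smul_apply, smul_eq_mul, cd, dc, h.norm c hc.1, h.norm d hd.1, h.norm e he.1, h.symm e c, h.symm e d]
      linear_combination -2 * ce - 2 * de)
  exact h.indep' sp (r := 0) (s := 0) (t := -β c e) (u := -β d e) two (by rw [← this]; module)

theorem type1 {a b c : W} (ha : a ∈ Δ) (hb : b ∈ Δ) (ab : β a b = x) (hc : c ∈ Δ)
    (h1 : β c b * (β c b - β a b * β c a) = 0) (h2 : β c a ^ 2 = 1) :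
    ∃ n, (n ∈ Δ ∧ β a n = 0 ∧ β b n = 0) ∧ (x / 2) • (b + n) ∈ Δ ∧
      c ∈ Submodule.span K ({a, b, n} : Set W) := by
  have two := h.two
  have x0 := x_ne h hx
  have key : ∀ c ∈ Δ, β c b = x * β c a → β c a ^ 2 = 1 → ∃ n, (n ∈ Δ ∧ β a n = 0 ∧ β b n = 0) ∧
      (x / 2) • (b + n) ∈ Δ ∧ c ∈ Submodule.span K ({a, b, n} : Set W) := fun c hc e1 e2 => by
    have e3 : (x / 2) • (b + -(b - β c b • c)) = β c a • c := by
      rw [e1]; match_scalars <;> field_simp <;> grind
    refine ⟨_, ⟨h.neg _ (h.refl c hc b hb), ?_, ?_⟩, e3 ▸ h.smul_mem hc e2, ?_⟩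
    · simp only [map_add, map_sub, map_neg, map_smul, LinearMap.add_apply, LinearMap.sub_apply, LinearMap.neg_apply, LinearMap.smul_apply, smul_eq_mul, ab, h.symm a c, e1]; grind
    · simp only [map_add, map_sub, map_neg, map_smul, LinearMap.add_apply, LinearMap.sub_apply, LinearMap.neg_apply, LinearMap.smul_apply, smul_eq_mul, h.norm b hb, h.symm b c, e1]; grind
    · have m : β c a • ((x / 2) • (b + -(b - β c b • c))) ∈
          Submodule.span K ({a, b, -(b - β c b • c)} : Set W) :=
        Submodule.smul_mem _ _ (Submodule.smul_mem _ _ (add_mem (Submodule.subset_span (by simp))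
          (Submodule.subset_span (by simp))))
      rwa [e3, smul_smul, ← pow_two, e2, one_smul] at m
  rcases mul_eq_zero.1 h1 with e | e
  · obtain ⟨n, n1, n2, n3⟩ := key _ (h.refl a ha c hc)
      (by simp only [map_add, map_sub, map_neg, map_smul, LinearMap.add_apply, LinearMap.sub_apply, LinearMap.neg_apply, LinearMap.smul_apply, smul_eq_mul, ab, e, h.norm a ha, h.symm a c]; ring) (by simp only [map_add, map_sub, map_neg, map_smul, LinearMap.add_apply, LinearMap.sub_apply, LinearMap.neg_apply, LinearMap.smul_apply, smul_eq_mul, h.norm a ha, h.symm a c]; grind)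
    refine ⟨n, n1, n2, ?_⟩
    simpa using add_mem n3 (Submodule.smul_mem _ (β a c)
      (Submodule.subset_span (by simp) : a ∈ Submodule.span K ({a, b, n} : Set W)))
  · exact key c hc (by rw [← ab]; exact sub_eq_zero.1 e) h2

end four

section five

variable {t : K} (ht : t ^ 2 = t + 1) (h3 : 3 - t ≠ 0) (h5 : T5 β Δ)
include ht h3 h5

theorem gram {a b c d : W} (ha : a ∈ Δ) (hb : b ∈ Δ) (ab : β a b = t)
    (hc : c ∈ Δ ∧ β a c = 0 ∧ β b c = 1) (hd : d ∈ Δ ∧ β a d = 0 ∧ β b d = 1) (cd : d ≠ c) :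
    β c d = 1 ∨ β c d = t := by
  have ba := (h.symm _ _).trans ab
  have h2 : -(a - t • b) ∈ Δ := ba ▸ h.neg _ (h.refl b hb a ha)
  have e1 : β c (-(a - t • b)) = t := by simp only [map_add, map_sub, map_neg, map_smul, LinearMap.add_apply, LinearMap.sub_apply, LinearMap.neg_apply, LinearMap.smul_apply, smul_eq_mul, h.symm c, hc.2]; ring
  have e2 : β d (-(a - t • b)) = t := by simp only [map_add, map_sub, map_neg, map_smul, LinearMap.add_apply, LinearMap.sub_apply, LinearMap.neg_apply, LinearMap.smul_apply, smul_eq_mul, h.symm d, hd.2]; ring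
  have := h5 c hc.1 _ h2 d hd.1 (by rw [e1, ht]) (by rw [e1]; grind) (fun hm => by
    obtain ⟨r, s, e⟩ := Submodule.mem_span_pair.1 hm
    have k1 := congrArg (β a) e
    have k2 := congrArg (β b) e
    simp only [map_add, map_sub, map_neg, map_smul, LinearMap.add_apply, LinearMap.sub_apply, LinearMap.neg_apply, LinearMap.smul_apply, smul_eq_mul, hc.2, hd.2, h.norm a ha, h.norm b hb, ab, ba] at k1 k2
    have s0 : s = 0 := by grind
    have r1 : r = 1 := by grind
    exact cd (by rw [← e, s0, r1]; simp)) (Or.inr (by rw [e2]; grind))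
  rw [e1, e2, h.symm d c] at this
  simp only [pat, List.mem_cons, List.not_mem_nil, or_false, exists_eq_or_imp, exists_eq_left] at this
  grind

theorem span_E {a b : W} (ha : a ∈ Δ) (hb : b ∈ Δ) (ab : β a b = t) :
    Submodule.span K ({a, b} ∪ {c | c ∈ Δ ∧ β a c = 0 ∧ β b c = 1}) = ⊤ := by
  have ba := (h.symm _ _).trans ab
  have aa := h.norm a ha
  have bb := h.norm b hb
  set U := Submodule.span K ({a, b} ∪ {c | c ∈ Δ ∧ β a c = 0 ∧ β b c = 1}) with hU
  have aU : a ∈ U := Submodule.subset_span (by simp)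
  have bU : b ∈ U := Submodule.subset_span (by simp)
  have EU : ∀ c ∈ Δ, β a c = 0 → β b c = 1 → c ∈ U := fun c h1 h2 h3 =>
    Submodule.subset_span (Or.inr ⟨h1, h2, h3⟩)
  have PU : Submodule.span K {a, b} ≤ U := Submodule.span_mono Set.subset_union_left
  have r2 : t • b - a ∈ Δ := by simpa [ba] using h.neg _ (h.refl b hb a ha)
  have r4 : b - t • a ∈ Δ := ab ▸ h.refl a ha b hb
  have r3 : t • b - t • a ∈ Δ := by
    convert h.neg _ (h.refl _ r2 b hb) using 1
    simp only [map_add, map_sub, map_neg, map_smul, LinearMap.add_apply, LinearMap.sub_apply, LinearMap.neg_apply, LinearMap.smul_apply, smul_eq_mul, ab, bb]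
    match_scalars <;> grind
  have back : ∀ (r s : K) (c : W), c - β (r • a + s • b) c • (r • a + s • b) ∈ U → c ∈ U :=
    fun r s c hc => by
      simpa using add_mem hc (U.smul_mem (β (r • a + s • b) c) (add_mem (U.smul_mem r aU) (U.smul_mem s bU)))
  have T : ∀ c ∈ Δ, c ∉ U → (β a c ≠ 0 ∨ β b c ≠ 0) → 0 ∈ pat t (β a c) (β b c) ∧
      ∃ x ∈ pat t (β a c) (β b c), x ^ 2 = 1 := fun c hc h1 h2 => by
    have := h5 a ha b hb c hc (by rw [ab, ht]) (by rw [ab]; grind) (fun hm => h1 (PU hm))
      (by rwa [h.symm c, h.symm c])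
    rwa [ab, h.symm c, h.symm c] at this
  have Z1 : ∀ c ∈ Δ, β a c = 0 → β b c = t - 1 → c ∈ U := fun c hc h1 h2 => by
    have cb := (h.symm _ _).trans h2
    have k := back (-t) 1 _ (EU _ (h.refl _ (by simpa [neg_add_eq_sub] using r4) _ (h.refl c hc b hb))
      (by simp only [map_add, map_sub, map_neg, map_smul, LinearMap.add_apply, LinearMap.sub_apply, LinearMap.neg_apply, LinearMap.smul_apply, smul_eq_mul, aa, ab, ba, bb, h1, h2, cb]; grind) (by simp only [map_add, map_sub, map_neg, map_smul, LinearMap.add_apply, LinearMap.sub_apply, LinearMap.neg_apply, LinearMap.smul_apply, smul_eq_mul, aa, ab, ba, bb, h1, h2, cb]; grind))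
    have : c = t • (b - (b - β c b • c)) := by rw [cb]; match_scalars <;> grind
    rw [this]
    exact U.smul_mem _ (sub_mem bU k)
  have Z0 : ∀ c ∈ Δ, β a c = 0 → β b c ≠ 0 → c ∈ U := fun c hc h1 h2 => by
    by_contra hn
    have := (T c hc hn (Or.inr h2)).2
    simp only [pat, List.mem_cons, List.not_mem_nil, or_false, exists_eq_or_imp, exists_eq_left,
      h1] at this
    have k : β b c = 1 ∨ β b c = -1 ∨ β b c = t - 1 ∨ β b c = -(t - 1) := by
      have k1 : β b c ^ 2 = 1 → _ := fun e => (RsA.pm e).imp_right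
        (Or.inl (b := β b c = t - 1 ∨ β b c = -(t - 1)))
      have k2 : (t * β b c) ^ 2 = 1 → β b c = 1 ∨ β b c = -1 ∨ β b c = t - 1 ∨ β b c = -(t - 1) :=
        fun e => Or.inr (Or.inr ((RsA.pm e).imp
          (fun e => by linear_combination (t - 1) * e - β b c * ht)
          fun e => by linear_combination (t - 1) * e - β b c * ht))
      rcases this with e | e | e | e | e
      · exact absurd e (by simp)
      · exact k1 e
      · exact k2 (by linear_combination e)
      · exact k2 (by linear_combination e)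
      · exact k1 (by linear_combination e)
    rcases k with k | k | k | k
    · exact hn (EU c hc h1 k)
    · exact hn (neg_mem_iff.1 (EU _ (h.neg c hc) (by simp [h1]) (by simp [k])))
    · exact hn (Z1 c hc h1 k)
    · exact hn (neg_mem_iff.1 (Z1 _ (h.neg c hc) (by simp [h1]) (by simp [k])))
  have Z : ∀ (r s : K), r • a + s • b ∈ Δ → ∀ c ∈ Δ, (β a c ≠ 0 ∨ β b c ≠ 0) →
      β a (c - β (r • a + s • b) c • (r • a + s • b)) = 0 → c ∈ U := fun r s hr c hc h1 h2 => by
    refine back r s c (Z0 _ (h.refl _ hr c hc) h2 fun h3 => ?_)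
    have h4 := (fun d (e1 : β a d = 0) (e2 : β b d = 0) =>
      (by simp [e1, e2] : β (r • a + s • b) d = 0)) _ h2 h3
    rw [map_sub, map_smul, h.norm _ hr, smul_eq_mul] at h4
    have h5 : β (r • a + s • b) c = 0 := by linear_combination -h4
    rw [h5, zero_smul, sub_zero] at h2 h3
    exact h1.elim (· h2) (· h3)
  refine h.irr' ha (by simp) fun c hc => ?_
  by_cases h1 : β a c ≠ 0 ∨ β b c ≠ 0
  · left
    by_contra hn
    have := (T c hc hn h1).1
    simp only [pat, List.mem_cons, List.not_mem_nil, or_false] at this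
    rcases this with k | k | k | k | k
    · exact hn (Z0 c hc k.symm (h1.resolve_left (· k.symm)))
    · exact hn (Z (-t) t (by simpa [neg_add_eq_sub] using r3) c hc h1 (by simp only [map_add, map_sub, map_neg, map_smul, LinearMap.add_apply, LinearMap.sub_apply, LinearMap.neg_apply, LinearMap.smul_apply, smul_eq_mul, aa, ab]; grind))
    · exact hn (Z 0 1 (by simpa using hb) c hc h1 (by simp only [map_add, map_sub, map_neg, map_smul, LinearMap.add_apply, LinearMap.sub_apply, LinearMap.neg_apply, LinearMap.smul_apply, smul_eq_mul, aa, ab]; grind))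
    · exact hn (Z (-t) 1 (by simpa [neg_add_eq_sub] using r4) c hc h1 (by simp only [map_add, map_sub, map_neg, map_smul, LinearMap.add_apply, LinearMap.sub_apply, LinearMap.neg_apply, LinearMap.smul_apply, smul_eq_mul, aa, ab]; grind))
    · exact hn (Z (-1) t (by simpa [neg_add_eq_sub] using r2) c hc h1 (by simp only [map_add, map_sub, map_neg, map_smul, LinearMap.add_apply, LinearMap.sub_apply, LinearMap.neg_apply, LinearMap.smul_apply, smul_eq_mul, aa, ab]; grind))
  · push Not at h1
    right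
    rintro y ((rfl | rfl) | ⟨y1, y2, y3⟩)
    · simp [h.symm c, h1.1]
    · simp [h.symm c, h1.2]
    · exact Or.inr ⟨h.refl c hc y y1, by simp [h1.1, y2], by simp [h1.2, y3]⟩

theorem five {a b : W} (ha : a ∈ Δ) (hb : b ∈ Δ) (ab : β a b = t) : False := by
  have two := h.two
  have ba := (h.symm _ _).trans ab
  have aa := h.norm a ha
  have bb := h.norm b hb
  obtain ⟨c, hc, d, hd, e, he, sp⟩ := h.exists_three (li2 h ha hb (by rw [ab]; grind))
    (span_E h ht h3 h5 ha hb ab)
  have t0 : t ≠ 0 := by grind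
  have mixed : ∀ {c d e : W}, c ∈ Δ ∧ β a c = 0 ∧ β b c = 1 → d ∈ Δ ∧ β a d = 0 ∧ β b d = 1 →
      e ∈ Δ ∧ β a e = 0 ∧ β b e = 1 → Submodule.span K {a, b, c, d, e} = ⊤ → β c d = t →
      β c e = 1 → (β d e = 1 ∨ β d e = t) → False := fun {c d e} hc hd he sp cd ce de => by
    have dc := (h.symm _ _).trans cd
    have ec := (h.symm _ _).trans ce
    have cc := h.norm c hc.1
    have dd := h.norm d hd.1
    have ee := h.norm e he.1
    rcases de with de | de
    · have ed := (h.symm _ _).trans de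
      refine h.indep' sp (r := (2 + t) * t) (s := -2 * (2 + t)) (t := 3 - t) (u := 3 - t)
        (v := (3 - t) * t) (mul_ne_zero h3 t0) (h.eq_zero5 sp ?_ ?_ ?_ ?_ ?_) <;>
        simp only [map_add, map_sub, map_neg, map_smul, LinearMap.add_apply, LinearMap.sub_apply, LinearMap.neg_apply, LinearMap.smul_apply, smul_eq_mul, aa, ab, ba, bb, cc, dd, ee, cd, dc, ce, ec, de, ed, hc.2, hd.2, he.2, h.symm c a, h.symm c b, h.symm d a, h.symm d b, h.symm e a, h.symm e b] <;> grind
    · have ed := (h.symm _ _).trans de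
      refine h.indep' sp (r := (2 * t - 1) * t) (s := -2 * (2 * t - 1)) (t := (3 - t) * t)
        (u := -(3 - t)) (v := (3 - t) * t) (mul_ne_zero h3 t0) (h.eq_zero5 sp ?_ ?_ ?_ ?_ ?_) <;>
        simp only [map_add, map_sub, map_neg, map_smul, LinearMap.add_apply, LinearMap.sub_apply, LinearMap.neg_apply, LinearMap.smul_apply, smul_eq_mul, aa, ab, ba, bb, cc, dd, ee, cd, dc, ce, ec, de, ed, hc.2, hd.2, he.2, h.symm c a, h.symm c b, h.symm d a, h.symm d b, h.symm e a, h.symm e b] <;> grind
  have i3 := h.indep sp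
  have cd := gram h ht h3 h5 ha hb ab hc hd fun k => h.indep (c := c) (d := e) (e := d)
    (by rwa [Set.pair_comm e d]) (Submodule.subset_span (by simp [k]))
  have ce := gram h ht h3 h5 ha hb ab hc he fun k => i3 (Submodule.subset_span (by simp [k]))
  have de := gram h ht h3 h5 ha hb ab hd he fun k => i3 (Submodule.subset_span (by simp [k]))
  have s1 : Submodule.span K {a, b, c, e, d} = ⊤ := by rwa [Set.pair_comm e d]
  have s2 : Submodule.span K {a, b, d, e, c} = ⊤ := by
    rwa [Set.pair_comm e c, Set.insert_comm d c]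
  have cc := h.norm c hc.1
  have dd := h.norm d hd.1
  rcases cd with cd | cd <;> rcases ce with ce | ce
  · rcases de with de | de
    · have dc := (h.symm _ _).trans cd
      have r4 := h.refl a ha b hb
      have r5 := h.refl _ (h.refl _ r4 _ (h.refl b hb c hc.1)) _ (h.refl d hd.1 b hb)
      have e5 : (-(1 + 2 * t)) • a + (2 + 2 * t) • b - t • c - d ∈ Δ := by
        convert r5 using 1
        simp only [map_add, map_sub, map_neg, map_smul, LinearMap.add_apply, LinearMap.sub_apply, LinearMap.neg_apply, LinearMap.smul_apply, smul_eq_mul, aa, ab, ba, bb, cc, cd, hc.2, hd.2, h.symm c a, h.symm c b, h.symm d b]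
        match_scalars <;> grind
      have := gram h ht h3 h5 ha hb ab ⟨e5, by simp only [map_add, map_sub, map_neg, map_smul, LinearMap.add_apply, LinearMap.sub_apply, LinearMap.neg_apply, LinearMap.smul_apply, smul_eq_mul, aa, ab, hc.2, hd.2]; grind,
        by simp only [map_add, map_sub, map_neg, map_smul, LinearMap.add_apply, LinearMap.sub_apply, LinearMap.neg_apply, LinearMap.smul_apply, smul_eq_mul, ba, bb, hc.2, hd.2]; grind⟩ he fun k =>
          h.indep' sp (r := -(1 + 2 * t)) (s := 2 + 2 * t) (t := -t) (u := -1) (v := -1) (by simp)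
            (by rw [k]; module)
      simp only [map_add, map_sub, map_neg, map_smul, LinearMap.add_apply, LinearMap.sub_apply, LinearMap.neg_apply, LinearMap.smul_apply, smul_eq_mul, ce, de, he.2] at this
      grind
    · exact mixed hd he hc s2 de ((h.symm _ _).trans cd) (Or.inl ((h.symm _ _).trans ce))
  · exact mixed hc he hd s1 ce cd (by rwa [h.symm])
  · exact mixed hc hd he sp cd ce de
  · rcases de with de | de
    · exact mixed hd hc he (by rwa [Set.insert_comm d c]) ((h.symm _ _).trans cd) de (Or.inr ce)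
    · have r5 := h.refl _ (h.refl c hc.1 d hd.1) _ (h.refl b hb e he.1)
      have e5 : -b + (1 - t) • c + (2 - t) • d + e ∈ Δ := by
        convert r5 using 1
        simp only [map_add, map_sub, map_neg, map_smul, LinearMap.add_apply, LinearMap.sub_apply, LinearMap.neg_apply, LinearMap.smul_apply, smul_eq_mul, cd, ce, de, he.2, hc.2, hd.2, h.symm c b, h.symm d b]
        match_scalars <;> grind
      have k1 : β (-b + (1 - t) • c + (2 - t) • d + e) a = -t := by
        rw [h.symm]; simp only [map_add, map_sub, map_neg, map_smul, LinearMap.add_apply, LinearMap.sub_apply, LinearMap.neg_apply, LinearMap.smul_apply, smul_eq_mul, ab, hc.2, hd.2, he.2]; ring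
      have k2 : β (-b + (1 - t) • c + (2 - t) • d + e) b = 2 - 2 * t := by
        rw [h.symm]; simp only [map_add, map_sub, map_neg, map_smul, LinearMap.add_apply, LinearMap.sub_apply, LinearMap.neg_apply, LinearMap.smul_apply, smul_eq_mul, bb, hc.2, hd.2, he.2]; ring
      have := (h5 a ha b hb _ e5 (by rw [ab, ht]) (by rw [ab]; grind) (fun hm => by
        obtain ⟨r, s, k⟩ := Submodule.mem_span_pair.1 hm
        exact h.indep' sp (r := -r) (s := -s - 1) (t := 1 - t) (u := 2 - t) (v := 1) one_ne_zero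
          (by rw [← sub_eq_zero.2 k.symm]; module)) (Or.inl (by rw [k1]; simpa))).1
      rw [k1, k2, ab] at this
      simp only [pat, List.mem_cons, List.not_mem_nil, or_false] at this
      grind

end five

end M45

open M45

theorem RS.no4 (h : RS β Δ) (h4 : T4 β Δ) : ∀ a ∈ Δ, ∀ b ∈ Δ, β a b ^ 2 ≠ 2 := by
  intro a ha b hb hx
  have ba := h.symm b a
  have sp : Submodule.span K ({a, b} ∪ {n | (n ∈ Δ ∧ β a n = 0 ∧ β b n = 0) ∧
      ((β a b / 2) • (b + n) ∈ Δ ∨ (β a b / 2) • (a + n) ∈ Δ)}) = ⊤ := by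
    refine h.irr' ha (by simp) fun c hc => ?_
    by_cases h1 : c ∈ Submodule.span K ({a, b} : Set W)
    · exact Or.inl (Submodule.span_mono Set.subset_union_left h1)
    by_cases h2 : β c a ≠ 0 ∨ β c b ≠ 0
    · left
      rcases h4 a ha b hb c hc hx h1 h2 with ⟨k1, k2⟩ | ⟨k1, k2⟩
      · obtain ⟨n, n1, n2, n3⟩ := type1 h hx h4 ha hb rfl hc k1 k2
        refine Submodule.span_mono ?_ n3
        rintro _ (rfl | rfl | rfl)
        exacts [by simp, by simp, Or.inr ⟨n1, Or.inl n2⟩]
      · obtain ⟨n, n1, n2, n3⟩ := type1 h hx h4 hb ha ba hc (ba ▸ k1) k2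
        refine Submodule.span_mono ?_ n3
        rintro _ (rfl | rfl | rfl)
        exacts [by simp, by simp, Or.inr ⟨⟨n1.1, n1.2.2, n1.2.1⟩, Or.inr n2⟩]
    · push Not at h2
      right
      rintro y ((rfl | rfl) | ⟨⟨y1, y2, y3⟩, y4⟩)
      · simp [h2.1]
      · simp [h2.2]
      · refine Or.inr ⟨⟨h.refl c hc y y1, by simp [y2, h.symm a c, h2.1],
          by simp [y3, h.symm b c, h2.2]⟩, y4.imp (fun k => ?_) fun k => ?_⟩
        · convert h.refl c hc _ k using 1
          simp only [map_add, map_sub, map_neg, map_smul, LinearMap.add_apply, LinearMap.sub_apply, LinearMap.neg_apply, LinearMap.smul_apply, smul_eq_mul, h2.2]; module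
        · convert h.refl c hc _ k using 1
          simp only [map_add, map_sub, map_neg, map_smul, LinearMap.add_apply, LinearMap.sub_apply, LinearMap.neg_apply, LinearMap.smul_apply, smul_eq_mul, h2.1]; module
  obtain ⟨c, ⟨hc, rc⟩, d, ⟨hd, rd⟩, e, ⟨he, re⟩, s0⟩ := h.exists_three
    (li2 h ha hb fun e => h.two (by linear_combination hx - e + (2 : K) * (by ring : (1 : K) = 1))) sp
  have s1 : Submodule.span K {a, b, c, e, d} = ⊤ := by rwa [Set.pair_comm e d]
  have s2 : Submodule.span K {a, b, d, e, c} = ⊤ := by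
    rwa [Set.pair_comm e c, Set.insert_comm d c]
  have sw : ∀ {n : W}, n ∈ Δ ∧ β a n = 0 ∧ β b n = 0 → n ∈ Δ ∧ β b n = 0 ∧ β a n = 0 :=
    fun k => ⟨k.1, k.2.2, k.2.1⟩
  rcases rc with rc | rc <;> rcases rd with rd | rd <;> rcases re with re | re
  · exact all1 h hx h4 ha hb rfl hc hd he rc rd re s0
  · exact two1 h hx h4 ha hb rfl hc hd he rc rd re s0
  · exact two1 h hx h4 ha hb rfl hc he hd rc re rd s1
  · exact two1 h hx h4 hb ha ba (sw hd) (sw he) (sw hc) rd re rc (by rwa [Set.insert_comm])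
  · exact two1 h hx h4 ha hb rfl hd he hc rd re rc s2
  · exact two1 h hx h4 hb ha ba (sw hc) (sw he) (sw hd) rc re rd (by rwa [Set.insert_comm])
  · exact two1 h hx h4 hb ha ba (sw hc) (sw hd) (sw he) rc rd re (by rwa [Set.insert_comm])
  · exact all1 h hx h4 hb ha ba (sw hc) (sw hd) (sw he) rc rd re (by rwa [Set.insert_comm])

theorem RS.no5 (h : RS β Δ) (h5 : T5 β Δ) :
    ∀ a ∈ Δ, ∀ b ∈ Δ, β a b ^ 2 ≠ 4 → β a b ^ 4 - 3 * β a b ^ 2 + 1 ≠ 0 := by
  intro a ha b hb h4 e
  rcases mul_eq_zero.1 (show (β a b ^ 2 - β a b - 1) * (β a b ^ 2 + β a b - 1) = 0 by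
    linear_combination e) with k | k
  · exact M45.five h (by linear_combination k) (fun e => h4 (by linear_combination k - e)) h5 ha hb rfl
  · exact M45.five h (t := -β a b) (by linear_combination k) (fun e => h4 (by linear_combination k - e))
      h5 ha (h.neg b hb) (by simp)

end CfsgLib.Dim4
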