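import Mathlib
import Cfsg.Agent.Lib.Dim4.W5

/-!
DIM4, package W5b: irreducibility on `W5`, quadratic pairs, the root system.  See `plans/DIM4.md`.
-/

set_option autoImplicit false

namespace CfsgLib.Dim4

open Matrix Cfsg Cfsg.Geo CfsgLib.Asch CfsgLib.Forms CfsgLib.Symp Subgroup
open scoped MatrixGroups commutatorElement

variable {G F K : Type*} [Group G] [Field F] [Field K] {ρ : G →* Sp4 F}

theorem Hat.neg {A : M4 F} (h : Hat ρ A) : Hat ρ (-A) :=
  h.imp fun _ hg => hg.symm.imp id fun e => by rw [e, neg_neg]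

theorem Hat.mul {A B : M4 F} (h : Hat ρ A) (h' : Hat ρ B) : Hat ρ (A * B) := by
  obtain ⟨g, hg⟩ := h
  obtain ⟨k, hk⟩ := h'
  refine ⟨g * k, ?_⟩
  rcases hg with hg | hg <;> rcases hk with hk | hk <;> simp [hg, hk]

theorem hat_one : Hat ρ 1 := ⟨1, Or.inl (by simp)⟩

theorem hat_finite [Finite G] : {A | Hat ρ A}.Finite :=
  ((Set.finite_range fun g => (ρ g).1).union (Set.finite_range fun g => -(ρ g).1)).subset
    fun _ ⟨g, hg⟩ => hg.imp (fun e => ⟨g, e⟩) fun e => ⟨g, by simp [e]⟩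

theorem Hat.conj {A : M4 F} (h : Hat ρ A) (g : G) : Hat ρ ((ρ g).1 * A * ((ρ g)⁻¹).1) :=
  (Hat.mul ⟨g, Or.inl rfl⟩ h).mul ⟨g⁻¹, Or.inl (by rw [map_inv])⟩

/-- a matrix normalised up to scalars is a scalar -/
theorem Abs.semi (ha : Abs ρ) (hq : QS G) {N : M4 F}
    (h : ∀ g, ∃ c : F, (ρ g).1 * N = c • (N * (ρ g).1)) : ∃ c : F, N = c • (1 : M4 F) := by
  by_cases h0 : N = 0
  · exact ⟨0, by simp [h0]⟩
  choose c hc using h
  have ne : ∀ g, N * (ρ g).1 ≠ 0 := fun g e => h0 (by
    rw [← mul_one N, ← coe_mul_inv (ρ g), ← mul_assoc, e, zero_mul])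
  let χ : G →* F :=
    { toFun := c
      map_one' := smul_left_injective F (ne 1) (by simpa using (hc 1).symm)
      map_mul' := fun a b => smul_left_injective F (ne (a * b)) (by
        have := hc (a * b)
        simp only [map_mul, Submonoid.coe_mul] at this ⊢
        rw [← this, mul_assoc, hc, mul_smul_comm, ← mul_assoc, hc, smul_mul_assoc, smul_smul,
          mul_comm (c b), mul_assoc]) }
  refine ha.comm fun g => ?_
  have : c g = 1 := congrArg Units.val (hq.hom_eq_one χ.toHomUnits g)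
  rw [hc, this, one_smul]

/-- a transvection over the big field is a transvection over the small field -/
theorem NT.bc (h : NT ρ) (f : F →+* K) : NT ((bc f).comp ρ) := by
  rintro u d ⟨g, hg⟩
  by_contra hn
  push Not at hn
  have e : ∀ x : V4 F, f ∘ (ρ g • x - x) = (d * B4 (f ∘ x) u) • u := fun x => by
    have := bc_smul f (ρ g) x
    rw [show Dim4.bc f (ρ g) = spT u d from hg, spT_smul] at this
    ext i
    have := congrFun this i
    simp only [Function.comp_apply, Pi.add_apply, Pi.sub_apply, map_sub] at this ⊢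
    rw [← this]; simp
  obtain ⟨w, hw⟩ : ∃ w : V4 F, B4 (f ∘ w) u ≠ 0 := by
    by_contra hw
    push Not at hw
    have k := fun i => hw (Pi.single i 1)
    have := k (.inl 0); have := k (.inl 1); have := k (.inr 0); have := k (.inr 1)
    refine hn.1 ?_
    ext (i | i) <;> fin_cases i <;> simp_all [B4_apply]
  set b := B4 (f ∘ w) u
  set v := ρ g • w - w
  have hv : f ∘ v = (d * b) • u := e w
  have hwv : f (B4 w v) = d * b ^ 2 := by rw [← B4_comp, hv, map_smul, smul_eq_mul]; ring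
  have h0 : B4 w v ≠ 0 := fun e0 => mul_ne_zero hn.2 (pow_ne_zero 2 hw) (by rw [← hwv, e0, map_zero])
  refine (h v (B4 w v)⁻¹ ⟨g, sp_ext fun x => ?_⟩).elim (fun e0 => h0 (by simp [e0]))
    (inv_ne_zero h0)
  rw [spT_smul, ← sub_eq_iff_eq_add']
  ext i
  apply f.injective
  have := congrFun (e x) i
  have k := congrFun hv i
  simp only [Function.comp_apply, Pi.smul_apply, smul_eq_mul] at this k ⊢
  rw [this, map_mul, map_mul, map_inv₀, hwv, k, ← B4_comp, hv, map_smul, smul_eq_mul]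
  have := hn.2
  field_simp

variable [NeZero (2 : F)]

theorem psi_eq_scalar {x : W5 F} {c : F} (h : psi x = c • (1 : M4 F)) : x = 0 :=
  (smul_one_add_psi (a := 0) (b := c) (y := 0) (by simp [h])).2

theorem eq_zero_of_fix (ha : Abs ρ) (hq : QS G) {x : W5 F}
    (h : ∀ g, ∃ c : F, sg (ρ g) x = c • x) : x = 0 := by
  obtain ⟨c, hc⟩ := ha.semi hq (N := psi x) fun g => (h g).imp fun c hc => by
    rw [sg_eq_iff.1 hc, map_smul, smul_mul_assoc]
  exact psi_eq_scalar hc

theorem psi_sg_mul_sg (h : Sp4 F) (a b : W5 F) :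
    psi (sg h a) * psi (sg h b) * h.1 = h.1 * (psi a * psi b) := by
  rw [mul_assoc, psi_sg_mul, ← mul_assoc, psi_sg_mul, mul_assoc]

theorem irr5_small (ha : Abs ρ) (hq : QS G) (U : Submodule F (W5 F))
    (hU : ∀ g, ∀ x ∈ U, sg (ρ g) x ∈ U) (h2 : Module.finrank F U ≤ 2) : U = ⊥ := by
  by_contra h0
  obtain ⟨u, hu, u0⟩ := U.ne_bot_iff.1 h0
  obtain ⟨v, hv, hi⟩ : ∃ v ∈ U, ∀ c : F, c • u ≠ v := by
    by_contra hn
    push Not at hn
    exact u0 (eq_zero_of_fix ha hq fun g => (hn _ (hU g u hu)).imp fun _ e => e.symm)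
  have hs : Submodule.span F {u, v} = U := by
    refine Submodule.eq_of_le_of_finrank_le (Submodule.span_le.2 (by
      rintro _ (rfl | rfl) <;> assumption)) (h2.trans_eq ?_)
    have := finrank_span_eq_card ((LinearIndependent.pair_iff' u0).2 hi)
    rwa [Matrix.range_cons, Matrix.range_cons, Matrix.range_empty, Set.union_empty,
      Set.singleton_union, Fintype.card_fin, eq_comm] at this
  obtain ⟨c, hc⟩ := ha.semi hq (N := psi u * psi v - psi v * psi u) fun g => by
    obtain ⟨a, b, h1⟩ := Submodule.mem_span_pair.1 (hs ▸ hU g u hu)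
    obtain ⟨c, d, h2⟩ := Submodule.mem_span_pair.1 (hs ▸ hU g v hv)
    refine ⟨a * d - b * c, ?_⟩
    rw [mul_sub, ← psi_sg_mul_sg, ← psi_sg_mul_sg, ← sub_mul, ← smul_mul_assoc, ← h1, ← h2]
    congr 1
    simp only [map_add, map_smul, mul_add, add_mul, smul_mul_assoc, mul_smul_comm]
    module
  have h4 : (4 : F) ≠ 0 := by
    rw [show (4 : F) = 2 * 2 by norm_num]; exact mul_ne_zero two_ne_zero two_ne_zero
  obtain rfl : c = 0 := by
    have := congrArg Matrix.trace hc
    rw [trace_sub, trace_mul_comm, sub_self] at this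
    simpa [h4] using this
  rw [zero_smul, sub_eq_zero] at hc
  have e : psi v * psi u = (bt u v / 2) • (1 : M4 F) := by
    have := psi_anti u v
    rw [hc, ← two_smul F] at this
    rw [div_eq_inv_mul, mul_smul, ← this, smul_smul, inv_mul_cancel₀ two_ne_zero, one_smul]
  by_cases hb : bt u v = 0
  · rw [hb, zero_div, zero_smul] at e
    obtain ⟨c, rfl⟩ := w6 two_ne_zero e u0
    exact hi c rfl
  · have e2 : q5 u • v = (bt u v / 2) • u := psi_injective (by
      rw [map_smul, map_smul, ← mul_one (psi v), ← mul_smul_comm, ← psi_sq, ← mul_assoc, e]; simp)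
    by_cases hq : q5 u = 0
    · rw [hq, zero_smul, eq_comm, smul_eq_zero] at e2
      exact e2.elim (div_ne_zero hb two_ne_zero) u0
    · exact hi ((q5 u)⁻¹ * (bt u v / 2)) (by rw [mul_smul, ← e2, inv_smul_smul₀ hq])

theorem bt_nondegenerate : (bt : LinearMap.BilinForm F (W5 F)).Nondegenerate :=
  ⟨fun _ h => bt_nondeg h, fun _ h => bt_nondeg fun y => by rw [bt_symm, h]⟩

/-- `W5` is irreducible -/
theorem irr5 (ha : Abs ρ) (hq : QS G) (U : Submodule F (W5 F))
    (hU : ∀ g, ∀ x ∈ U, sg (ρ g) x ∈ U) : U = ⊥ ∨ U = ⊤ := by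
  by_cases h2 : Module.finrank F U ≤ 2
  · exact Or.inl (irr5_small ha hq U hU h2)
  have h5 : Module.finrank F (W5 F) = 5 := by simp
  have h3 := LinearMap.BilinForm.finrank_orthogonal bt_nondegenerate U
  have h4 := irr5_small ha hq (bt.orthogonal U) (fun g x hx y hy => by
    have := hx _ (hU g⁻¹ y hy)
    rwa [← bt_sg (ρ g), map_inv, sg_sg_inv] at this) (by omega)
  rw [h4, finrank_bot] at h3
  have := U.finrank_le
  exact Or.inr (Submodule.eq_top_of_finrank_eq (by omega))

theorem sg_span {s : Set (W5 F)} {h : Sp4 F} (hs : ∀ x ∈ s, sg h x ∈ s) :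
    ∀ x ∈ Submodule.span F s, sg h x ∈ Submodule.span F s := fun _ hx =>
  (Submodule.span_le (p := (Submodule.span F s).comap (sg h))).2
    (fun y hy => Submodule.subset_span (hs y hy)) hx

/-- an invariant set of mutually orthogonal singular vectors is zero -/
theorem nil5 (ha : Abs ρ) (hq : QS G) {s : Set (W5 F)} (h : ∀ g, ∀ x ∈ s, sg (ρ g) x ∈ s)
    (h0 : ∀ x ∈ s, ∀ y ∈ s, bt x y = 0) : ∀ x ∈ s, x = 0 := fun x hx => by
  rcases irr5 ha hq _ fun g => sg_span (h g) with e | e
  · exact Submodule.span_eq_bot.1 e x hx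
  · exact bt_nondeg fun y => (Submodule.span_le (p := LinearMap.ker (bt x))).2 (h0 x hx)
      (e ▸ Submodule.mem_top)

theorem inv_of_quad {a : Sp4 F} (h : vd a = 0) : (a⁻¹).1 = (a.1.trace / 2) • (1 : M4 F) - a.1 := by
  rw [eq_sub_iff_add_eq', add_inv, h, map_zero, add_zero]

theorem sq_of_quad {a : Sp4 F} (h : vd a = 0) : a.1 * a.1 = (a.1.trace / 2) • a.1 - 1 := by
  have := coe_mul_inv a
  rw [inv_of_quad h, mul_sub, mul_smul_comm, mul_one] at this
  rw [← this]; abel

theorem swap_of_quad {a b : Sp4 F} (h1 : vd a = 0) (h2 : vd b = 0) : ∃ c : F, psi (vd (a * b)) =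
    a.1 * b.1 + b.1 * a.1 - (a.1.trace / 2) • b.1 - (b.1.trace / 2) • a.1 + c • 1 := by
  have := add_inv (a * b)
  rw [_root_.mul_inv_rev, Submonoid.coe_mul, Submonoid.coe_mul, inv_of_quad h1, inv_of_quad h2,
    ← sub_eq_iff_eq_add'] at this
  refine ⟨a.1.trace / 2 * (b.1.trace / 2) - (a.1 * b.1).trace / 2, ?_⟩
  rw [← this]
  simp only [mul_sub, sub_mul, smul_mul_assoc, mul_smul_comm, mul_one, one_mul]
  module

/-- `a b + (a b)⁻¹` commutes with the quadratic elements `a`, `b` -/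
theorem quad_comm {a b : Sp4 F} (h1 : vd a = 0) (h2 : vd b = 0) :
    sg a (vd (a * b)) = vd (a * b) ∧ sg b (vd (a * b)) = vd (a * b) := by
  obtain ⟨c, hc⟩ := swap_of_quad h1 h2
  have ea : ∀ x : M4 F, a.1 * (a.1 * x) = (a.1.trace / 2) • (a.1 * x) - x := fun x => by
    rw [← mul_assoc, sq_of_quad h1, sub_mul, smul_mul_assoc, one_mul]
  have eb : ∀ x : M4 F, b.1 * (b.1 * x) = (b.1.trace / 2) • (b.1 * x) - x := fun x => by
    rw [← mul_assoc, sq_of_quad h2, sub_mul, smul_mul_assoc, one_mul]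
  constructor <;> rw [sg_eq_iff, hc] <;>
    simp only [mul_sub, sub_mul, mul_add, add_mul, smul_mul_assoc, mul_smul_comm, mul_one, one_mul,
      mul_assoc, ea, eb, sq_of_quad h1, sq_of_quad h2] <;> module

/-- two quadratic elements do not generate -/
theorem qq (ha : Abs ρ) {a b : G} (h1 : vd (ρ a) = 0) (h2 : vd (ρ b) = 0)
    (hg : ∀ g, ∃ k ∈ closure {a, b}, (ρ g).1 = (ρ k).1 ∨ (ρ g).1 = -(ρ k).1) : False := by
  have ind : ∀ S : Submodule F (M4 F), (∀ x ∈ S, (ρ a).1 * x ∈ S) → (∀ x ∈ S, (ρ b).1 * x ∈ S) →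
      ∀ g, ∀ x ∈ S, (ρ g).1 * x ∈ S := fun S k1 k2 g => by
    obtain ⟨k, hk, e⟩ := hg g
    suffices ∀ x ∈ S, (ρ k).1 * x ∈ S by
      rcases e with e | e <;> simpa [e] using this
    have k3 : ∀ y ∈ ({a, b} : Set G), vd (ρ y) = 0 ∧ ∀ x ∈ S, (ρ y).1 * x ∈ S := by
      rintro _ (rfl | rfl); exacts [⟨h1, k1⟩, ⟨h2, k2⟩]
    clear e
    induction hk using closure_induction_left with
    | one => simp
    | mul_left y hy k _ ih =>
      intro x hx
      rw [map_mul, Submonoid.coe_mul, mul_assoc]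
      exact (k3 y hy).2 _ (ih x hx)
    | inv_mul_cancel y hy k _ ih =>
      intro x hx
      rw [map_mul, Submonoid.coe_mul, mul_assoc, map_inv, inv_of_quad (k3 y hy).1, sub_mul,
        smul_mul_assoc, one_mul]
      exact sub_mem (S.smul_mem _ (ih x hx)) ((k3 y hy).2 _ (ih x hx))
  obtain ⟨q1, q2⟩ := quad_comm h1 h2
  set Y := psi (vd (ρ a * ρ b)) with hY
  obtain ⟨c, hc⟩ := ha.comm (x := Y) fun g => by
    have := ind (LinearMap.ker (LinearMap.mulLeft F Y - LinearMap.mulRight F Y))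
      (fun x hx => ?_) (fun x hx => ?_) g 1 (by simp)
    · simpa [sub_eq_zero] using this
    all_goals
      simp only [LinearMap.mem_ker, LinearMap.sub_apply, LinearMap.mulLeft_apply,
        LinearMap.mulRight_apply, sub_eq_zero] at hx ⊢
    · rw [← mul_assoc, ← sg_eq_iff.1 q1, mul_assoc, hx, mul_assoc]
    · rw [← mul_assoc, ← sg_eq_iff.1 q2, mul_assoc, hx, mul_assoc]
  obtain ⟨d, hd⟩ := swap_of_quad h1 h2
  set A := (ρ a).1
  set B := (ρ b).1
  have hBA : B * A = (c - d) • (1 : M4 F) + (B.trace / 2) • A + (A.trace / 2) • B - A * B := by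
    rw [sub_smul, ← hc, hY, hd]; abel
  let S := Submodule.span F (Set.range ![1, A, B, A * B])
  have m := fun i => Submodule.subset_span (R := F) (s := Set.range ![1, A, B, A * B]) ⟨i, rfl⟩
  have m0 : (1 : M4 F) ∈ S := m 0
  have m1 : A ∈ S := m 1
  have m2 : B ∈ S := m 2
  have m3 : A * B ∈ S := m 3
  have m4 : B * A ∈ S := by
    rw [hBA]; exact sub_mem (add_mem (add_mem (S.smul_mem _ m0) (S.smul_mem _ m1)) (S.smul_mem _ m2)) m3
  have m5 : B * B ∈ S := by rw [sq_of_quad h2]; exact sub_mem (S.smul_mem _ m2) m0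
  have key : ∀ C : M4 F, (∀ i, C * ![1, A, B, A * B] i ∈ S) → ∀ x ∈ S, C * x ∈ S := fun C hC x hx =>
    (Submodule.span_le (p := S.comap (LinearMap.mulLeft F C))).2 (by rintro _ ⟨i, rfl⟩; exact hC i) hx
  have hS : S = ⊤ := eq_top_iff.2 (ha ▸ Submodule.span_le.2 (by
    rintro _ ⟨g, rfl⟩
    refine (mul_one (ρ g).1 ▸ ind S (key _ fun i => ?_) (key _ fun i => ?_) g 1 m0 : (ρ g).1 ∈ S)
    · fin_cases i
      · simpa using m1
      · exact sq_of_quad h1 ▸ sub_mem (S.smul_mem _ m1) m0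
      · exact m3
      · change A * (A * B) ∈ S
        rw [← mul_assoc, sq_of_quad h1, sub_mul, smul_mul_assoc, one_mul]
        exact sub_mem (S.smul_mem _ m3) m2
    · fin_cases i
      · simpa using m2
      · exact m4
      · exact m5
      · change B * (A * B) ∈ S
        rw [← mul_assoc, hBA, sub_mul, add_mul, add_mul, mul_assoc A, sq_of_quad h2]
        simp only [smul_mul_assoc, one_mul, mul_sub, mul_smul_comm, mul_one]
        exact sub_mem (add_mem (add_mem (S.smul_mem _ m2) (S.smul_mem _ m3)) (S.smul_mem _ m5))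
          (sub_mem (S.smul_mem _ m3) m1)))
  have := finrank_range_le_card (R := F) ![1, A, B, A * B]
  rw [Set.finrank, show Submodule.span F _ = ⊤ from hS] at this
  simp [Module.finrank_matrix] at this

/-! ### the root system -/

theorem roots_sg {a : W5 F} (ha : a ∈ roots ρ) (g : G) : sg (ρ g) a ∈ roots ρ :=
  ⟨by rw [q5_sg, ha.1], by rw [psi_sg]; exact ha.2.conj g⟩

theorem root_not_central (hab : Abs ρ) {g : G} {a : W5 F} (ha : q5 a = 1)
    (e : (ρ g).1 = psi a ∨ (ρ g).1 = -psi a) : g ∉ center G := fun hc => by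
  obtain ⟨c, h⟩ := hab.comm (x := (ρ g).1) fun k => by
    simpa using congrArg (fun x => (ρ x).1) (Subgroup.mem_center_iff.1 hc k).symm
  have : a = 0 := by
    rcases e with e | e
    · exact psi_eq_scalar (e ▸ h)
    · exact psi_eq_scalar (c := -c) (by rw [neg_smul, ← h, e, neg_neg])
  simp [this, q5] at ha

/-- the root elements generate -/
theorem root_ind (hq : QS G) (hab : Abs ρ) (hne : (roots ρ).Nonempty) (P : G → Prop) (h1 : P 1)
    (hm : ∀ g k, ∀ a ∈ roots ρ, (∀ x, sg (ρ g) x = -(x - bt a x • a)) → P k → P (g * k)) (g : G) :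
    P g := by
  obtain ⟨a, ha, g₀, h₀⟩ := hne
  have := hq.closure_eq_top (D := {g | ∃ a ∈ roots ρ, (ρ g).1 = psi a ∨ (ρ g).1 = -psi a})
    (by
      rintro d ⟨a, ha, e⟩ g
      refine ⟨_, roots_sg ha g, ?_⟩
      rcases e with e | e <;> simp [psi_sg, e]) ⟨a, ⟨ha, g₀, h₀⟩, h₀⟩ (root_not_central hab ha h₀)
  have hg := this ▸ mem_top g
  induction hg using closure_induction_left with
  | one => exact h1
  | mul_left y hy k _ ih =>
    obtain ⟨a, ha, e⟩ := hy
    exact hm _ _ a ha (sg_of_psi ha.1 e) ih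
  | inv_mul_cancel y hy k _ ih =>
    obtain ⟨a, ha, e⟩ := hy
    refine hm _ _ a ha (sg_of_psi ha.1 ?_) ih
    have : ((ρ y)⁻¹).1 = (ρ y).1 := by
      rw [← mul_one ((ρ y)⁻¹).1, ← one_smul F (1 : M4 F), ← ha.1, ← psi_sq]
      rcases e with e | e
      · rw [← e, ← mul_assoc, coe_inv_mul, one_mul]
      · rw [← neg_mul_neg (psi a), ← e, ← mul_assoc, coe_inv_mul, one_mul]
    rwa [map_inv, this]

theorem rs_of [Finite G] (hq : QS G) (ha : Abs ρ) (hs : SMm ρ) (hr : ¬ NR ρ) :
    RS bt (roots ρ) := by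
  have hne : (roots ρ).Nonempty := by
    simp only [NR, not_forall, not_or] at hr
    obtain ⟨g, h1, h2, h3⟩ := hr
    obtain ⟨x, hx, e⟩ := ((invol h1).resolve_left h2).resolve_left h3
    exact ⟨x, hx, g, Or.inl e⟩
  have neg : ∀ a ∈ roots ρ, -a ∈ roots ρ := fun a h =>
    ⟨by rw [q5_neg, h.1], by rw [map_neg]; exact h.2.neg⟩
  have norm : ∀ a ∈ roots ρ, bt a a = 2 := fun a h => by rw [bt_self, h.1, mul_one]
  have irr : ∀ U : Submodule F (W5 F), (∀ a ∈ roots ρ, ∀ u ∈ U, u - bt a u • a ∈ U) →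
      U = ⊥ ∨ U = ⊤ := fun U hU => irr5 ha hq U (root_ind hq ha hne _ (by simp)
        fun g k a h e ih x hx => by
          rw [map_mul, sg_mul, e]; exact neg_mem (hU a h _ (ih x hx)))
  refine ⟨two_ne_zero, bt_symm, fun _ => bt_nondeg, by simp,
    (hat_finite.preimage psi_injective.injOn).subset fun _ h => h.2, hne, norm, neg,
    fun a h b h' => ?_, irr, fun Φ h1 h2 h3 => ?_, fun Γ hΓ => ?_,
    fun a h a' h' n l hn hl e e' k k' => ?_, fun u hu h0 => ?_⟩
  · obtain ⟨g, hg⟩ := h.2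
    simpa [sg_of_psi h.1 hg] using neg _ (roots_sg h' g)
  · refine Set.eq_empty_of_forall_notMem fun b hb => ?_
    have hneg : ∀ b ∈ Φ, -b ∈ Φ := fun b hb => by
      have := h2 b (h1 hb) b hb
      rwa [norm b (h1 hb), two_smul, sub_add_cancel_left] at this
    have inv : ∀ g, ∀ b ∈ Φ, sg (ρ g) b ∈ Φ := root_ind hq ha hne _ (by simp)
      fun g k a h e ih x hx => by rw [map_mul, sg_mul, e]; exact hneg _ (h2 a h _ (ih x hx))
    let N : Subgroup G :=
      { carrier := {g | ∀ b ∈ Φ, ∃ c : F, sg (ρ g) b = c • b}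
        one_mem' := fun b _ => ⟨1, by simp⟩
        mul_mem' := fun {g k} hg hk b hb => by
          obtain ⟨c, hc⟩ := hg b hb
          obtain ⟨d, hd⟩ := hk b hb
          exact ⟨d * c, by rw [map_mul, sg_mul, hd, map_smul, hc, mul_smul]⟩
        inv_mem' := fun {g} hg b hb => by
          obtain ⟨c, hc⟩ := hg b hb
          have hc0 : c ≠ 0 := by
            rintro rfl
            have := bt_sg (ρ g) b b
            rw [hc, norm b (h1 hb)] at this
            exact two_ne_zero (α := F) (by rw [← this]; simp)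
          exact ⟨c⁻¹, by rw [map_inv, eq_inv_smul_iff₀ hc0, ← map_smul, ← hc, sg_inv_sg]⟩ }
    obtain ⟨g, hg⟩ := (h1 hb).2
    rcases hq.nrm N ⟨fun n hn g b hb => (hn _ (inv g⁻¹ b hb)).imp fun c hc => by
      rw [map_mul ρ, map_mul ρ, sg_mul, sg_mul, hc, map_smul, map_inv, sg_sg_inv]⟩ with e | e
    · refine root_not_central ha (h1 hb).1 hg (e fun x hx => ?_)
      rw [sg_of_psi (h1 hb).1 hg]
      rcases h3 b hb x hx with k | rfl | rfl
      · exact ⟨-1, by simp [k]⟩
      · exact ⟨1, by rw [norm _ (h1 hb)]; module⟩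
      · exact ⟨1, by rw [map_neg, norm _ (h1 hb)]; module⟩
    · have := eq_zero_of_fix ha hq fun g => (e ▸ mem_top g : g ∈ N) b hb
      simpa [this, q5] using (h1 hb).1
  · by_contra hn
    let σ : G →* (W5 F ≃ₗ[F] W5 F) :=
      (LinearMap.GeneralLinearGroup.generalLinearEquiv F (W5 F)).toMonoidHom.comp
        (sg.comp ρ).toHomUnits
    have hσ : ∀ g x, σ g x = sg (ρ g) x := fun _ _ => rfl
    set ν : W5 F ≃ₗ[F] W5 F := LinearEquiv.neg F
    have hν : ∀ x : W5 F ≃ₗ[F] W5 F, x * ν = ν * x := fun x => by ext1 v; simp [ν]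
    have hνν : ν * ν = 1 := by ext1 v; simp [ν]
    have hr : ∀ g, ∀ a ∈ roots ρ, (∀ x, sg (ρ g) x = -(x - bt a x • a)) → ν * σ g ∈ Γ :=
      fun g a h e => by
        obtain ⟨r, h1, h2⟩ := hΓ a h
        convert h1
        ext1 v; simp [ν, hσ, e, h2]
    have hall : ∀ g, σ g ∈ Γ ∨ ν * σ g ∈ Γ := root_ind hq ha hne _ (by simp)
      fun g k a h e ih => by
        have := hr g a h e
        rcases ih with ih | ih
        · exact Or.inr (by rw [map_mul, ← mul_assoc]; exact mul_mem this ih)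
        · refine Or.inl ?_
          have := mul_mem this ih
          rwa [← hν, mul_assoc, ← mul_assoc ν, hνν, one_mul, ← map_mul] at this
    obtain ⟨a, h, g, hg⟩ := hne
    have hg' := hr g a ⟨h, g, hg⟩ (sg_of_psi h hg)
    refine hq.index_ne_two (Γ.comap σ) (index_eq_two_iff.2 ⟨g, fun k => ?_⟩)
    simp only [mem_comap, map_mul]
    rcases hall k with e | e
    · refine Or.inr ⟨e, fun e' => hn ?_⟩
      have := mul_mem hg' (inv_mem (mul_mem (inv_mem e) e'))
      simpa using this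
    · refine Or.inl ⟨?_, fun e' => hn (by simpa using mul_mem e (inv_mem e'))⟩
      have := mul_mem e hg'
      rwa [← hν, mul_assoc, ← mul_assoc ν, hνν, one_mul] at this
  · have hn0 : psi n * psi n = 0 := by
      have := k.1
      rw [q5_add, h.1, e, add_zero, add_eq_left] at this
      rw [psi_sq, this, zero_smul]
    have prod : ∀ x y : W5 F, bt y n = 0 → psi x * psi n * (psi y * psi n) = 0 := fun x y hy => by
      rw [mul_assoc, ← mul_assoc (psi n), psi_swap, hy, zero_smul, zero_sub, neg_mul, mul_assoc,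
        hn0]; simp
    have ne : ∀ x : W5 F, q5 x ≠ 0 → psi x * psi n ≠ 0 := fun x hx e0 => hn (psi_injective (by
      have := congrArg (psi x * ·) e0
      simpa [← mul_assoc, psi_sq, hx] using this))
    have hat : ∀ x y : W5 F, x ∈ roots ρ → x + y ∈ roots ρ → Hat ρ (1 + psi x * psi y) :=
      fun x y hx hy => by simpa [mul_add, psi_sq, hx.1] using hx.2.mul hy.2
    have e'' : bt (l • a') n = 0 := by simp [e']
    obtain ⟨h3, h4⟩ := hs (psi a * psi n) (psi (l • a') * psi n) (hat _ _ h k)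
      (by simpa using hat _ _ h' k') (ne _ (by simp [h.1])) (ne _ (by simp [q5_smul, h'.1, hl]))
      (prod _ _ e) (prod _ _ e'') (prod _ _ e'') (prod _ _ e)
    refine ⟨h3, ?_⟩
    rcases h4 with h4 | h4
    · exact (w6 two_ne_zero (by rw [map_sub, sub_mul, h4, sub_self]) hn).imp fun _ => Or.inl
    · exact (w6 two_ne_zero (by rw [map_add, add_mul, h4, neg_add_cancel]) hn).imp fun _ => Or.inr
  · have sw : ∀ i j, i ≠ j → ∀ x, psi (u j) * (psi (u i) * x) = -(psi (u i) * (psi (u j) * x)) :=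
      fun i j hij x => by rw [← mul_assoc, psi_swap, h0 i j hij]; simp [mul_assoc]
    have sq : ∀ i x, psi (u i) * (psi (u i) * x) = x := fun i x => by
      rw [← mul_assoc, psi_sq, (hu i).1]; simp
    have s01 := sw 0 1 (by decide); have s02 := sw 0 2 (by decide); have s03 := sw 0 3 (by decide)
    have s12 := sw 1 2 (by decide); have s13 := sw 1 3 (by decide); have s23 := sw 2 3 (by decide)
    set w := psi (u 0) * (psi (u 1) * (psi (u 2) * (psi (u 3) * 1))) with hw
    have hat : Hat ρ w := (hu 0).2.mul ((hu 1).2.mul ((hu 2).2.mul ((hu 3).2.mul hat_one)))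
    have anti : ∀ i, w * (psi (u i) * 1) = -(psi (u i) * w) := fun i => by
      fin_cases i <;> simp only [hw, mul_assoc, one_mul, Fin.zero_eta, Fin.mk_one, Fin.reduceFinMk,
        s01, s02, s03, s12, s13, s23, sq, mul_neg, neg_neg]
    have hww : w * w = 1 := by
      simp only [hw, mul_assoc, one_mul, s01, s02, s03, s12, s13, s23, sq, mul_neg, neg_neg]
    have nsc : ∀ c : F, w ≠ c • 1 := fun c e => by
      have := anti 0
      rw [e, mul_one, smul_mul_assoc, mul_smul_comm, one_mul, mul_one, eq_neg_iff_add_eq_zero,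
        ← two_smul F, smul_eq_zero, smul_eq_zero] at this
      rcases this with k | rfl | k
      · exact two_ne_zero k
      · simp [e] at hww
      · simpa [psi_eq_scalar (c := 0) (k.trans (zero_smul _ _).symm), q5] using (hu 0).1
    obtain ⟨g, hg⟩ := hat
    have : ∃ x, q5 x = 1 ∧ (ρ g).1 = psi x := by
      refine ((invol (by rcases hg with e | e <;> simp [e, hww])).resolve_left fun e => ?_).resolve_left
        fun e => ?_
      · rcases hg with k | k
        · exact nsc 1 (by simp [← k, e])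
        · exact nsc (-1) (by simp [← neg_eq_iff_eq_neg.2 k, e])
      · rcases hg with k | k
        · exact nsc (-1) (by simp [← k, e])
        · exact nsc 1 (by simp [← neg_eq_iff_eq_neg.2 k, e])
    obtain ⟨x, hx, e⟩ := this
    refine ⟨x, ⟨hx, g, Or.inl e⟩, fun i => ?_⟩
    have k := psi_anti x (u i)
    have := anti i
    rw [mul_one] at this
    have k0 : psi x * psi (u i) + psi (u i) * psi x = 0 := by
      rcases hg with k | k <;> simp [← e, k, this]
    simpa using congrFun (congrFun (k.symm.trans k0) (.inl 0)) (.inl 0)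

end CfsgLib.Dim4
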