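import Mathlib
import Cfsg.Agent.Lib.Dim4.Defs
import Cfsg.Agent.Lib.CIT.AppModel
import Cfsg.Agent.Lib.HH.Weights
import Cfsg.Agent.Lib.Classical.SL2Torus
import Cfsg.Agent.S0254

/-!
DIM4, package X: cross characteristic tools.  See `plans/DIM4.md`.
-/

set_option autoImplicit false

namespace CfsgLib.Dim4

open Matrix Cfsg Cfsg.Geo CfsgLib.Asch CfsgLib.Forms CfsgLib.Symp Subgroup
open scoped MatrixGroups commutatorElement

variable {G F : Type*} [Group G] [Finite G] [Field F] {ρ : G →* Sp4 F}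

namespace X

omit [Finite G]

/-- the linear representation -/
def rep (ρ : G →* Sp4 F) : Representation F G (V4 F) where
  toFun g := mulVecLin (ρ g).1
  map_one' := by simp [Module.End.one_eq_id]
  map_mul' g h := by simp [Module.End.mul_eq_comp, mulVecLin_mul]

theorem rep_apply (g : G) (v : V4 F) : rep ρ g v = ρ g • v := rfl

theorem smul_pow {A : Sp4 F} {v : V4 F} {a : F} (h : A • v = a • v) (n : ℕ) :
    A ^ n • v = a ^ n • v := by
  induction n with
  | zero => simp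
  | succ n ih => rw [pow_succ, mul_smul, h, smul_smul', ih, smul_smul, pow_succ']

theorem pow_eq_one_of_smul {A : Sp4 F} {v : V4 F} {a : F} (hv : v ≠ 0) (h : A • v = a • v) {n : ℕ}
    (hn : A ^ n = 1) : a ^ n = 1 := by
  have := smul_pow h n
  rw [hn, one_smul] at this
  exact smul_left_injective F hv (this.symm.trans (one_smul _ _).symm)

theorem exists_eig [IsAlgClosed F] (S : Set G) (hS : ∀ s ∈ S, ∀ t ∈ S, s * t = t * s) {g : G}
    (hg : g ∈ S) {n : ℕ} (hn : g ^ n = 1) (hF : (n : F) ≠ 0) (h1 : ρ g ≠ 1) :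
    ∃ v : V4 F, v ≠ 0 ∧ ρ g • v ≠ v ∧ ∀ s ∈ S, ∃ c : F, ρ s • v = c • v := by
  obtain ⟨v, ⟨w, rfl⟩, h0, hv⟩ := HH.exists_common_eigenvector (rep ρ '' S) (by
    rintro _ ⟨a, ha, rfl⟩ _ ⟨b, hb, rfl⟩
    rw [← map_mul, hS a ha b hb, map_mul]) (LinearMap.range (rep ρ g - 1)) (fun e => h1 (sp_ext
      fun v => by simpa [sub_eq_zero, rep_apply] using
        LinearMap.congr_fun (LinearMap.range_eq_bot.1 e) v)) (by
    rintro _ ⟨a, ha, rfl⟩ _ ⟨w, rfl⟩
    refine ⟨rep ρ a w, ?_⟩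
    rw [← Module.End.mul_apply, ← Module.End.mul_apply, mul_sub, sub_mul, ← map_mul, ← map_mul,
      hS a ha g hg, mul_one, one_mul])
  refine ⟨_, h0, fun e => h0 ?_, fun s hs => hv _ ⟨s, hs, rfl⟩⟩
  have h2 : (∑ i ∈ Finset.range n, rep ρ g ^ i) ((rep ρ g - 1) w) = 0 := by
    rw [← Module.End.mul_apply, geom_sum_mul, ← map_pow, hn, map_one, sub_self,
      LinearMap.zero_apply]
  have h3 : ∀ i : ℕ, (rep ρ g ^ i) ((rep ρ g - 1) w) = (rep ρ g - 1) w := fun i => by
    rw [← map_pow, rep_apply, map_pow, smul_pow (e.trans (one_smul F _).symm), one_pow, one_smul]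
  rw [LinearMap.sum_apply, Finset.sum_congr rfl fun i _ => h3 i, Finset.sum_const,
    Finset.card_range, ← Nat.cast_smul_eq_nsmul F] at h2
  exact (smul_eq_zero.1 h2).resolve_left hF

/-- the eigenvalues of `A` and `A⁻¹` are the same -/
theorem eig_inv {A : Sp4 F} {v : V4 F} {a : F} (hv : v ≠ 0) (h : A • v = a • v) :
    ∃ w : V4 F, w ≠ 0 ∧ A⁻¹ • w = a • w := by
  by_contra hn
  push Not at hn
  have hi : Function.Injective (mulVecLin (A⁻¹).1 - a • (1 : Module.End F (V4 F))) :=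
    (injective_iff_map_eq_zero _).2 fun w hw => by
      by_contra h0
      exact hn w h0 (sub_eq_zero.1 hw)
  refine hv (eq_zero_of_B4 fun u => ?_)
  obtain ⟨x, rfl⟩ := LinearMap.injective_iff_surjective.1 hi u
  change B4 (A⁻¹ • x - a • x) v = 0
  rw [map_sub, LinearMap.sub_apply, B4_inv, inv_inv, h]
  simp

theorem card_le {ι : Type*} [Fintype ι] (A : Subgroup G) (v : ι → V4 F) (χ : ι → A → F)
    (hv : ∀ i, v i ≠ 0) (h : ∀ i (a : A), ρ a • v i = χ i a • v i) (hχ : Function.Injective χ) :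
    Fintype.card ι ≤ 4 :=
  finrank_V4 (F := F) ▸ (((HH.wt_indep (rep ρ) A).comp hχ).linearIndependent _
    (fun i => HH.mem_wt.2 (h i)) hv).fintype_card_le_finrank

theorem eig7 [IsAlgClosed F] {g h : G} (h7 : g ^ 7 = 1) (hc : h * g * h⁻¹ = g ^ 2) (h1 : ρ g ≠ 1) :
    (7 : F) = 0 := by
  by_contra hF
  obtain ⟨v, hv, hne, he⟩ := exists_eig {g} (by simp) rfl h7 (by exact_mod_cast hF) h1
  obtain ⟨a, ha⟩ := he g rfl
  have ha7 : a ^ 7 = 1 := pow_eq_one_of_smul hv ha (by rw [← map_pow, h7, map_one])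
  have : Fact (Nat.Prime 7) := ⟨by norm_num⟩
  have ho : orderOf a = 7 := orderOf_eq_prime ha7 fun e => hne (by rw [ha, e, one_smul])
  let P : ℕ → Prop := fun i => ∃ w : V4 F, w ≠ 0 ∧ ρ g • w = a ^ i • w
  have P2 : ∀ i, P i → P (2 * i % 7) := fun i ⟨w, hw, e⟩ => ⟨ρ h⁻¹ • w, smul_ne_zero' _ hw, by
    have : g * h⁻¹ = h⁻¹ * g ^ 2 := by rw [← hc]; group
    rw [← mul_smul, ← map_mul, this, map_mul, mul_smul, map_pow, smul_pow e, smul_smul', ← ho,
      pow_mod_orderOf, ← pow_mul, mul_comm]⟩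
  have P6 : ∀ i, P i → P (6 * i % 7) := fun i ⟨w, hw, e⟩ => by
    obtain ⟨u, hu, e⟩ := eig_inv hw e
    refine ⟨u, hu, ?_⟩
    have : (ρ g)⁻¹ ^ 6 = ρ g := by
      rw [inv_pow, inv_eq_iff_mul_eq_one, ← pow_succ, ← map_pow, h7, map_one]
    rw [← this, smul_pow e, ← ho, pow_mod_orderOf, ← pow_mul, mul_comm]
  have P1 : P 1 := ⟨v, hv, by rw [pow_one, ha]⟩
  have hP : ∀ i : Fin 5, P (i + 1) := fun i => by
    fin_cases i
    exacts [P1, P2 1 P1, P6 4 (P2 2 (P2 1 P1)), P2 2 (P2 1 P1), P6 2 (P2 1 P1)]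
  choose w hw using hP
  have := (Module.End.eigenvectors_linearIndependent' (rep ρ g) (fun i : Fin 5 => a ^ (i + 1 : ℕ))
    (fun i j e => Fin.ext (by
      have := pow_injOn_Iio_orderOf (x := a) (by simp [ho]; omega) (by simp [ho]; omega) e
      omega)) w fun i => ⟨Module.End.mem_eigenspace_iff.2 (hw i).2, (hw i).1⟩).fintype_card_le_finrank
  simp at this

end X

omit [Finite G] in
/-- an element of order seven conjugate to its square -/
theorem eig7 {g h : G} (h7 : g ^ 7 = 1) (hc : h * g * h⁻¹ = g ^ 2) (h1 : ρ g ≠ 1) :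
    (7 : F) = 0 := by
  have := X.eig7 (ρ := (bc (algebraMap F (AlgebraicClosure F))).comp ρ) h7 hc fun e =>
    h1 (bc_injective _ (e.trans (map_one _).symm))
  exact (algebraMap F (AlgebraicClosure F)).injective (by rw [map_ofNat, this, map_zero])

namespace X

variable {E : Type*} [Field E]

/-- the upper unitriangular matrices -/
def uu : Multiplicative E →* SL(2, E) where
  toFun c := Classical.sl2Mk 1 c.toAdd 0 1 (by simp)
  map_one' := Subtype.ext (by simp [Classical.sl2Mk_val, one_fin_two])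
  map_mul' a b := Subtype.ext (by simp [Classical.sl2Mk_val, add_comm])

theorem uu_val (c : E) : (uu (.ofAdd c)).1 = !![1, c; 0, 1] := rfl

theorem exists_conj {e : E} (he : e ≠ 0) : ∃ y : SL(2, E), ∀ c : E,
    y * uu (.ofAdd c) * y⁻¹ = uu (.ofAdd (e ^ 2 * c)) :=
  ⟨Classical.sl2Mk e 0 0 e⁻¹ (by simp [he]), fun c => mul_inv_eq_iff_eq_mul.2 (Subtype.ext (by
    simp [uu_val, Classical.sl2Mk_val, pow_two, mul_right_comm e e, mul_assoc, he, mul_comm e c]))⟩

theorem uu_pow [Fintype E] (c : Multiplicative E) : uu c ^ Fintype.card E = 1 := by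
  rw [← map_pow, ← Fintype.card_multiplicative, pow_card_eq_one, map_one]

theorem card_le_nine [Fintype E] [IsAlgClosed F] (hF : (Fintype.card E : F) ≠ 0)
    {ρ : SL(2, E) →* Sp4 F} (h1 : ρ (uu (.ofAdd 1)) ≠ 1) : Fintype.card E ≤ 9 := by
  classical
  obtain ⟨v, hv, hne, he⟩ := exists_eig ((uu (E := E)).range : Set SL(2, E)) (by
    rintro _ ⟨a, rfl⟩ _ ⟨b, rfl⟩
    rw [← map_mul, mul_comm, map_mul]) ⟨_, rfl⟩ (uu_pow _) hF h1
  choose χ hχ using fun c : E => he (uu (.ofAdd c)) ⟨_, rfl⟩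
  let T := (Finset.univ.erase (0 : E)).image fun e => e ^ 2
  have hT : ∀ s : T, ∃ y : SL(2, E), ∀ c : E, y * uu (.ofAdd c) * y⁻¹ = uu (.ofAdd (s * c)) := by
    rintro ⟨s, hs⟩
    obtain ⟨e, he, rfl⟩ := Finset.mem_image.1 hs
    exact exists_conj (Finset.ne_of_mem_erase he)
  choose y hy using hT
  have h4 := card_le (ρ := ρ.comp uu) ⊤ (fun s : T => ρ (y s)⁻¹ • v)
    (fun s c => χ (s * c.1.toAdd)) (fun s => smul_ne_zero' _ hv) (fun s c => by
      have : uu c.1 * (y s)⁻¹ = (y s)⁻¹ * uu (.ofAdd (s * c.1.toAdd)) := by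
        rw [← hy, ofAdd_toAdd]; group
      rw [MonoidHom.comp_apply, ← mul_smul, ← map_mul, this, map_mul, mul_smul, hχ, smul_smul'])
    fun s t e => Subtype.ext (by
      by_contra hst
      have h2 : χ (s.1 * (s.1 - t.1)⁻¹) = χ (t.1 * (s.1 - t.1)⁻¹) :=
        congrFun e ⟨.ofAdd (s.1 - t.1)⁻¹, trivial⟩
      have h3 : s.1 * (s.1 - t.1)⁻¹ = t.1 * (s.1 - t.1)⁻¹ + 1 := by
        rw [← sub_eq_iff_eq_add', ← sub_mul, mul_inv_cancel₀ (sub_ne_zero.2 hst)]
      have h5 := hχ (s.1 * (s.1 - t.1)⁻¹)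
      rw [h2, ← hχ, h3, ofAdd_add, map_mul, map_mul, mul_smul] at h5
      exact hne (smul_left_cancel _ h5))
  have h5 : (Finset.univ.erase (0 : E)).card ≤ 2 * T.card :=
    Finset.card_le_mul_card_image _ 2 fun s hs => by
      obtain ⟨e, -, rfl⟩ := Finset.mem_image.1 hs
      refine (Finset.card_le_card fun x hx => ?_).trans (Finset.card_le_two (a := e) (b := -e))
      simpa using sq_eq_sq_iff_eq_or_eq_neg.1 (Finset.mem_filter.1 hx).2
  rw [Finset.card_erase_of_mem (Finset.mem_univ _), Finset.card_univ] at h5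
  rw [Fintype.card_coe] at h4
  omega

end X

theorem xch {E : Type*} [Field E] [Fintype E] (hE : Odd (Fintype.card E))
    (hF : (Fintype.card E : F) ≠ 0) {ρ : SL(2, E) →* Sp4 F}
    (h1 : ρ ⟨!![1, 1; 0, 1], by simp [Matrix.det_fin_two]⟩ ≠ 1) :
    Fintype.card E ≤ 5 ∨ Fintype.card E = 9 := by
  have h9 := X.card_le_nine (ρ := (bc (algebraMap F (AlgebraicClosure F))).comp ρ)
    (fun e => hF ((algebraMap F (AlgebraicClosure F)).injective (by rw [map_natCast, e, map_zero])))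
    fun e => h1 (bc_injective _ (e.trans (map_one _).symm))
  have h7 : Fintype.card E ≠ 7 := fun e => by
    obtain ⟨y, hy⟩ := X.exists_conj (E := E) (e := 3) fun h3 => by
      have := FiniteField.cast_card_eq_zero E
      rw [e] at this
      exact one_ne_zero (α := E) (by push_cast at this; linear_combination this - 2 * h3)
    refine hF ?_
    rw [e]
    refine eig7 (ρ := ρ) (g := X.uu (.ofAdd 1)) (h := y) (e ▸ X.uu_pow _) ?_ h1
    have := FiniteField.cast_card_eq_zero E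
    rw [e] at this
    rw [hy, ← map_pow, ← ofAdd_nsmul]
    congr 2
    push_cast at this
    rw [nsmul_eq_mul]
    push_cast
    linear_combination this
  obtain ⟨k, hk⟩ := hE
  omega

omit [Finite G] in
/-- Scott's lemma -/
theorem scott (h : NoFix ρ) {a b : G} (hg : closure {a, b} = ⊤) :
    8 ≤ ((ρ a).1 - 1).rank + ((ρ b).1 - 1).rank + ((ρ (a * b)).1 - 1).rank := by
  have fix : ∀ v : V4 F, ρ a • v = v → ρ b • v = v → v = 0 := fun v ha hb => h v fun g => by
    have : closure {a, b} ≤ (MulAction.stabilizer (Sp4 F) v).comap ρ := (closure_le _).2 (by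
      rintro x (rfl | rfl)
      exacts [ha, hb])
    exact this (hg ▸ mem_top g)
  let R := fun g : G => LinearMap.range (mulVecLin ((ρ g).1 - 1))
  have ap : ∀ g v, mulVecLin ((ρ g).1 - 1) v = ρ g • v - v := fun g v => by
    rw [mulVecLin_apply, sub_mulVec, one_mulVec]; rfl
  let φ : V4 F →ₗ[F] R a × R b × R (a * b) := (LinearMap.rangeRestrict _).prod
    ((LinearMap.rangeRestrict _).prod (LinearMap.rangeRestrict _))
  let ψ : R a × R b × R (a * b) →ₗ[F] V4 F := (R a).subtype.coprod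
    (((X.rep ρ a).comp (R b).subtype).coprod (-(R (a * b)).subtype))
  have hφ : Function.Injective φ := (injective_iff_map_eq_zero _).2 fun v hv => fix v
    (sub_eq_zero.1 ((ap a v).symm.trans (congrArg (fun x => x.1.1) hv)))
    (sub_eq_zero.1 ((ap b v).symm.trans (congrArg (fun x => x.2.1.1) hv)))
  have hc : LinearMap.range φ ≤ LinearMap.ker ψ := by
    rintro _ ⟨v, rfl⟩
    change mulVecLin ((ρ a).1 - 1) v + (ρ a • mulVecLin ((ρ b).1 - 1) v +
      -mulVecLin ((ρ (a * b)).1 - 1) v) = 0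
    rw [ap, ap, ap, smul_sub', map_mul, mul_smul]
    abel
  have hψ : LinearMap.range ψ = ⊤ := by
    by_contra hn
    obtain ⟨f, hf0, hf⟩ := Submodule.exists_le_ker_of_lt_top _ (lt_top_iff_ne_top.2 hn)
    have hB : Function.Injective (B4 (K := F)).flip := (injective_iff_map_eq_zero _).2 fun v hv =>
      eq_zero_of_B4 fun u => LinearMap.congr_fun hv u
    obtain ⟨w, rfl⟩ := (LinearMap.injective_iff_surjective_of_finrank_eq_finrank
      Subspace.dual_finrank_eq.symm).1 hB f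
    have key : ∀ g, (∀ x, B4 (ρ g • x - x) w = 0) → ρ g • w = w := fun g hg => by
      rw [smul_eq_iff_eq_inv_smul, eq_comm, ← sub_eq_zero]
      refine eq_zero_of_B4 fun u => ?_
      rw [map_sub, ← B4_inv, ← LinearMap.sub_apply, ← map_sub, hg]
    have ha : ρ a • w = w := key a fun x => by
      have := hf ⟨(⟨_, x, rfl⟩, 0, 0), rfl⟩
      simpa [ψ, ← ap] using this
    have hb : ρ b • w = w := key b fun x => by
      have : B4 (ρ a • (ρ b • x - x)) w = 0 := by
        have := hf ⟨(0, ⟨_, x, rfl⟩, 0), rfl⟩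
        simpa [ψ, X.rep_apply, smul_sub', ← sp_smul_def] using this
      rwa [← ha, B4_smul] at this
    exact hf0 (by rw [fix w ha hb, map_zero])
  have h1 := ψ.finrank_range_add_finrank_ker
  have h2 := Submodule.finrank_mono hc
  rw [LinearMap.finrank_range_of_inj hφ] at h2
  rw [hψ, finrank_top, Module.finrank_prod, Module.finrank_prod] at h1
  rw [finrank_V4] at h1 h2
  change 8 ≤ Module.finrank F (R a) + Module.finrank F (R b) + Module.finrank F (R (a * b))
  omega

namespace X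

omit [Finite G]

theorem trace_inv (A : Sp4 F) : (A⁻¹).1.trace = A.1.trace := by
  rw [SymplecticGroup.coe_inv, trace_mul_cycle, mul_neg, J_squared, neg_neg, one_mul,
    trace_transpose]

theorem trace_sq [CharP F 2] (g : G) : (ρ (g ^ 2)).1.trace = (ρ g).1.trace ^ 2 := by
  have := two_mul_c2 (ρ g).1
  rw [CharTwo.two_eq_zero, zero_mul, eq_comm, sub_eq_zero] at this
  rw [this, pow_two g, map_mul]
  rfl

theorem trace_pow {g : G} {n : ℕ} (h : g ^ (n + 1) = 1) : (ρ (g ^ n)).1.trace = (ρ g).1.trace := by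
  rw [← trace_inv, ← map_inv, inv_eq_of_mul_eq_one_right ((pow_succ g n).symm.trans h)]

theorem poly5 [CharP F 2] {a b c d : F} (ha : a ^ 5 = 1) (hb : b ^ 5 = 1) (hc : c ^ 5 = 1)
    (hd : d ^ 5 = 1) (ha' : a ≠ 1) (hb' : b ≠ 1) (hc' : c ≠ 1) (hd' : d ≠ 1)
    (hp : a * (b * (c * d)) = 1) (ht : (a + (b + (c + d))) ^ 4 = a + (b + (c + d))) :
    (a + (b + (c + d))) ^ 2 = a + (b + (c + d)) := by
  have : Fact (Nat.Prime 5) := ⟨by norm_num⟩
  have ho : orderOf a = 5 := orderOf_eq_prime ha ha'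
  have hr : IsPrimitiveRoot a 5 := ho ▸ IsPrimitiveRoot.orderOf a
  obtain ⟨i, hi, rfl⟩ := hr.eq_pow_of_pow_eq_one hb
  obtain ⟨j, hj, rfl⟩ := hr.eq_pow_of_pow_eq_one hc
  obtain ⟨k, hk, rfl⟩ := hr.eq_pow_of_pow_eq_one hd
  have h5 : a ^ 4 + a ^ 3 + a ^ 2 + a + 1 = 0 :=
    mul_left_cancel₀ (sub_ne_zero.2 ha') (by linear_combination ha)
  have h6 : 5 ∣ i + j + k + 1 := by
    rw [← ho, orderOf_dvd_iff_pow_eq_one, ← hp]; ring
  have hi0 : i ≠ 0 := by rintro rfl; simp at hb'
  have hj0 : j ≠ 0 := by rintro rfl; simp at hc'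
  have hk0 : k ≠ 0 := by rintro rfl; simp at hd'
  clear hb hc hd hb' hc' hd' hp hr ho ha ha'
  interval_cases i <;> interval_cases j <;> interval_cases k <;> first | omega | grind

theorem rank_le_two [CharP F 2] {g : G} (h5 : g ^ 5 = 1) {v : V4 F} (hv : v ≠ 0)
    (h : ρ g • v = v) : ((ρ g).1 - 1).rank ≤ 2 := by
  obtain ⟨u, hu⟩ := exists_spB_eq_one hv
  have hp : ∀ i : ℕ, ρ (g ^ i) • v = v := fun i => by
    rw [map_pow, smul_pow (h.trans (one_smul F _).symm), one_pow, one_smul]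
  let w := ∑ i ∈ Finset.range 5, ρ (g ^ i) • u
  have hw : ρ g • w = w := by
    simp only [w, Finset.sum_range_succ, Finset.sum_range_zero, zero_add, smul_add', ← mul_smul,
      ← map_mul, ← pow_succ', Nat.reduceAdd, h5]
    rw [pow_zero]
    abel
  have hB : B4 w v = 1 := by
    have : ∀ i : ℕ, B4 (ρ (g ^ i) • u) v = 1 := fun i => by rw [← hu, ← hp i, B4_smul, hp]
    simp only [w, map_sum, LinearMap.sum_apply, this]
    simp only [Finset.sum_const, Finset.card_range, nsmul_eq_mul, mul_one, Nat.cast_ofNat]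
    linear_combination 2 * CharTwo.two_eq_zero (R := F)
  have hk : ∀ {x : V4 F}, ρ g • x = x → x ∈ LinearMap.ker (mulVecLin ((ρ g).1 - 1)) := fun hx => by
    rw [LinearMap.mem_ker, mulVecLin_apply, sub_mulVec, one_mulVec, sub_eq_zero]; exact hx
  have hi : LinearIndependent F ![(⟨v, hk h⟩ : LinearMap.ker (mulVecLin ((ρ g).1 - 1))),
      ⟨w, hk hw⟩] := LinearIndependent.pair_iff.2 fun s t e => by
    have e' : s • v + t • w = 0 := congrArg Subtype.val e
    have ht : t = 0 := by simpa [spB_self, hB] using congrArg (fun x => B4 x v) e'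
    rw [ht, zero_smul, add_zero] at e'
    exact ⟨(smul_eq_zero.1 e').resolve_right hv, ht⟩
  have h1 := hi.fintype_card_le_finrank
  have h2 := (mulVecLin ((ρ g).1 - 1)).finrank_range_add_finrank_ker
  rw [finrank_V4] at h2
  rw [Fintype.card_fin] at h1
  rw [Matrix.rank]
  omega

theorem five [CharP F 2] [IsAlgClosed F] {g : G} (h5 : g ^ 5 = 1) :
    (ρ g).1.trace ^ 2 = (ρ g).1.trace ∨ ((ρ g).1 - 1).rank ≤ 2 := by
  by_cases hv : ∃ v : V4 F, v ≠ 0 ∧ ρ g • v = v
  · obtain ⟨v, hv, h⟩ := hv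
    exact Or.inr (rank_le_two h5 hv h)
  left
  have hr : ∀ a ∈ (ρ g).1.charpoly.roots, a ^ 5 = 1 ∧ a ≠ 1 := fun a ha => by
    have h1 := (Polynomial.mem_roots'.1 ha).2
    rw [Polynomial.IsRoot, eval_charpoly] at h1
    obtain ⟨v, hv0, e⟩ := exists_mulVec_eq_zero_iff.2 h1
    have e' : ρ g • v = a • v := by
      rw [sub_mulVec, sub_eq_zero] at e
      rw [sp_smul_def, ← e]
      ext i
      simp [mulVec_diagonal]
    exact ⟨pow_eq_one_of_smul hv0 e' (by rw [← map_pow, h5, map_one]),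
      fun h => hv ⟨v, hv0, by rw [e', h, one_smul]⟩⟩
  have h4 : (ρ g).1.trace ^ 4 = (ρ g).1.trace := by
    have := trace_pow (ρ := ρ) (n := 4) h5
    rwa [show g ^ 4 = (g ^ 2) ^ 2 by group, trace_sq, trace_sq, ← pow_mul] at this
  have hd := SymplecticGroup.det_eq_one (ρ g).2
  have hc : (ρ g).1.charpoly.roots.card = 4 := by
    rw [← (IsAlgClosed.splits _).natDegree_eq_card_roots, charpoly_natDegree_eq_dim]
    rfl
  rw [det_eq_prod_roots_charpoly] at hd
  rw [trace_eq_sum_roots_charpoly] at h4 ⊢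
  obtain ⟨a, b, c, d, e⟩ := Multiset.card_eq_four.1 hc
  rw [e] at hr hd h4 ⊢
  simp only [Multiset.insert_eq_cons, Multiset.mem_cons, Multiset.mem_singleton, forall_eq_or_imp,
    forall_eq, Multiset.prod_cons, Multiset.sum_cons, Multiset.prod_singleton,
    Multiset.sum_singleton] at hr hd h4 ⊢
  exact poly5 hr.1.1 hr.2.1.1 hr.2.2.1.1 hr.2.2.2.1 hr.1.2 hr.2.1.2 hr.2.2.1.2 hr.2.2.2.2 hd h4

theorem rank_conj_pow (g k : G) (i : ℕ) :
    ((ρ (k * g ^ i * k⁻¹)).1 - 1).rank ≤ ((ρ g).1 - 1).rank := by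
  have : (ρ (k * g ^ i * k⁻¹)).1 - 1 =
      (ρ k).1 * (∑ j ∈ Finset.range i, (ρ g).1 ^ j) * ((ρ g).1 - 1) * (ρ k⁻¹).1 := by
    have h1 : (ρ k).1 * (ρ k⁻¹).1 = 1 := by
      rw [← Submonoid.coe_mul, ← map_mul, mul_inv_cancel, map_one]; rfl
    rw [mul_assoc (ρ k).1, geom_sum_mul, mul_sub, sub_mul, mul_one, h1, map_mul, map_mul, map_pow]
    rfl
  rw [this]
  exact (rank_mul_le_left _ _).trans (rank_mul_le_right _ _)

theorem exists_conj_pow [Finite G] {p : ℕ} [hp : Fact p.Prime] (h : ¬ p ^ 2 ∣ Nat.card G) {g x : G}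
    (hg : orderOf g = p) (hx : x ^ p = 1) : ∃ (k : G) (i : ℕ), x = k * g ^ i * k⁻¹ := by
  have hc : Nat.card (zpowers g) = p ^ 1 := by rw [Nat.card_zpowers, hg, pow_one]
  let P : Sylow p G := (IsPGroup.of_card hc).toSylow fun hd => h (by
    rw [← (zpowers g).card_mul_index, hc, pow_one, pow_two]; exact mul_dvd_mul_left _ hd)
  obtain ⟨Q, hQ⟩ := (IsPGroup.of_card_dvd_pow (p := p) (n := 1) (G := zpowers x) (by
    rw [Nat.card_zpowers, pow_one]; exact orderOf_dvd_of_pow_eq_one hx)).exists_le_sylow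
  obtain ⟨k, rfl⟩ := MulAction.exists_smul_eq G P Q
  obtain ⟨y, hy, e⟩ := hQ (mem_zpowers x)
  obtain ⟨i, rfl⟩ := mem_powers_iff_mem_zpowers.2 (show y ∈ zpowers g from hy)
  exact ⟨k, i, e.symm⟩

theorem sq_dvd_card {p : ℕ} [hp : Fact p.Prime] {H : Subgroup G} {x y : G} (hx : x ∈ H) (hy : y ∈ H)
    (ox : orderOf x = p) (oy : orderOf y = p) (hc : x * y = y * x) (hn : y ∉ zpowers x) :
    p ^ 2 ∣ Nat.card H := by
  have hd : Disjoint (zpowers x) (zpowers y) := by
    have : Fact (Nat.card (zpowers y)).Prime := ⟨by rw [Nat.card_zpowers, oy]; exact hp.out⟩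
    rcases ((zpowers x).subgroupOf (zpowers y)).eq_bot_or_eq_top_of_prime_card with e | e
    · exact subgroupOf_eq_bot.1 e
    · exact absurd (subgroupOf_eq_top.1 e (mem_zpowers y)) hn
  have hc' : ∀ (a : zpowers x) (b : zpowers y), Commute ((zpowers x).subtype a)
      ((zpowers y).subtype b) := by
    rintro ⟨_, i, rfl⟩ ⟨_, j, rfl⟩
    exact Commute.zpow_zpow hc i j
  have := card_dvd_of_injective (((zpowers x).subtype.noncommCoprod (zpowers y).subtype hc').codRestrict
    H fun ⟨a, b⟩ => mul_mem (zpowers_le.2 hx a.2) (zpowers_le.2 hy b.2)) (by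
    rw [MonoidHom.injective_codRestrict, MonoidHom.noncommCoprod_injective]
    exact ⟨subtype_injective _, subtype_injective _, by simpa using hd⟩)
  rwa [Nat.card_prod, Nat.card_zpowers, Nat.card_zpowers, ox, oy, ← pow_two] at this

/-- a five-cycle -/
def a5 : alternatingGroup (Fin 6) := ⟨c[0, 1, 2, 3, 4], Equiv.Perm.mem_alternatingGroup.2 (by decide)⟩

/-- another five-cycle -/
def b5 : alternatingGroup (Fin 6) := ⟨c[1, 3, 5, 4, 2], Equiv.Perm.mem_alternatingGroup.2 (by decide)⟩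

theorem card6 : Nat.card (alternatingGroup (Fin 6)) = 360 := by
  have := Classical.alt_card_mul 6 (by norm_num)
  rw [show Nat.factorial 6 = 720 from rfl] at this
  omega

set_option maxRecDepth 4000 in
theorem gen5 : closure {a5, b5} = ⊤ := by
  have : Fact (Nat.Prime 3) := Nat.fact_prime_three
  have : Fact (Nat.Prime 5) := ⟨by norm_num⟩
  have ha : a5 ∈ closure {a5, b5} := subset_closure (by simp)
  have hb : b5 ∈ closure {a5, b5} := subset_closure (by simp)
  have ne : ∀ {x y : alternatingGroup (Fin 6)}, (¬ ∀ i, x.1 i = y.1 i) → x ≠ y :=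
    fun h e => h fun i => by rw [e]
  have eq : ∀ {x y : alternatingGroup (Fin 6)}, (∀ i, x.1 i = y.1 i) → x = y :=
    fun h => Subtype.ext (Equiv.ext h)
  have h5 := orderOf_dvd_natCard _ ha
  rw [orderOf_eq_prime (p := 5) (eq (by decide)) (ne (by decide))] at h5
  have h4 := orderOf_dvd_natCard _ (mul_mem (mul_mem ha hb) hb)
  rw [orderOf_eq_prime_pow (p := 2) (n := 1) (ne (by decide)) (eq (by decide))] at h4
  have o3 : orderOf (a5 * a5 * b5 * b5 * a5 * b5) = 3 :=
    orderOf_eq_prime (eq (by decide)) (ne (by decide))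
  have h9 := sq_dvd_card (p := 3) (x := a5 * a5 * b5 * b5 * a5 * b5) (y := b5 * b5 * a5 * a5 * b5 * a5)
    (mul_mem (mul_mem (mul_mem (mul_mem (mul_mem ha ha) hb) hb) ha) hb)
    (mul_mem (mul_mem (mul_mem (mul_mem (mul_mem hb hb) ha) ha) hb) ha) o3
    (orderOf_eq_prime (eq (by decide)) (ne (by decide))) (eq (by decide)) fun h => by
      rw [mem_zpowers_iff_mem_range_orderOf, o3] at h
      obtain ⟨i, hi, e⟩ := Finset.mem_image.1 h
      have := Finset.mem_range.1 hi
      interval_cases i <;> exact ne (by decide) e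
  have hc := (closure {a5, b5}).card_mul_index
  rw [card6] at hc
  have h180 : 180 ∣ Nat.card (closure {a5, b5}) := by omega
  obtain ⟨m, hm⟩ := h180
  rw [hm, mul_assoc] at hc
  have h2 : (closure {a5, b5}).index ∣ 2 := ⟨m, by rw [mul_comm]; omega⟩
  rcases (Nat.dvd_prime Nat.prime_two).1 h2 with e | e
  · exact index_eq_one.1 e
  · have : IsSimpleGroup (alternatingGroup (Fin 6)) := alternatingGroup.isSimpleGroup (by simp)
    exact (IsSimpleGroup.eq_bot_or_eq_top_of_normal _ (normal_of_index_eq_two e)).resolve_left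
      fun h => ne (by decide) (mem_bot.1 (h ▸ ha))

set_option maxRecDepth 4000 in
theorem a6 [CharP F 2] [IsAlgClosed F] {ρ : alternatingGroup (Fin 6) →* Sp4 F} (h : NoFix ρ)
    {g : alternatingGroup (Fin 6)} (hg : orderOf g = 5) : (ρ g).1.trace ^ 2 = (ρ g).1.trace := by
  have : Fact (Nat.Prime 5) := ⟨by norm_num⟩
  refine (five (hg ▸ pow_orderOf_eq_one g)).resolve_right fun hr => ?_
  have key : ∀ x : alternatingGroup (Fin 6), x ^ 5 = 1 → ((ρ x).1 - 1).rank ≤ 2 := fun x hx => by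
    obtain ⟨k, i, rfl⟩ := exists_conj_pow (by rw [card6]; norm_num) hg hx
    exact (rank_conj_pow g k i).trans hr
  have h1 := key a5 (Subtype.ext (Equiv.ext (by decide)))
  have h2 := key b5 (Subtype.ext (Equiv.ext (by decide)))
  have h3 := key (a5 * b5) (Subtype.ext (Equiv.ext (by decide)))
  have := scott h gen5
  omega

end X

omit [Finite G] in
theorem a6_even [CharP F 2] (h : CIT.IsoL29 G) (ha : Abs ρ) (g : G) :
    (ρ g).1.trace ^ 2 = (ρ g).1.trace := by
  have ho := ((CIT.App.l29_data h).2 _).1 ⟨g, rfl⟩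
  have h4 : g ^ 4 = 1 → (ρ g).1.trace ^ 2 = (ρ g).1.trace := fun h4 => by
    have : (ρ g).1.trace ^ 4 = 0 := by
      rw [show 4 = 2 * 2 from rfl, pow_mul, ← X.trace_sq, ← X.trace_sq, ← pow_mul, h4, map_one]
      change (1 : M4 F).trace = 0
      rw [trace_one]
      exact (CharP.cast_eq_zero_iff F 2 _).2 (by simp)
    rw [pow_eq_zero_iff (by norm_num)] at this
    simp [this]
  rcases ho with ho | ho | ho
  · rw [← X.trace_sq, X.trace_pow (orderOf_dvd_iff_pow_eq_one.1 ho)]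
  · exact h4 (orderOf_dvd_iff_pow_eq_one.1 ho)
  rcases (Nat.dvd_prime (by norm_num)).1 ho with ho | ho
  · exact h4 (by rw [orderOf_eq_one_iff.1 ho, one_pow])
  obtain ⟨E, _, _, hE, ⟨e⟩⟩ := h
  obtain ⟨e'⟩ := Cfsg.Agent.S0254.result hE
  have := X.a6 ((ha.bc (algebraMap F (AlgebraicClosure F))).comp
    (φ := (e.trans e').symm.toMonoidHom) (e.trans e').symm.surjective).noFix
    (((e.trans e').orderOf_eq g).trans ho)
  simp only [MonoidHom.comp_apply, MulEquiv.coe_toMonoidHom, MulEquiv.symm_apply_apply,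
    trace_bc] at this
  exact (algebraMap F (AlgebraicClosure F)).injective (by rw [map_pow, this])

omit [Finite G] in
theorem l34_false [CharP F 2] (h : CIT.IsoL34 G) (hρ : Function.Injective ρ) : False := by
  obtain ⟨E, _, _, hE, ⟨e⟩⟩ := h
  have h2 : (2 : E) = 0 := by
    have := FiniteField.cast_card_eq_zero E
    rw [hE] at this
    exact pow_eq_zero_iff (n := 2) two_ne_zero |>.1 (by push_cast at this; linear_combination this)
  have : CharP E 2 := CharTwo.of_one_ne_zero_of_two_eq_zero one_ne_zero h2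
  let f : SL(3, ZMod 2) →* SL(3, E) := SpecialLinearGroup.map (ZMod.castHom (dvd_refl 2) E)
  have := eig7 (ρ := ρ.comp (e.symm.toMonoidHom.comp ((QuotientGroup.mk' _).comp f)))
    (g := ⟨!![0, 0, 1; 1, 0, 1; 0, 1, 0], by decide⟩) (h := ⟨!![1, 0, 0; 0, 0, 1; 0, 1, 1], by decide⟩)
    (Subtype.ext (by decide)) (mul_inv_eq_iff_eq_mul.2 (Subtype.ext (by decide))) fun h1 => by
      have h3 := e.symm.injective ((hρ (h1.trans (map_one ρ).symm)).trans (map_one _).symm)
      obtain ⟨r, -, hr⟩ := Matrix.SpecialLinearGroup.mem_center_iff.1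
        ((QuotientGroup.eq_one_iff (f _)).1 h3)
      have h4 : scalar (Fin 3) r 1 0 = ZMod.castHom (dvd_refl 2) E 1 := congrFun (congrFun hr 1) 0
      simp at h4
  exact one_ne_zero (α := F) (by linear_combination this - 3 * CharTwo.two_eq_zero (R := F))

omit [Finite G] in
theorem l2prime_false [CharP F 2] (h : CIT.IsoL2Prime G) (hρ : Function.Injective ρ) : False := by
  obtain ⟨E, _, _, hp, h7, -, ⟨e⟩⟩ := h
  have ho := hp.odd_of_ne_two (by omega)
  rcases xch (ρ := ρ.comp (e.symm.toMonoidHom.comp (QuotientGroup.mk' _))) ho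
    (fun h0 => Nat.not_even_iff_odd.2 ho (even_iff_two_dvd.2 ((CharP.cast_eq_zero_iff F 2 _).1 h0)))
    (fun h1 => by
      have h3 := e.symm.injective ((hρ (h1.trans (map_one ρ).symm)).trans (map_one _).symm)
      obtain ⟨r, -, hr⟩ := Matrix.SpecialLinearGroup.mem_center_iff.1
        ((QuotientGroup.eq_one_iff (G := SL(2, E)) _).1 h3)
      simpa using congrFun (congrFun hr 0) 1) with h | h
  · omega
  · rw [h] at hp
    norm_num at hp

end CfsgLib.Dim4
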