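import Mathlib
import Cfsg.Agent.Lib.Dim4.W5b
import Cfsg.Agent.Lib.Dim4.X
import Cfsg.Agent.Lib.Mit.TrPSL
import Cfsg.Agent.Lib.Rec3.Six

/-!
DIM4, package TRA: traces of the double covers of `A₆` and `A₇`.  See `plans/DIM4.md`.
-/

set_option autoImplicit false

namespace CfsgLib.Dim4

open Matrix Cfsg Cfsg.Geo CfsgLib.Asch CfsgLib.Forms CfsgLib.Symp Subgroup
open scoped MatrixGroups commutatorElement

variable {G F : Type*} [Group G] [Field F] {ρ : G →* Sp4 F}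

section Cov

variable {A : Type*} [Group A] {φ : G →* A}

theorem Cov.pm (h : Cov ρ φ) {x y : G} (e : φ x = φ y) :
    (ρ x).1 = (ρ y).1 ∨ (ρ x).1 = -(ρ y).1 := by
  have e1 : (ρ x).1 = (ρ (x * y⁻¹)).1 * (ρ y).1 := by
    rw [← Submonoid.coe_mul, ← map_mul, inv_mul_cancel_right]
  rcases (h.ker (x * y⁻¹)).1 (by simp [e]) with k | k <;> rw [k] at e1 <;> simp [e1]

theorem Cov.sq_ker (h : Cov ρ φ) {z : G} (hz : φ z = 1) : z ^ 2 = 1 :=
  h.inj (Subtype.ext (by rcases (h.ker z).1 hz with e | e <;> simp [sq, e]))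

theorem Cov.comm_ker (h : Cov ρ φ) {z : G} (hz : φ z = 1) (g : G) : Commute z g :=
  h.inj (Subtype.ext (by rcases (h.ker z).1 hz with e | e <;> simp [e]))

/-- lifts of elements of odd order -/
theorem Cov.exists_lift (h : Cov ρ φ) {a : A} {n : ℕ} (hn : Odd n) (ha : a ^ n = 1) :
    ∃ g, φ g = a ∧ g ^ n = 1 := by
  obtain ⟨g, rfl⟩ := h.surj a
  obtain ⟨k, hk⟩ := hn.add_one
  refine ⟨g ^ (n + 1), by rw [map_pow, pow_succ, ha, one_mul], ?_⟩
  rw [← pow_mul, mul_comm, pow_mul, hk, ← two_mul, pow_mul, h.sq_ker (by rw [map_pow, ha]), one_pow]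

theorem Cov.eq_of_pow (h : Cov ρ φ) {x y : G} {n : ℕ} (hn : Odd n) (e : φ x = φ y)
    (hx : x ^ n = 1) (hy : y ^ n = 1) : x = y := by
  have hz : φ (x * y⁻¹) = 1 := by simp [e]
  have h1 := (h.comm_ker hz y).mul_pow n
  obtain ⟨k, rfl⟩ := hn
  rw [inv_mul_cancel_right, hx, hy, mul_one, pow_succ, pow_mul, h.sq_ker hz, one_pow, one_mul] at h1
  exact mul_inv_eq_one.1 h1.symm

theorem Cov.sq_neg (h : Cov ρ φ) {a : G} (h1 : φ a ≠ 1) (h2 : φ a ^ 2 = 1) :
    (ρ a).1 * (ρ a).1 = -1 := by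
  have := (h.ker (a * a)).1 (by rw [map_mul, ← sq, h2])
  rw [map_mul, Submonoid.coe_mul] at this
  exact this.resolve_left fun e => h1 ((h.ker a).2 (h.nr a e))

theorem Cov.aut {A' : Type*} [Group A'] (h : Cov ρ φ) (θ : A ≃* A') :
    Cov ρ (θ.toMonoidHom.comp φ) :=
  ⟨h.qs, h.inj, h.abs, h.nr, θ.surjective.comp h.surj, fun g => by rw [← h.ker]; simp⟩

theorem Cov.exists_mem (h : Cov ρ φ) {s : Set G} {g : G} (hg : φ g ∈ closure (φ '' s)) :
    ∃ k ∈ closure s, (ρ g).1 = (ρ k).1 ∨ (ρ g).1 = -(ρ k).1 := by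
  rw [← MonoidHom.map_closure] at hg
  obtain ⟨k, hk, e⟩ := hg
  exact ⟨k, hk, h.pm e.symm⟩

theorem Cov.qq [NeZero (2 : F)] (h : Cov ρ φ) {a b : G} (ha : vd (ρ a) = 0) (hb : vd (ρ b) = 0)
    (hg : closure {φ a, φ b} = ⊤) : False :=
  Dim4.qq h.abs ha hb fun g => h.exists_mem (by rw [Set.image_pair, hg]; trivial)

theorem Cov.wlog {n : ℕ} {φ : G →* alternatingGroup (Fin n)} (h : Cov ρ φ) (g : G)
    (r : alternatingGroup (Fin n)) (e : (φ g).1.cycleType = r.1.cycleType) :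
    ∃ ψ : G →* alternatingGroup (Fin n), Cov ρ ψ ∧ ψ g = r ∧
      ∀ x, (ψ x).1.cycleType = (φ x).1.cycleType := by
  obtain ⟨c, hc⟩ := isConj_iff.1 (Equiv.Perm.isConj_iff_cycleType_eq.2 e)
  exact ⟨_, h.aut (MulAut.conjNormal c), Subtype.ext hc, fun x => Equiv.Perm.cycleType_conj⟩

end Cov

namespace TRA

/-- words in two letters -/
def wd {H : Type*} [Group H] (a b : H) (l : List ℕ) : H :=
  (l.map fun i => if i = 0 then a else b).prod

theorem wd_mem {H : Type*} [Group H] {K : Subgroup H} {a b : H} (ha : a ∈ K) (hb : b ∈ K)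
    (l : List ℕ) : wd a b l ∈ K :=
  list_prod_mem fun x hx => by
    obtain ⟨i, -, rfl⟩ := List.mem_map.1 hx
    split_ifs
    exacts [ha, hb]

theorem gen {n : ℕ} {a b : alternatingGroup (Fin (n + 2))} (L : List (List ℕ))
    (h : ∀ k, k ≠ 0 → k ≠ 1 → ∃ l ∈ L, AltAut.tc 0 1 k = wd a.1 b.1 l) : closure {a, b} = ⊤ := by
  have := AltAut.alternatingGroup_le_of_tc (p := 0) (q := 1) zero_ne_one
    (E := (closure {a, b}).map (alternatingGroup (Fin (n + 2))).subtype) fun k h0 h1 => by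
      obtain ⟨l, -, e⟩ := h k h0 h1
      exact e ▸ wd_mem (mem_map_of_mem _ (subset_closure (by simp)))
        (mem_map_of_mem _ (subset_closure (by simp))) l
  refine eq_top_iff.2 fun x _ => ?_
  obtain ⟨y, hy, e⟩ := this x.2
  exact Subtype.ext e ▸ hy

/-- an even permutation -/
def ev {n : ℕ} (σ : Equiv.Perm (Fin n)) (h : Equiv.Perm.sign σ = 1 := by decide +kernel) :
    alternatingGroup (Fin n) := ⟨σ, h⟩

theorem types {n : ℕ} (hn : n ≤ 7) (g : alternatingGroup (Fin n)) : let m := g.1.cycleType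
    m.sum ≤ n ∧ (m = 0 ∨ m = {2, 2} ∨ m = {3} ∨ m = {3, 3} ∨ m = {3, 2, 2} ∨ m = {4, 2} ∨ m = {5} ∨
      m = {7}) := by
  have he := Equiv.Perm.mem_alternatingGroup.1 g.2
  rw [Equiv.Perm.sign_of_cycleType, neg_one_pow_eq_one_iff_even (by decide)] at he
  have hs : g.1.cycleType.sum ≤ n := g.1.sum_cycleType_le.trans (by simp)
  exact ⟨hs, Mit.Tr.multiset_cases _ (fun x => Equiv.Perm.two_le_of_mem_cycleType) (hs.trans hn) he⟩

theorem pow_of_type {n k : ℕ} {g : alternatingGroup (Fin n)} {m : Multiset ℕ}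
    (h : g.1.cycleType = m) (hk : m.lcm ∣ k) : g ^ k = 1 :=
  Subtype.ext (orderOf_dvd_iff_pow_eq_one.1 (by rwa [← Equiv.Perm.lcm_cycleType, h]))

/-- the trace is an integer -/
def Z (g : Sp4 F) : Prop := ∃ n : ℤ, g.1.trace = n

theorem Z.pm {g k : Sp4 F} (h : Z k) (e : g.1 = k.1 ∨ g.1 = -k.1) : Z g := by
  obtain ⟨n, hn⟩ := h
  rcases e with e | e
  · exact ⟨n, by rw [e, hn]⟩
  · exact ⟨-n, by rw [e, trace_neg, hn, Int.cast_neg]⟩

theorem Z.pow {g : Sp4 F} (h : Z g) (p : ℕ) [Fact p.Prime] [CharP F p] :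
    g.1.trace ^ p = g.1.trace := by
  obtain ⟨n, hn⟩ := h
  rw [hn]
  exact map_intCast (frobenius F p) n

theorem Z_of_mul {g : Sp4 F} (a b : ℤ) (h : (g.1.trace - a) * (g.1.trace - b) = 0) : Z g :=
  (mul_eq_zero.1 h).elim (fun e => ⟨a, sub_eq_zero.1 e⟩) fun e => ⟨b, sub_eq_zero.1 e⟩

theorem trace_one' : ((1 : Sp4 F) : M4 F).trace = 4 := by simp

theorem tr_conj (h g : Sp4 F) : (h * g * h⁻¹).1.trace = g.1.trace := by
  rw [Submonoid.coe_mul, trace_mul_comm, Submonoid.coe_mul, ← mul_assoc, coe_inv_mul, one_mul]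

theorem inv_of_sq {a : Sp4 F} (h : a.1 * a.1 = -1) : (a⁻¹).1 = -a.1 := by
  rw [← mul_one (a⁻¹).1, ← neg_neg (1 : M4 F), ← h, mul_neg, ← mul_assoc, coe_inv_mul, one_mul]

variable [NeZero (2 : F)]

theorem quad_of_sq {a : Sp4 F} (h : a.1 * a.1 = -1) : a.1.trace = 0 ∧ vd a = 0 := by
  have := add_inv a
  rw [inv_of_sq h, add_neg_cancel] at this
  obtain ⟨e1, e2⟩ := smul_one_add_psi (a := (0 : F)) (x := 0) (by simpa using this)
  exact ⟨by simpa [two_ne_zero] using e1.symm, e2.symm⟩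

theorem ord3 {x : Sp4 F} (h : x ^ 3 = 1) : x.1.trace = 1 ∨
    (vd x = 0 ∧ (x.1.trace - 4) * (x.1.trace + 2) = 0) := by
  obtain ⟨e1, e2⟩ := sq_data x
  rw [show x ^ 2 = x⁻¹ from eq_inv_of_mul_eq_one_left (by rw [← pow_succ, h])] at e1 e2
  rw [vd_inv] at e2
  rw [trace_inv] at e1
  refine or_iff_not_imp_left.2 fun h1 => ?_
  have h0 : vd x = 0 := by
    have : (x.1.trace - 1) • vd x = 0 := by rw [sub_smul, ← e2, one_smul, sub_self]
    exact (smul_eq_zero.1 this).resolve_left (sub_ne_zero.2 h1)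
  have h2 : (2 : F) ≠ 0 := two_ne_zero
  refine ⟨h0, ?_⟩
  simp only [h0, q5, Pi.zero_apply] at e1
  field_simp at e1
  linear_combination -e1

theorem Z3 {x : Sp4 F} (h : x ^ 3 = 1) : Z x :=
  (ord3 h).elim (fun e => ⟨1, by simpa using e⟩) fun e => Z_of_mul 4 (-2) (by simpa using e.2)

theorem ord8 {g : Sp4 F} (h : (g ^ 2).1 * (g ^ 2).1 = -1) :
    g.1.trace = 0 ∨ (vd g = 0 ∧ g.1.trace ^ 2 = 8) := by
  obtain ⟨e1, e2⟩ := sq_data g
  obtain ⟨k1, k2⟩ := quad_of_sq h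
  refine (smul_eq_zero.1 (e2.symm.trans k2)).imp id fun h0 => ⟨h0, ?_⟩
  have h2 : (2 : F) ≠ 0 := two_ne_zero
  simp only [k1, h0, q5, Pi.zero_apply] at e1
  field_simp at e1
  linear_combination -e1

theorem ord5 {u : Sp4 F} (h : u ^ 5 = 1) :
    (vd u = 0 ∧ (u.1.trace - 4) * (u.1.trace ^ 2 + 2 * u.1.trace - 4) = 0) ∨
    ((u.1.trace + 1) * (u.1.trace ^ 2 - 3 * u.1.trace + 1) = 0 ∧
      4 * q5 (vd u) = 12 + 4 * u.1.trace - 3 * u.1.trace ^ 2) := by
  obtain ⟨e1, e2⟩ := sq_data u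
  have h2 : (2 : F) ≠ 0 := two_ne_zero
  have k : (u.1 + (u⁻¹).1) * ((u ^ 2).1 + ((u ^ 2)⁻¹).1) =
      (u.1 + (u⁻¹).1) + ((u ^ 2).1 + ((u ^ 2)⁻¹).1) := by
    have k1 : u * u ^ 2 = (u ^ 2)⁻¹ := eq_inv_of_mul_eq_one_left (by rw [← h]; group)
    have k2 : u⁻¹ * (u ^ 2)⁻¹ = u ^ 2 := by rw [← k1]; group
    have k3 : u * (u ^ 2)⁻¹ = u⁻¹ := by group
    have k4 : u⁻¹ * u ^ 2 = u := by group
    simp only [add_mul, mul_add, ← Submonoid.coe_mul, k1, k2, k3, k4]
    abel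
  rw [add_inv, add_inv, e1, e2] at k
  set t := u.1.trace
  set d := vd u
  obtain ⟨a, b⟩ := smul_one_add_psi (x := ((t / 2) ^ 2 + q5 d - 2 + t * (t / 2)) • d)
    (y := (1 + t) • d) (a := t / 2 * ((t / 2) ^ 2 + q5 d - 2) + t * q5 d)
    (b := t / 2 + ((t / 2) ^ 2 + q5 d - 2)) (by
      simp only [map_smul, add_mul, mul_add, smul_mul_assoc, mul_smul_comm, one_mul, mul_one,
        psi_sq] at k ⊢
      convert k using 1 <;> match_scalars <;> field_simp)
  rw [← sub_eq_zero, ← sub_smul, smul_eq_zero] at b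
  rcases b with b | b
  · field_simp at a b
    exact Or.inr ⟨mul_left_cancel₀ (pow_ne_zero 3 h2) (by linear_combination (3 * t - 2) * b - a),
      by linear_combination b⟩
  · simp only [b, q5, Pi.zero_apply] at a
    field_simp at a
    exact Or.inl ⟨b, by linear_combination a⟩

/-- the three-cycles are quadratic -/
def Q3 (ρ : G →* Sp4 F) (φ : G →* alternatingGroup (Fin 6)) : Prop :=
  ∀ x : G, x ^ 3 = 1 → (φ x).1.IsThreeCycle → vd (ρ x) = 0

theorem nine (h3 : (3 : F) ≠ 0) {x y : Sp4 F} (hx : x ^ 3 = 1) (hy : y ^ 3 = 1) (hc : Commute x y)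
    (h1 : x.1.trace = 1) (h2 : y.1.trace = 1) (h4 : (x * y).1.trace = 1)
    (h5 : (x * y⁻¹).1.trace = 1) : False := by
  have sq : ∀ {x : Sp4 F}, x ^ 3 = 1 → (1 + x.1 + (x⁻¹).1) * (1 + x.1 + (x⁻¹).1) =
      (3 : F) • (1 + x.1 + (x⁻¹).1) := fun {x} hx => by
    have k1 : x * x = x⁻¹ := eq_inv_of_mul_eq_one_left (by rw [← hx, pow_three'])
    have k2 : x⁻¹ * x⁻¹ = x := by rw [← _root_.mul_inv_rev, k1, inv_inv]
    simp only [add_mul, mul_add, ← Submonoid.coe_mul, k1, k2, mul_one, one_mul, mul_inv_cancel,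
      inv_mul_cancel, OneMemClass.coe_one]
    module
  have cm : ∀ {a b : Sp4 F}, Commute a b → Commute a.1 b.1 := fun h => congrArg Subtype.val h
  have hE : Commute (1 + x.1 + (x⁻¹).1) (1 + y.1 + (y⁻¹).1) := by
    refine (Commute.add_left (Commute.one_left _) ?_).add_left ?_ <;>
      refine (Commute.add_right (Commute.one_right _) (cm ?_)).add_right (cm ?_)
    exacts [hc, hc.inv_right, hc.inv_left, hc.inv_inv]
  have e : (1 + x.1 + (x⁻¹).1) * (1 + y.1 + (y⁻¹).1) =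
      (3 : F) • (1 : M4 F) + psi (vd x + vd y + vd (x * y) + vd (x * y⁻¹)) := by
    have : (1 + x.1 + (x⁻¹).1) * (1 + y.1 + (y⁻¹).1) = 1 + (x.1 + (x⁻¹).1) + (y.1 + (y⁻¹).1) +
        ((x * y).1 + ((x * y)⁻¹).1) + ((x * y⁻¹).1 + ((x * y⁻¹)⁻¹).1) := by
      rw [hc.mul_inv, hc.inv_right.mul_inv, inv_inv]
      simp only [add_mul, mul_add, Submonoid.coe_mul, mul_one, one_mul]
      abel
    have h2' : (2 : F) ≠ 0 := two_ne_zero
    rw [this, add_inv, add_inv, add_inv, add_inv, h1, h2, h4, h5, map_add, map_add, map_add]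
    match_scalars <;> field_simp
    ring
  have e2 := hE.symm.mul_mul_mul_comm (1 + x.1 + (x⁻¹).1) (1 + y.1 + (y⁻¹).1)
  rw [sq hx, sq hy, smul_mul_smul_comm, e] at e2
  set d := vd x + vd y + vd (x * y) + vd (x * y⁻¹)
  obtain ⟨a, b⟩ := smul_one_add_psi (a := 9 + q5 d) (b := 27) (x := (6 : F) • d) (y := (9 : F) • d) (by
    simp only [map_smul, add_mul, mul_add, smul_mul_assoc, mul_smul_comm, one_mul, mul_one,
      psi_sq] at e2 ⊢
    convert e2 using 1 <;> match_scalars <;> ring)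
  rw [← sub_eq_zero, ← sub_smul, smul_eq_zero] at b
  rcases b with b | b
  · exact h3 (by linear_combination -b)
  · simp only [b, q5, Pi.zero_apply] at a
    exact mul_ne_zero two_ne_zero (mul_ne_zero h3 h3) (by linear_combination -a)

omit [NeZero (2 : F)] in
theorem vd_pm {g k : Sp4 F} (e : g.1 = k.1 ∨ g.1 = -k.1) : vd g = vd k ∨ vd g = -vd k :=
  e.imp (fun e => by rw [Subtype.ext e]) vd_neg

theorem vd_conj_zero {x k : G} (h : vd (ρ x) = 0) : vd (ρ (k * x * k⁻¹)) = 0 := by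
  rw [map_mul, map_mul, map_inv, vd_conj, h, map_zero]

open Equiv Equiv.Perm

theorem q3_of {φ : G →* alternatingGroup (Fin 6)} (h : Cov ρ φ) {x : G} (hx : x ^ 3 = 1)
    (h1 : φ x ≠ 1) (h0 : vd (ρ x) = 0) : ∃ ψ : G →* alternatingGroup (Fin 6), Cov ρ ψ ∧ Q3 ρ ψ := by
  have ht := AltAut.isThreeCycle_tc (x := (0 : Fin 6)) (y := 1) (z := 2) (by decide) (by decide)
    (by decide)
  obtain ⟨θ, e⟩ := Rec3.Six.exists_one (x := (φ x).1) (orderOf_eq_prime
    (by rw [← Subgroup.coe_pow, ← map_pow, hx, map_one]; rfl) fun e => h1 (Subtype.ext e))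
  obtain ⟨θ', e'⟩ := Rec3.Six.exists_one ht.orderOf
  have h' := h.aut (MulAut.characteristic (alternatingGroup (Fin 6)) (θ.trans θ'.symm))
  refine ⟨_, h', fun y hy h3 => ?_⟩
  obtain ⟨c, hc⟩ := isConj_iff.1 (alternatingGroup.isThreeCycle_isConj (by simp)
    (σ := ⟨_, ht.mem_alternatingGroup⟩) ht h3)
  obtain ⟨k, rfl⟩ := h'.surj c
  rw [h'.eq_of_pow (n := 3) (x := y) (y := k * x * k⁻¹) (by decide) ?_ hy
    (by rw [conj_pow, hx]; simp), vd_conj_zero h0]
  rw [← hc, map_mul, map_mul, map_inv]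
  congr 2
  exact Subtype.ext (θ'.injective (by simpa [e'] using e.symm))

theorem quad3 {φ : G →* alternatingGroup (Fin 6)} (h : Cov ρ φ) (h3 : (3 : F) ≠ 0) :
    ∃ ψ : G →* alternatingGroup (Fin 6), Cov ρ ψ ∧ Q3 ρ ψ := by
  obtain ⟨x, ex, hx⟩ := h.exists_lift (a := ev c[0, 1, 2]) (n := 3) (by decide) (by decide +kernel)
  obtain ⟨y, ey, hy⟩ := h.exists_lift (a := ev c[3, 4, 5]) (n := 3) (by decide) (by decide +kernel)
  have hc : Commute x y := by
    have := h.eq_of_pow (x := x * y * x⁻¹) (y := y) (n := 3) (by decide)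
      (by rw [map_mul, map_mul, map_inv, ex, ey]; decide +kernel) (by rw [conj_pow, hy]; simp) hy
    exact mul_inv_eq_iff_eq_mul.1 this
  by_contra hn
  have key : ∀ z : G, z ^ 3 = 1 → φ z ≠ 1 → (ρ z).1.trace = 1 := fun z hz h1 =>
    (ord3 (by rw [← map_pow, hz, map_one])).resolve_right fun e => hn (q3_of h hz h1 e.1)
  refine nine h3 (x := ρ x) (y := ρ y) (by rw [← map_pow, hx, map_one])
    (by rw [← map_pow, hy, map_one]) (hc.map ρ) (key x hx ?_) (key y hy ?_) ?_ ?_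
  · rw [ex]; decide +kernel
  · rw [ey]; decide +kernel
  · rw [← map_mul]
    exact key _ (by rw [hc.mul_pow, hx, hy, mul_one]) (by rw [map_mul, ex, ey]; decide +kernel)
  · rw [← map_inv, ← map_mul]
    exact key _ (by rw [hc.inv_right.mul_pow, hx, inv_pow, hy, inv_one, mul_one])
      (by rw [map_mul, map_inv, ex, ey]; decide +kernel)

/-- a five-cycle -/
def v6 : alternatingGroup (Fin 6) := ev c[0, 1, 2, 3, 4]

/-- an involution -/
def a6 : alternatingGroup (Fin 6) := ev (c[0, 1] * c[2, 3])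

theorem vd_ne {φ : G →* alternatingGroup (Fin 6)} (h : Cov ρ φ) {u : G} (hu : φ u = v6) :
    vd (ρ u) ≠ 0 := fun h0 => by
  obtain ⟨a, ha⟩ := h.surj (ev (c[1, 4] * c[3, 5]))
  refine h.qq (quad_of_sq (h.sq_neg (a := a) ?_ ?_)).2 h0 ?_
  · rw [ha]; decide +kernel
  · rw [ha]; decide +kernel
  · rw [ha, hu]
    exact gen [[1, 0, 1, 1, 0, 1, 0, 1, 1, 1], [1, 0, 1, 1, 1, 0, 1, 1, 0],
      [0, 1, 1, 0, 1, 0, 1, 1, 1, 1], [1, 1, 1, 1, 0, 1, 1, 1, 0, 1, 0]] (by decide +kernel)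

/-- `v6` is the product of two quadratic elements -/
theorem exists_ab {φ : G →* alternatingGroup (Fin 6)} (h : Cov ρ φ) (hq : Q3 ρ φ) {u : G}
    (hu : φ u = v6) : ∃ a b : G, φ a = a6 ∧ (ρ a).1 * (ρ a).1 = -1 ∧ b ^ 3 = 1 ∧
      ((ρ u).1 = (ρ a).1 * (ρ b).1 ∨ (ρ u).1 = -((ρ a).1 * (ρ b).1)) ∧
      sg (ρ a) (vd (ρ u)) = vd (ρ u) ∧ sg (ρ b) (vd (ρ u)) = vd (ρ u) := by
  obtain ⟨a, ha⟩ := h.surj a6
  obtain ⟨b, eb, hb⟩ := h.exists_lift (a := ev c[1, 3, 4]) (n := 3) (by decide) (by decide +kernel)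
  have h1 := h.sq_neg (a := a) (by rw [ha]; decide +kernel) (by rw [ha]; decide +kernel)
  have h2 := h.pm (x := u) (y := a * b) (by rw [map_mul, ha, eb, hu]; decide +kernel)
  have h3 := quad_comm (quad_of_sq h1).2 (hq b hb (by rw [eb, IsThreeCycle]; decide +kernel))
  rw [map_mul] at h2
  refine ⟨a, b, ha, h1, hb, h2, ?_⟩
  rcases vd_pm h2 with e | e <;> simp [e, h3]

theorem five_v {φ : G →* alternatingGroup (Fin 6)} (h : Cov ρ φ) (hq : Q3 ρ φ) (h5 : (5 : F) ≠ 0)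
    {u : G} (hu : u ^ 5 = 1) (e : φ u = v6) : (ρ u).1.trace = -1 ∧ 4 * q5 (vd (ρ u)) = 5 := by
  have hu' : ρ u ^ 5 = 1 := by rw [← map_pow, hu, map_one]
  have h2 : (2 : F) ≠ 0 := two_ne_zero
  obtain ⟨k1, k2⟩ := (ord5 hu').resolve_left fun k => vd_ne h e k.1
  rcases mul_eq_zero.1 k1 with k | k
  · exact ⟨eq_neg_of_add_eq_zero_left k, by linear_combination k2 + (7 - 3 * (ρ u).1.trace) * k⟩
  exfalso
  obtain ⟨a, b, -, ha, hb, hab, c1, c2⟩ := exists_ab h hq e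
  replace hb : (ρ b).1 * ((ρ b).1 * (ρ b).1) = 1 := by
    rw [← pow_three, ← SubmonoidClass.coe_pow, ← map_pow, hb, map_one]; rfl
  have hy := add_inv (ρ u)
  have hi := coe_mul_inv (ρ u)
  replace hu' : (ρ u).1 ^ 5 = 1 := congrArg Subtype.val hu'
  set t := (ρ u).1.trace
  set d := vd (ρ u)
  set U := (ρ u).1
  let M : M4 F := (2 - t / 2) • 1 + psi d
  have m1 : (U + ((ρ u)⁻¹).1 - 2) * M = 0 := by
    rw [hy, show (2 : M4 F) = (2 : F) • 1 by rw [two_smul, one_add_one_eq_two]]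
    simp only [M, add_mul, mul_add, sub_mul, smul_mul_assoc, mul_smul_comm, one_mul, mul_one, psi_sq]
    match_scalars <;> field_simp
    · linear_combination k2 - 4 * k
    · ring
  have m2 : (U - 1) * M = 0 := by
    have e1 : (U - 1) * (U - 1) = U * (U + ((ρ u)⁻¹).1 - 2) := by
      rw [mul_sub U (U + _), mul_add, hi]; noncomm_ring
    have e2 : (5 : F) • (U - 1) =
        U ^ 5 - 1 - (U ^ 3 + 2 • U ^ 2 + 3 • U + 4 • 1) * ((U - 1) * (U - 1)) := by
      rw [ofNat_smul_eq_nsmul]; noncomm_ring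
    refine (smul_eq_zero.1 ?_).resolve_left h5
    rw [← smul_mul_assoc, e2, hu', e1, sub_self, zero_sub, neg_mul, mul_assoc, mul_assoc, m1]
    simp
  have ca : (ρ a).1 * M = M * (ρ a).1 := by simp [M, mul_add, add_mul, sg_eq_iff.1 c1]
  have m3 : (ρ b).1 * M = M * (ρ a).1 ∨ (ρ b).1 * M = -(M * (ρ a).1) := by
    rw [sub_mul, one_mul, sub_eq_zero] at m2
    have := congrArg ((ρ a).1 * ·) m2
    rcases hab with k | k <;>
      simp only [k, ← mul_assoc, ha, ca, neg_mul, mul_neg, neg_neg, one_mul] at this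
    exacts [Or.inr (neg_eq_iff_eq_neg.1 this), Or.inl this]
  have m4 : (ρ b).1 * ((ρ b).1 * M) = -M := by
    rcases m3 with k | k
    · rw [k, ← mul_assoc, k, mul_assoc, ha, mul_neg_one]
    · rw [k, mul_neg, ← mul_assoc, k, neg_mul, neg_neg, mul_assoc, ha, mul_neg_one]
  have m5 : (ρ b).1 * M = -M := by
    have := congrArg ((ρ b).1 * ·) m4
    simp only [← mul_assoc, mul_neg] at this
    rw [mul_assoc (ρ b).1, hb, one_mul] at this
    exact neg_eq_iff_eq_neg.1 this.symm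
  rw [m5, mul_neg, m5, neg_neg, eq_neg_iff_add_eq_zero, ← two_smul F, smul_eq_zero] at m4
  exact vd_ne h e (smul_one_add_psi (b := (0 : F)) (y := 0) (by simpa using m4.resolve_left h2)).2

end TRA

open TRA Equiv Equiv.Perm

variable [NeZero (2 : F)]

theorem five6 {φ : G →* alternatingGroup (Fin 6)} (h : Cov ρ φ) (h3 : (3 : F) ≠ 0)
    (h5 : (5 : F) ≠ 0) {u : G} (hu : u ^ 5 = 1) (h1 : u ≠ 1) :
    (ρ u).1.trace = -1 ∧ 4 * q5 (vd (ρ u)) = 5 := by
  obtain ⟨ψ, h', hq⟩ := quad3 h h3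
  have : Fact (Nat.Prime 5) := ⟨by norm_num⟩
  have ho : orderOf (ψ u).1 = 5 := orderOf_eq_prime
    (by rw [← Subgroup.coe_pow, ← map_pow, hu, map_one]; rfl) fun e =>
      h1 (h'.eq_of_pow (n := 5) (by decide) ((Subtype.ext e).trans (map_one ψ).symm) hu (one_pow _))
  obtain ⟨χ, h'', e, hc⟩ := h'.wlog u v6 (by
    rw [← lcm_cycleType] at ho
    obtain ⟨hs, k | k | k | k | k | k | k | k⟩ := types (by norm_num) (ψ u) <;> rw [k] at ho hs ⊢ <;>
      first | exact absurd ho (by decide) | decide +kernel)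
  exact five_v h'' (fun x hx k => hq x hx ((hc x).symm.trans k)) h5 hu e

theorem tr_a6 {φ : G →* alternatingGroup (Fin 6)} (h : Cov ρ φ) (p : ℕ) [Fact p.Prime] [CharP F p]
    (h3 : p ≠ 3) (g : G) : (ρ g).1.trace ^ p = (ρ g).1.trace := by
  refine Z.pow ?_ p
  have n3 : (3 : F) ≠ 0 := fun e => h3 ((Nat.prime_dvd_prime_iff_eq Fact.out Nat.prime_three).1
    ((CharP.cast_eq_zero_iff F p 3).1 e))
  have odd : ∀ n : ℕ, Odd n → φ g ^ n = 1 → (∀ x : G, x ^ n = 1 → Z (ρ x)) → Z (ρ g) :=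
    fun n hn e k => by
      obtain ⟨x, ex, hx⟩ := h.exists_lift hn e
      exact (k x hx).pm (h.pm ex.symm)
  have z1 : Z (ρ 1) := ⟨4, by simp⟩
  have z3 : φ g ^ 3 = 1 → Z (ρ g) := fun e =>
    odd 3 (by decide) e fun x hx => Z3 (by rw [← map_pow, hx, map_one])
  obtain ⟨hs, k | k | k | k | k | k | k | k⟩ := types (by norm_num) (φ g)
  · exact z3 (pow_of_type k (by decide))
  · exact ⟨0, by simpa using (quad_of_sq (h.sq_neg (fun e => by simp [e] at k)
      (pow_of_type k (by decide)))).1⟩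
  · exact z3 (pow_of_type k (by decide))
  · exact z3 (pow_of_type k (by decide))
  · exact absurd (k ▸ hs) (by decide)
  · obtain ⟨ψ, h', e, -⟩ := h.wlog g (ev (c[0, 1, 2, 3] * c[4, 5])) (k.trans (by decide +kernel))
    obtain ⟨a, ha⟩ := h'.surj (ev (c[1, 4] * c[2, 3]))
    have := h'.sq_neg (a := g ^ 2) (by rw [map_pow, e]; decide +kernel)
      (by rw [map_pow, e]; decide +kernel)
    rw [map_pow] at this
    refine ⟨0, ((ord8 this).resolve_right fun k => ?_).trans (by simp)⟩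
    refine h'.qq (quad_of_sq (h'.sq_neg (a := a) ?_ ?_)).2 k.1 ?_
    · rw [ha]; decide +kernel
    · rw [ha]; decide +kernel
    · rw [ha, e]
      exact gen [[1, 0, 1, 1, 1, 0, 1, 1, 0, 1, 0], [0, 1, 1, 1, 0, 1, 1, 0, 1, 0, 1],
        [0, 1, 1, 0, 1, 0, 1, 1, 0, 1, 0, 1, 1, 1], [1, 0, 1, 0, 1, 1, 1, 0, 1, 1, 0]]
        (by decide +kernel)
  · refine odd 5 (by decide) (pow_of_type k (by decide)) fun x hx => ?_
    by_cases h1 : x = 1
    · exact h1 ▸ z1
    by_cases h5 : (5 : F) = 0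
    · refine ⟨-1, ?_⟩
      rw [Int.cast_neg, Int.cast_one, eq_neg_iff_add_eq_zero, ← pow_eq_zero_iff (n := 3) (by norm_num)]
      rcases ord5 (u := ρ x) (by rw [← map_pow, hx, map_one]) with k | k
      · linear_combination k.2 + ((ρ x).1.trace ^ 2 + 3 * (ρ x).1.trace - 3) * h5
      · linear_combination k.1 + ((ρ x).1.trace ^ 2 + (ρ x).1.trace) * h5
    · exact ⟨-1, by simpa using (five6 h n3 h5 hx h1).1⟩
  · exact absurd (k ▸ hs) (by decide)

omit [NeZero (2 : F)] in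
theorem trace_seven [CharP F 7] {u : Sp4 F} (h : u ^ 7 = 1) : u.1.trace = 4 := by
  have : Fact (Nat.Prime 7) := ⟨by norm_num⟩
  have : IsNilpotent (u.1 - 1) := ⟨7, by
    rw [sub_pow_char_of_commute _ (Commute.one_right _), one_pow, sub_eq_zero]
    exact congrArg Subtype.val h⟩
  have := (isNilpotent_trace_of_isNilpotent this).eq_zero
  rw [trace_sub, sub_eq_zero] at this
  simpa using this

theorem tr_a7 {φ : G →* alternatingGroup (Fin 7)} (h : Cov ρ φ) :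
    CharP F 7 ∧ ∀ g, (ρ g).1.trace ^ 7 = (ρ g).1.trace := by
  have : Fact (Nat.Prime 7) := ⟨by norm_num⟩
  have sq : ∀ {φ : G →* alternatingGroup (Fin 7)}, Cov ρ φ → ∀ {n : ℕ}, Odd n → ∀ {x : G}, x ^ n = 1 →
      ∀ k, k * φ x * k⁻¹ = φ x ^ 2 → ∃ k, k * x * k⁻¹ = x ^ 2 := fun h n hn x hx k e => by
    obtain ⟨k, rfl⟩ := h.surj k
    exact ⟨k, h.eq_of_pow hn (by simpa using e) (by rw [conj_pow, hx]; simp)
      (by rw [← pow_mul, mul_comm, pow_mul, hx, one_pow])⟩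
  have h7 : (7 : F) = 0 := by
    obtain ⟨g, k, g1, g7, e, -⟩ := Mit.Tr.alt_seven
    obtain ⟨x, rfl, hx⟩ := h.exists_lift (n := 7) (by decide) g7
    obtain ⟨k, hk⟩ := sq h (by decide) hx k e
    exact eig7 hx hk fun e => g1 ((h.ker x).2 (Or.inl (by rw [e]; rfl)))
  have : CharP F 7 := (CharP.charP_iff_prime_eq_zero (by norm_num)).2 h7
  refine ⟨this, fun g => Z.pow ?_ 7⟩
  have odd : ∀ n : ℕ, Odd n → φ g ^ n = 1 → (∀ x : G, φ x = φ g → x ^ n = 1 → Z (ρ x)) → Z (ρ g) :=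
    fun n hn e k => by
      obtain ⟨x, ex, hx⟩ := h.exists_lift hn e
      exact (k x ex hx).pm (h.pm ex.symm)
  have z3 : φ g ^ 3 = 1 → Z (ρ g) := fun e =>
    odd 3 (by decide) e fun x _ hx => Z3 (by rw [← map_pow, hx, map_one])
  obtain ⟨hs, k | k | k | k | k | k | k | k⟩ := types le_rfl (φ g)
  · exact z3 (pow_of_type k (by decide))
  · exact ⟨0, by simpa using (quad_of_sq (h.sq_neg (fun e => by simp [e] at k)
      (pow_of_type k (by decide)))).1⟩
  · exact z3 (pow_of_type k (by decide))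
  · exact z3 (pow_of_type k (by decide))
  · obtain ⟨ψ, h', e, -⟩ := h.wlog g (ev (c[0, 1, 2] * c[3, 4] * c[5, 6]))
      (k.trans (by decide +kernel))
    obtain ⟨z, hz⟩ := h'.surj (ev (c[3, 5] * c[4, 6]))
    have k1 := h'.sq_neg (a := g ^ 3) (by rw [map_pow, e]; decide +kernel)
      (by rw [map_pow, e]; decide +kernel)
    have k2 := h'.sq_neg (a := z) (by rw [hz]; decide +kernel) (by rw [hz]; decide +kernel)
    have k3 := h'.sq_neg (a := z * g ^ 3) (by rw [map_mul, map_pow, e, hz]; decide +kernel)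
      (by rw [map_mul, map_pow, e, hz]; decide +kernel)
    rcases h'.pm (x := z * g * z⁻¹) (y := g) (by
      rw [map_mul, map_mul, map_inv, e, hz]; decide +kernel) with k | k
    · have hc : Commute z (g ^ 3) := Commute.pow_right
        (mul_inv_eq_iff_eq_mul.1 (h.inj (Subtype.ext k))) 3
      have hc' : Commute (ρ (g ^ 3)).1 (ρ z).1 := congrArg Subtype.val (hc.map ρ).symm
      rw [map_mul, Submonoid.coe_mul, hc'.mul_mul_mul_comm, k1, k2] at k3
      have := congrFun (congrFun k3 (.inl 0)) (.inl 0)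
      exact absurd (by simp at this; linear_combination this) (two_ne_zero (α := F))
    · have := congrArg Matrix.trace k
      rw [map_mul, map_mul, map_inv, tr_conj, trace_neg] at this
      exact ⟨0, mul_left_cancel₀ two_ne_zero (by push_cast; linear_combination this)⟩
  · obtain ⟨ψ, h', e, -⟩ := h.wlog g (ev (c[0, 1, 2, 3] * c[4, 5])) (k.trans (by decide +kernel))
    have := h'.sq_neg (a := g ^ 2) (by rw [map_pow, e]; decide +kernel)
      (by rw [map_pow, e]; decide +kernel)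
    rw [map_pow] at this
    exact (ord8 this).elim (fun e => ⟨0, by simpa using e⟩) fun e =>
      Z_of_mul 1 (-1) (by push_cast; linear_combination e.2 + h7)
  · refine odd 5 (by decide) (pow_of_type k (by decide)) fun x ex hx => ?_
    obtain ⟨ψ, h', e, -⟩ := h.wlog x (ev c[0, 1, 2, 3, 4]) (ex ▸ k.trans (by decide +kernel))
    obtain ⟨z, hz⟩ := sq h' (by decide) hx (ev (c[1, 2, 4, 3] * c[5, 6])) (by rw [e]; decide +kernel)
    have e1 := (sq_data (ρ x)).1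
    have h2 : (2 : F) ≠ 0 := two_ne_zero
    rw [← map_pow, ← hz, map_mul, map_mul, map_inv, tr_conj] at e1
    field_simp at e1
    rcases ord5 (u := ρ x) (by rw [← map_pow, hx, map_one]) with k | k
    · simp only [k.1, q5, Pi.zero_apply] at e1
      exact Z_of_mul 4 (-2) (by push_cast; linear_combination -e1)
    · exact Z_of_mul 2 (-1) (mul_left_cancel₀ h2 (by push_cast; linear_combination e1 + k.2))
  · exact odd 7 (by decide) (pow_of_type k (by decide)) fun x _ hx =>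
      ⟨4, by simpa using trace_seven (by rw [← map_pow, hx, map_one])⟩

end CfsgLib.Dim4
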