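import Mathlib
import Cfsg.Agent.Lib.Dim4.TRA

/-!
DIM4, package OV: overgroups of `2.A₅` and of `2.A₆` in characteristic seven.  See `plans/DIM4.md`.
-/

set_option autoImplicit false

namespace CfsgLib.Dim4

open Matrix Cfsg Cfsg.Geo CfsgLib.Asch CfsgLib.Forms CfsgLib.Symp Subgroup
open scoped MatrixGroups commutatorElement

variable {G F : Type*} [Group G] [Field F] [NeZero (2 : F)] {ρ : G →* Sp4 F}

namespace OV

omit [NeZero (2 : F)] in
theorem exists_sing (a : W5 F) : ∃ n : W5 F, n ≠ 0 ∧ q5 n = 0 ∧ bt a n = 0 := by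
  by_cases h : a 2 = 0
  · exact ⟨Pi.single 1 1, by simp, by simp [q5], by simp [bt_apply, h]⟩
  · exact ⟨![0, a 4, 0, a 2, 0], fun e => h (by simpa using congrFun e 3), by simp [q5],
      by simp [bt_apply, mul_comm]⟩

/-- the stabiliser of a set of vectors -/
def stab (D : Set (W5 F)) : Subgroup (Sp4 F) where
  carrier := {h | (∀ x ∈ D, sg h x ∈ D) ∧ ∀ x ∈ D, sg h⁻¹ x ∈ D}
  mul_mem' ha hb := ⟨fun x hx => by rw [sg_mul]; exact ha.1 _ (hb.1 x hx),
    fun x hx => by rw [_root_.mul_inv_rev, sg_mul]; exact hb.2 _ (ha.2 x hx)⟩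
  one_mem' := by simp
  inv_mem' ha := ⟨ha.2, by simpa using ha.1⟩

end OV

/-- the stabiliser of a system of type `A` -/
theorem over_of {I : Type*} [DecidableEq I] (h3 : (3 : F) ≠ 0) (y : I → W5 F) {s : F} (hs : s ≠ 0)
    (hy : ∀ i j k l, bt (y i - y j) (y k - y l) = s * ((if i = k then 1 else 0) -
      (if i = l then 1 else 0) - (if j = k then 1 else 0) + if j = l then 1 else 0))
    (hN : ∀ h ∈ normalizer (ρ.range : Set (Sp4 F)), ∀ i j, i ≠ j →
      ∃ k l, k ≠ l ∧ sg h (y i - y j) = y k - y l)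
    {i j k : I} (hij : i ≠ j) (hjk : j ≠ k) (hik : i ≠ k)
    (ht : ∀ t ∈ normalizer (ρ.range : Set (Sp4 F)), (∀ a b, sg t (y a - y b) =
      y ((Equiv.swap i j * Equiv.swap j k) a) - y ((Equiv.swap i j * Equiv.swap j k) b)) →
      t.1 * t.1 = -t.1 - 1 → False) : Over ρ := by
  have h2 : (2 : F) ≠ 0 := two_ne_zero
  let D : Set (W5 F) := {x | ∃ i j, i ≠ j ∧ x = y i - y j}
  have hq : ∀ {i j}, i ≠ j → q5 (y i - y j) = s := fun {i j} h =>
    mul_left_cancel₀ h2 (by rw [← bt_self, hy]; simp [h, h.symm]; ring)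
  have hr : ∀ {i j}, i ≠ j → ∀ a b, y a - y b - (bt (y i - y j) (y a - y b) / s) • (y i - y j) =
      y (Equiv.swap i j a) - y (Equiv.swap i j b) := fun {i j} h a b => by
    have : ∀ a, y (Equiv.swap i j a) =
        y a - ((if i = a then 1 else 0) - (if j = a then 1 else 0) : F) • (y i - y j) := fun a => by
      by_cases e : i = a
      · simp [← e, h.symm]
      by_cases e' : j = a
      · simp [← e', h]
      · simp [e, e', Equiv.swap_apply_of_ne_of_ne (Ne.symm e) (Ne.symm e')]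
    rw [this, this, hy, mul_div_cancel_left₀ _ hs]
    module
  refine ⟨OV.stab D, fun e => ?_, SetLike.lt_iff_le_and_exists.2 ⟨fun h hh => ?_,
    pr hs (hq hij) (hq hjk), ?_, fun hh => ht _ hh (fun a b => ?_) ?_⟩⟩
  · obtain ⟨n, n0, n1, n2⟩ := OV.exists_sing (y i - y j)
    have h1 : q5 (y i - y j + n) = s := by rw [q5_add, hq hij, n1, n2]; simp
    obtain ⟨k, l, -, e⟩ := (e ▸ mem_top (pr hs h1 (hq hij)) : _ ∈ OV.stab D).1 _ ⟨i, j, hij, rfl⟩
    have e1 : y k - y l = y i - y j + (2 : F) • n := by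
      have k1 : y i - y j - (2 : F) • (y i - y j) = -(y i - y j) := by module
      rw [← e, sg_pr, bt_self, hq hij, mul_div_cancel_right₀ _ hs, k1, map_neg, map_add,
        LinearMap.add_apply, bt_self, hq hij, bt_symm n, n2, add_zero, neg_div,
        mul_div_cancel_right₀ _ hs]
      module
    have e2 := hy i j k l
    rw [e1, map_add, map_smul, n2, bt_self, hq hij, smul_zero, add_zero, mul_comm, mul_right_inj' hs]
      at e2
    have h4 : (4 : F) ≠ 0 := by rw [show (4 : F) = 2 * 2 by norm_num]; exact mul_ne_zero h2 h2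
    have : i = k ∧ j = l := by
      split_ifs at e2 <;> first
        | exact ⟨‹_›, ‹_›⟩ | exact absurd (by linear_combination e2) h2
        | exact absurd (by linear_combination e2) h3 | exact absurd (by linear_combination e2) h4
        | exact absurd (by linear_combination e2) (one_ne_zero (α := F))
    simp [← this.1, ← this.2, h2, n0] at e1
  · refine ⟨?_, ?_⟩ <;> rintro _ ⟨a, b, hab, rfl⟩
    exacts [hN h hh a b hab, hN _ (inv_mem hh) a b hab]
  · have : ∀ a b, sg (pr hs (hq hij) (hq hjk)) (y a - y b) =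
        y ((Equiv.swap i j * Equiv.swap j k) a) - y ((Equiv.swap i j * Equiv.swap j k) b) :=
      fun a b => by rw [sg_pr, hr hjk, hr hij]; rfl
    refine ⟨?_, ?_⟩ <;> rintro _ ⟨a, b, hab, rfl⟩
    · exact ⟨_, _, (Equiv.injective _).ne hab, this a b⟩
    · refine ⟨(Equiv.swap i j * Equiv.swap j k)⁻¹ a, (Equiv.swap i j * Equiv.swap j k)⁻¹ b,
        (Equiv.injective _).ne hab, ?_⟩
      rw [← sg_inv_sg (pr hs (hq hij) (hq hjk)) (y ((Equiv.swap i j * Equiv.swap j k)⁻¹ a) - _), this]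
      simp
  · rw [sg_pr, hr hjk, hr hij]; rfl
  · have e := psi_swap (y i - y j) (y j - y k)
    rw [hy] at e
    rw [coe_pr, smul_mul_smul_comm, mul_assoc, ← mul_assoc (psi (y j - y k)), e, sub_mul, mul_sub,
      mul_assoc (psi (y i - y j)) (psi (y j - y k)), psi_sq, ← mul_assoc (psi (y i - y j)) (psi (y i - y j)),
      psi_sq, hq hij, hq hjk]
    simp only [smul_mul_assoc, mul_smul_comm, one_mul, hij, hik, hjk, if_true, if_false]
    match_scalars <;> field_simp
    ring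

namespace OV

/-- six vectors, permuted two-transitively -/
theorem gram (ha : Abs ρ) (hq : QS G) {c : Fin 6 → W5 F} (h0 : c 0 ≠ 0)
    (h1 : ∀ g, ∃ σ : Fin 6 → Fin 6, Function.Injective σ ∧ ∀ i, sg (ρ g) (c i) = c (σ i))
    (h2 : ∀ i j, i ≠ j → ∃ g, sg (ρ g) (c 0) = c i ∧ sg (ρ g) (c 1) = c j) :
    ∑ i, c i = 0 ∧ ∃ b : F, 6 * b ≠ 0 ∧ ∀ i j, bt (c i) (c j) = if i = j then -5 * b else b := by
  have hs : ∑ i, c i = 0 := eq_zero_of_fix ha hq fun g => ⟨1, by
    obtain ⟨σ, k1, k2⟩ := h1 g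
    simp only [map_sum, k2, one_smul]
    exact (Finite.injective_iff_bijective.1 k1).sum_comp c⟩
  have hb : ∀ i j, i ≠ j → bt (c i) (c j) = bt (c 0) (c 1) := fun i j h => by
    obtain ⟨g, k1, k2⟩ := h2 i j h
    rw [← k1, ← k2, bt_sg]
  have hk : ∀ i j, bt (c i) (c j) = if i = j then -5 * bt (c 0) (c 1) else bt (c 0) (c 1) := by
    intro i j
    split_ifs with h
    · subst h
      have := congrArg (bt (c i)) hs
      rw [map_sum, ← Finset.add_sum_erase _ _ (Finset.mem_univ i),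
        Finset.sum_congr rfl fun j hj => hb i j (Finset.ne_of_mem_erase hj).symm] at this
      simp at this
      linear_combination this
    · exact hb i j h
  refine ⟨hs, _, fun h6 => h0 (eq_zero_of_fix ha hq fun g => ⟨1, ?_⟩), hk⟩
  have := nil5 ha hq (s := {x | ∃ i j, x = c i - c j}) (by
    rintro g _ ⟨i, j, rfl⟩
    obtain ⟨σ, -, k⟩ := h1 g
    exact ⟨_, _, by rw [map_sub, k, k]⟩) (by
    rintro _ ⟨i, j, rfl⟩ _ ⟨k, l, rfl⟩
    have : -5 * bt (c 0) (c 1) = bt (c 0) (c 1) := by linear_combination -h6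
    simp only [map_sub, LinearMap.sub_apply, hk i, hk j, this, ite_self, sub_self])
  obtain ⟨σ, -, k⟩ := h1 g
  rw [k, one_smul, ← sub_eq_zero]
  exact this _ ⟨_, _, rfl⟩

omit [NeZero (2 : F)] in
theorem exists_aut (hi : Function.Injective ρ) {h : Sp4 F}
    (hh : h ∈ normalizer (ρ.range : Set (Sp4 F))) {u : G} {n : ℕ} (hu : u ^ n = 1) (h1 : u ≠ 1) :
    ∃ u', ρ u' = h * ρ u * h⁻¹ ∧ u' ^ n = 1 ∧ u' ≠ 1 := by
  obtain ⟨u', e⟩ := (mem_normalizer_iff.1 hh _).1 ⟨u, rfl⟩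
  refine ⟨u', e, hi (by rw [map_pow, e, conj_pow, ← map_pow, hu]; simp), fun k => h1 (hi ?_)⟩
  rw [k, map_one, eq_comm, conj_eq_one_iff] at e
  rw [e, map_one]

open TRA Equiv Equiv.Perm

/-- six five-cycles -/
def u5 : Fin 6 → alternatingGroup (Fin 5) := ![ev c[0, 1, 3, 4, 2], ev c[0, 3, 1, 2, 4],
  ev c[0, 1, 4, 2, 3], ev c[0, 3, 4, 1, 2], ev c[0, 2, 3, 1, 4], ev c[0, 1, 2, 3, 4]]

theorem u5_conj : ∀ (g : alternatingGroup (Fin 5)) (i : Fin 6),
    ∃ j, g * u5 i * g⁻¹ = u5 j ∨ g * u5 i * g⁻¹ = (u5 j)⁻¹ := by decide +kernel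

theorem u5_two : ∀ i j : Fin 6, i ≠ j → ∃ g : alternatingGroup (Fin 5),
    (g * u5 0 * g⁻¹ = u5 i ∨ g * u5 0 * g⁻¹ = (u5 i)⁻¹) ∧
    (g * u5 1 * g⁻¹ = u5 j ∨ g * u5 1 * g⁻¹ = (u5 j)⁻¹) := by decide +kernel

theorem u5_inj : ∀ i j : Fin 6, u5 i = u5 j ∨ u5 i = (u5 j)⁻¹ → i = j := by decide +kernel

theorem u5_all : ∀ x : alternatingGroup (Fin 5), x ^ 5 = 1 → x ≠ 1 →
    ∃ k, x = u5 k ∨ x = (u5 k)⁻¹ ∨ x = u5 k ^ 2 ∨ x = (u5 k ^ 2)⁻¹ := by decide +kernel

theorem stab5 : ∀ σ : Perm (Fin 6), σ 5 = 5 → sign σ = 1 → ∃ i < 5, ∃ l ∈ [[], [0], [1, 1, 1, 0, 1],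
    [1, 0, 1, 1, 1], [1, 1, 1, 0, 1, 0], [1, 0, 1, 1, 1, 0], [0, 1, 1, 1, 0, 1], [0, 1, 0, 1, 1, 1],
    [0, 1, 1, 1, 0, 1, 0], [0, 1, 0, 1, 1, 1, 0], [1, 1, 0, 1, 1, 1, 0, 1, 1],
    [1, 1, 0, 1, 1, 1, 0, 1, 1, 0]], σ = v6.1 ^ i * wd a6.1 v6.1 l := by decide +kernel

theorem two6 : ∀ i j : Fin 6, i ≠ j → ∃ σ : Perm (Fin 6), σ 0 = i ∧ σ 1 = j ∧ sign σ = 1 := by
  decide +kernel

theorem one6 : ∀ i : Fin 6, ∃ σ : Perm (Fin 6), σ 5 = i ∧ sign σ = 1 := by decide +kernel

omit [NeZero (2 : F)] in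
theorem cube {t : Sp4 F} (h : t.1 * t.1 = -t.1 - 1) : t ^ 3 = 1 := Subtype.ext (by
  change t.1 ^ 3 = 1
  rw [pow_three, h, mul_sub, mul_neg, h]
  simp)

theorem comm_of {H : Type*} [Group H] {t u : H} (ht : t ^ 3 = 1) (hu : u ^ 5 = 1) (h1 : u ≠ 1)
    (h : t * u * t⁻¹ = u ∨ t * u * t⁻¹ = u⁻¹ ∨ t * u * t⁻¹ = u ^ 2 ∨ t * u * t⁻¹ = (u ^ 2)⁻¹) :
    t * u * t⁻¹ = u := by
  have key : ∀ e : ℕ, t * u * t⁻¹ = u ^ e → (e ^ 3 + 4).Coprime 5 → False := fun e he hc => by
    have : t ^ 3 * u * (t ^ 3)⁻¹ = u ^ e ^ 3 := by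
      calc _ = t * (t * (t * u * t⁻¹) * t⁻¹) * t⁻¹ := by rw [pow_three]; group
        _ = _ := by rw [he, ← conj_pow, he, ← conj_pow, ← conj_pow, he, ← pow_mul, ← pow_mul]; ring_nf
    rw [ht, one_mul, inv_one, mul_one] at this
    have := pow_gcd_eq_one.2 ⟨show u ^ (e ^ 3 + 4) = 1 by rw [pow_add, ← this, ← pow_succ', hu], hu⟩
    rw [hc, pow_one] at this
    exact h1 this
  rcases h with h | h | h | h
  · exact h
  · exact (key 4 (h.trans (inv_eq_of_mul_eq_one_right (by rw [← pow_succ', hu]))) (by decide)).elim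
  · exact (key 2 h (by decide)).elim
  · exact (key 3 (h.trans (inv_eq_of_mul_eq_one_right (by rw [← pow_add, hu]))) (by decide)).elim

theorem vd_conj' (k x : G) : vd (ρ (k * x * k⁻¹)) = sg (ρ k) (vd (ρ x)) := by
  rw [map_mul, map_mul, map_inv, vd_conj]

theorem third : ∀ i j k : Fin 6, ∃ m, m ≠ i ∧ m ≠ j ∧ m ≠ k := by decide +kernel

end OV

open OV TRA Equiv Equiv.Perm

theorem over5 {φ : G →* alternatingGroup (Fin 5)} (h : Cov ρ φ) : Over ρ := by
  choose u eu hu using fun i => h.exists_lift (a := u5 i) (n := 5) (by decide)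
    ((by decide +kernel : ∀ i, u5 i ^ 5 = 1) i)
  have u1 : ∀ i, u i ≠ 1 := fun i e =>
    (by decide +kernel : ∀ i, u5 i ≠ 1) i (by rw [← eu, e, map_one])
  let c := fun i => vd (ρ (u i))
  have hi : ∀ {x : G}, x ^ 5 = 1 → x⁻¹ ^ 5 = 1 := fun hx => by rw [inv_pow, hx, inv_one]
  have key : ∀ g i j, (φ g * u5 i * (φ g)⁻¹ = u5 j ∨ φ g * u5 i * (φ g)⁻¹ = (u5 j)⁻¹) →
      sg (ρ g) (c i) = c j ∧ (ρ (u j)).1.trace = (ρ (u i)).1.trace := fun g i j e => by
    have h5 : (g * u i * g⁻¹) ^ 5 = 1 := by rw [conj_pow, hu]; simp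
    rw [← vd_conj', ← tr_conj (ρ g) (ρ (u i)), ← map_inv, ← map_mul, ← map_mul]
    rcases e with e | e
    · rw [h.eq_of_pow (y := u j) (by decide) (by simpa [eu] using e) h5 (hu j)]
      exact ⟨rfl, rfl⟩
    · rw [h.eq_of_pow (y := (u j)⁻¹) (by decide) (by simpa [eu] using e) h5 (hi (hu j)), map_inv,
        vd_inv, trace_inv]
      exact ⟨rfl, rfl⟩
  have two : ∀ i j, i ≠ j → ∃ g, (sg (ρ g) (c 0) = c i ∧ (ρ (u i)).1.trace = (ρ (u 0)).1.trace) ∧
      sg (ρ g) (c 1) = c j := fun i j hij => by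
    obtain ⟨g, k1, k2⟩ := u5_two i j hij
    obtain ⟨g, rfl⟩ := h.surj g
    exact ⟨g, key g 0 i k1, (key g 1 j k2).1⟩
  obtain ⟨hs, b, hb, hc⟩ := gram h.abs h.qs (c := c) (fun e => by
      obtain ⟨g, k, -⟩ := two 5 0 (by decide)
      refine h.qq e (b := u 5) (k.1.symm.trans (by rw [e, map_zero])) ?_
      rw [eu, eu]
      exact gen [[0, 0, 1, 1], [1, 1, 1, 0, 1], [0, 1, 0, 0, 0]] (by decide +kernel))
    (fun g => by
      choose σ hσ using u5_conj (φ g)
      refine ⟨σ, fun i j e => u5_inj i j ?_, fun i => (key g i _ (hσ i)).1⟩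
      have k1 := hσ i
      have k2 := hσ j
      rw [← e] at k2
      have inj : ∀ {x y}, φ g * x * (φ g)⁻¹ = φ g * y * (φ g)⁻¹ → x = y := fun e => by simpa using e
      rcases k1 with k1 | k1 <;> rcases k2 with k2 | k2
      · exact Or.inl (inj (k1.trans k2.symm))
      · exact Or.inr (inj (by rw [k1, ← conj_inv, k2, inv_inv]))
      · exact Or.inr (inj (by rw [k1, ← conj_inv, k2]))
      · exact Or.inl (inj (k1.trans k2.symm)))
    fun i j hij => (two i j hij).imp fun g k => ⟨k.1.1, k.2⟩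
  have h2 : (2 : F) ≠ 0 := two_ne_zero
  have h6 : (6 : F) ≠ 0 := left_ne_zero_of_mul hb
  have h3 : (3 : F) ≠ 0 := fun e => h6 (by linear_combination 2 * e)
  have b0 : b ≠ 0 := right_ne_zero_of_mul hb
  set t := (ρ (u 0)).1.trace
  have cinj : ∀ {i j}, c i = c j → i = j := fun {i j} e => by
    by_contra hij
    have := hc i j
    rw [← e, hc, if_pos rfl, if_neg hij] at this
    exact hb (by linear_combination -this)
  have all : ∀ x : G, x ^ 5 = 1 → x ≠ 1 → ∃ k, (x = u k ∨ x = (u k)⁻¹ ∨ x = u k ^ 2 ∨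
      x = (u k ^ 2)⁻¹) ∧ (vd (ρ x) = c k ∨ vd (ρ x) = t • c k) := fun x hx h1 => by
    obtain ⟨k, e⟩ := u5_all (φ x) (by rw [← map_pow, hx, map_one]) fun e =>
      h1 (h.eq_of_pow (n := 5) (by decide) (e.trans (map_one φ).symm) hx (one_pow _))
    have h5 : (u k ^ 2) ^ 5 = 1 := by rw [← pow_mul, mul_comm, pow_mul, hu, one_pow]
    have hv : vd (ρ (u k ^ 2)) = t • c k := by
      obtain ⟨j, hj⟩ := exists_ne k
      obtain ⟨g, e, -⟩ := two k j hj.symm
      rw [map_pow, (sq_data _).2, e.2]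
    refine ⟨k, ?_⟩
    rcases e with e | e | e | e
    · obtain rfl := h.eq_of_pow (y := u k) (by decide) (by simpa [eu] using e) hx (hu k)
      exact ⟨Or.inl rfl, Or.inl rfl⟩
    · obtain rfl := h.eq_of_pow (y := (u k)⁻¹) (by decide) (by simpa [eu] using e) hx (hi (hu k))
      exact ⟨Or.inr (Or.inl rfl), Or.inl (by rw [map_inv, vd_inv])⟩
    · obtain rfl := h.eq_of_pow (y := u k ^ 2) (by decide) (by simpa [eu] using e) hx h5
      exact ⟨Or.inr (Or.inr (Or.inl rfl)), Or.inr hv⟩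
    · obtain rfl := h.eq_of_pow (y := (u k ^ 2)⁻¹) (by decide) (by simpa [eu] using e) hx (hi h5)
      exact ⟨Or.inr (Or.inr (Or.inr rfl)), Or.inr (by rw [map_inv, vd_inv, hv])⟩
  refine over_of h3 c (s := -(6 * b)) (neg_ne_zero.2 hb) (fun i j k l => ?_) (fun g hg i j hij => ?_)
    (i := 0) (j := 1) (k := 2) (by decide) (by decide) (by decide) fun g hg e e3 => ?_
  · simp only [map_sub, LinearMap.sub_apply, hc]
    split_ifs <;> ring
  · have im : ∀ i, ∃ k, sg g (c i) = c k ∨ sg g (c i) = t • c k := fun i => by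
      obtain ⟨x, e, h5, h1⟩ := exists_aut h.inj hg (hu i) (u1 i)
      obtain ⟨k, -, hk⟩ := all x h5 h1
      rw [e, vd_conj] at hk
      exact ⟨k, hk⟩
    have mix : ∀ {i j k l}, i ≠ j → sg g (c i) = c k → sg g (c j) = t • c l → t = 1 := by
      intro i j k l hij e1 e2
      have a1 := bt_sg g (c i) (c j)
      have a2 := bt_sg g (c j) (c j)
      simp only [e1, e2, map_smul, LinearMap.smul_apply, hc, if_neg hij, if_true, smul_eq_mul] at a1 a2
      split_ifs at a1
      · exact absurd (by linear_combination 5 * a2 + (1 - 5 * t) * a1 : 2 * 2 * (6 * b) = 0)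
          (mul_ne_zero (mul_ne_zero h2 h2) hb)
      · exact mul_right_cancel₀ b0 (by linear_combination a1)
    have ne : ∀ {k l}, sg g (c i - c j) = c k - c l → k ≠ l := fun e e' => by
      rw [e', sub_self] at e
      exact hij (cinj (sub_eq_zero.1 (by rw [← sg_inv_sg g (c i - c j), e, map_zero])))
    obtain ⟨k, k1⟩ := im i
    obtain ⟨l, l1⟩ := im j
    suffices ∃ k l, sg g (c i - c j) = c k - c l by
      obtain ⟨k, l, e⟩ := this
      exact ⟨k, l, ne e, e⟩
    rw [map_sub]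
    rcases k1 with k1 | k1 <;> rcases l1 with l1 | l1
    · exact ⟨k, l, by rw [k1, l1]⟩
    · exact ⟨k, l, by rw [k1, l1, mix hij k1 l1, one_smul]⟩
    · exact ⟨k, l, by rw [k1, l1, mix hij.symm l1 k1, one_smul]⟩
    · have a1 := bt_sg g (c i) (c j)
      have a2 := bt_sg g (c j) (c j)
      simp only [k1, l1, map_smul, LinearMap.smul_apply, hc, if_neg hij, if_true, smul_eq_mul] at a1 a2
      split_ifs at a1
      · exact absurd (by linear_combination a2 - a1) hb
      rcases mul_self_eq_one_iff.1 (mul_right_cancel₀ b0 (by linear_combination a1) : t * t = 1)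
        with e | e
      · exact ⟨k, l, by rw [k1, l1, e, one_smul, one_smul]⟩
      · exact ⟨l, k, by rw [k1, l1, e]; module⟩
  · have fix : ∀ m, (swap 0 1 * swap 1 2 : Perm (Fin 6)) m = m → sg g (c m) = c m := fun m hm => by
      have : (6 : F) • c m = ∑ j, (c m - c j) := by
        rw [Finset.sum_sub_distrib, hs, sub_zero, Finset.sum_const, ← Nat.cast_smul_eq_nsmul F]
        simp
      refine smul_right_injective _ h6 ?_
      simp only [← map_smul, this, map_sum, e, hm]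
      exact Equiv.sum_comp (swap 0 1 * swap 1 2 : Perm (Fin 6)) fun j => c m - c j
    obtain ⟨x, ex, h5, h1⟩ := exists_aut h.inj hg (hu 5) (u1 5)
    obtain ⟨k, k1, k2⟩ := all x h5 h1
    rw [ex, vd_conj, fix 5 (by decide)] at k2
    obtain rfl : 5 = k := k2.elim cinj fun k2 => by
      obtain ⟨m, m1, m2, -⟩ := third 5 k k
      have := hc m 5
      rw [k2, map_smul, hc, if_neg m1, if_neg m2] at this
      rw [(mul_right_cancel₀ b0 (by simpa using this) : t = 1), one_smul] at k2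
      exact cinj k2
    have hm := comm_of (cube e3) (u := ρ (u 5)) (by rw [← map_pow, hu, map_one])
      (fun e => u1 5 (h.inj (e.trans (map_one ρ).symm))) (by
        simpa only [← ex, ← map_pow, ← map_inv, h.inj.eq_iff] using k1)
    have k4 := (key (u 5) 4 0 (by rw [eu]; decide +kernel)).1
    have k5 : sg g (c 0) = c 0 := by
      rw [← k4, ← sg_mul, mul_inv_eq_iff_eq_mul.1 hm, sg_mul, fix 4 (by decide)]
    have := e 0 3
    rw [map_sub, k5, fix 3 (by decide)] at this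
    exact absurd (cinj (sub_left_inj.1 this)) (by decide)

theorem map_wd {H : Type*} [Group H] (f : G →* H) (a b : G) (l : List ℕ) :
    f (wd a b l) = wd (f a) (f b) l := by
  simp [wd, map_list_prod, Function.comp_def, apply_ite f]

theorem over6 [CharP F 7] {φ : G →* alternatingGroup (Fin 6)} (h : Cov ρ φ) : Over ρ := by
  have h7 : (7 : F) = 0 := CharP.cast_eq_zero F 7
  have h2 : (2 : F) ≠ 0 := two_ne_zero
  have h3 : (3 : F) ≠ 0 := fun e => one_ne_zero (α := F) (by linear_combination h7 - 2 * e)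
  have h5 : (5 : F) ≠ 0 := fun e => h2 (by linear_combination h7 - e)
  obtain ⟨φ, h, hq⟩ := quad3 h h3
  obtain ⟨u, eu, hu⟩ := h.exists_lift (a := v6) (n := 5) (by decide) (by decide +kernel)
  have u1 : u ≠ 1 := fun e => (by decide +kernel : v6 ≠ 1) (by rw [← eu, e, map_one])
  obtain ⟨ht, -⟩ := five_v h hq h5 hu eu
  obtain ⟨a, -, ea, -, -, -, ha, -⟩ := exists_ab h hq eu
  have fix : ∀ g, (φ g).1 5 = 5 → sg (ρ g) (vd (ρ u)) = vd (ρ u) := fun g hg => by
    obtain ⟨i, -, l, -, e⟩ := stab5 _ hg (φ g).2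
    let K := ((stab {vd (ρ u)}).comap ρ)
    have mem : ∀ g, sg (ρ g) (vd (ρ u)) = vd (ρ u) → g ∈ K := fun g hg =>
      ⟨by simpa using hg, by rintro _ rfl; rw [← hg, sg_inv_sg, hg]; rfl⟩
    have m1 : u ∈ K := mem u (by rw [← vd_conj', mul_inv_cancel_right])
    have := (mul_mem (pow_mem m1 i) (wd_mem (mem a ha) m1 l)).1 _ rfl
    rcases h.pm (x := g) (y := u ^ i * wd a u l) (Subtype.ext (by
      rw [e, map_mul, map_pow, map_wd, ea, eu]
      exact congrArg _ (map_wd (alternatingGroup (Fin 6)).subtype a6 v6 l).symm)) with k | k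
    · rwa [Subtype.ext k]
    · rwa [sg_neg k]
  have hr : ∀ i, ∃ r : G, (φ r).1 5 = i := fun i => by
    obtain ⟨σ, k1, k2⟩ := one6 i
    obtain ⟨r, hr⟩ := h.surj ⟨σ, k2⟩
    exact ⟨r, by rw [hr]; exact k1⟩
  choose r hr using hr
  let c := fun i => sg (ρ (r i)) (vd (ρ u))
  have c1 : ∀ g, sg (ρ g) (vd (ρ u)) = c ((φ g).1 5) := fun g => by
    have := fix ((r ((φ g).1 5))⁻¹ * g) (by simp [Equiv.symm_apply_eq, hr])
    rw [map_mul, sg_mul, map_inv] at this
    rw [← sg_sg_inv (ρ (r ((φ g).1 5))) (sg (ρ g) _), this]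
  have c2 : ∀ g i, sg (ρ g) (c i) = c ((φ g).1 i) := fun g i => by
    rw [← sg_mul, ← map_mul, c1]
    simp [hr]
  obtain ⟨-, b, hb, hc⟩ := gram h.abs h.qs (c := c)
    (fun e => vd_ne h eu (by rw [← sg_inv_sg (ρ (r 0)) (vd _)]; exact (congrArg _ e).trans (map_zero _)))
    (fun g => ⟨_, (φ g).1.injective, c2 g⟩) fun i j hij => by
      obtain ⟨σ, k1, k2, k3⟩ := two6 i j hij
      obtain ⟨g, hg⟩ := h.surj ⟨σ, k3⟩
      exact ⟨g, by rw [c2, hg, k1], by rw [c2, hg, k2]⟩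
  have b0 : b ≠ 0 := right_ne_zero_of_mul hb
  have im : ∀ g ∈ normalizer (ρ.range : Set (Sp4 F)), ∀ i, ∃ k, ∃ e : F, (e = 1 ∨ e = -1) ∧
      sg g (c i) = e • c k := fun g hg i => by
    obtain ⟨x, e, h5, h1⟩ := exists_aut h.inj hg (u := r i * u * (r i)⁻¹) (n := 5)
      (by rw [conj_pow, hu]; simp) (by simpa using u1)
    have : Fact (Nat.Prime 5) := ⟨by norm_num⟩
    obtain ⟨k, j, hk⟩ := X.exists_conj_pow (p := 5) (by rw [X.card6]; norm_num) (g := v6) (x := φ x)
      (orderOf_eq_prime (by decide +kernel) (by decide +kernel)) (by rw [← map_pow, h5, map_one])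
    obtain ⟨k, rfl⟩ := h.surj k
    obtain rfl := h.eq_of_pow (y := k * u ^ j * k⁻¹) (by decide) (by simpa [eu] using hk) h5
      (by rw [conj_pow, ← pow_mul, mul_comm j, pow_mul, hu]; simp)
    have e1 := congrArg vd e
    rw [vd_conj, vd_conj', vd_conj', pow_eq_pow_mod j hu] at e1
    rw [pow_eq_pow_mod j hu] at h1
    have hv : vd (ρ (u ^ 2)) = (-1 : F) • vd (ρ u) := by rw [map_pow, (sq_data _).2, ht]
    have := Nat.mod_lt j (show 0 < 5 by norm_num)
    refine ⟨(φ k).1 5, ?_⟩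
    rw [← c1, ← e1]
    interval_cases j % 5
    · simp at h1
    · exact ⟨1, Or.inl rfl, by simp⟩
    · exact ⟨-1, Or.inr rfl, by rw [hv, map_smul]⟩
    · exact ⟨-1, Or.inr rfl, by
        rw [eq_inv_of_mul_eq_one_left ((pow_add u 3 2).symm.trans hu), map_inv, vd_inv, hv, map_smul]⟩
    · exact ⟨1, Or.inl rfl, by
        rw [eq_inv_of_mul_eq_one_left ((pow_succ u 4).symm.trans hu), map_inv, vd_inv, one_smul]⟩
  let y : Option (Fin 6) → W5 F := fun o => o.elim 0 c
  have hy : ∀ o o', bt (y o) (y o') = b * ((if o = o' then 1 else 0) + 1 -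
      (if o = none then 1 else 0) - if o' = none then 1 else 0) := by
    rintro (_ | i) (_ | j) <;> simp [y, hc]
    split_ifs
    · linear_combination -b * h7
    · ring
  refine over_of h3 y b0 (fun i j k l => ?_) (fun g hg i j hij => ?_) (i := none) (j := some 0)
    (k := some 1) (by decide) (by decide) (by decide) fun g hg e _ => ?_
  · simp only [map_sub, LinearMap.sub_apply, hy]
    ring
  · rcases i with _ | i <;> rcases j with _ | j
    · exact absurd rfl hij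
    · obtain ⟨k, e, rfl | rfl, hk⟩ := im g hg j
      · exact ⟨none, some k, by simp, by simp [y, hk]⟩
      · exact ⟨some k, none, by simp, by simp [y, hk]⟩
    · obtain ⟨k, e, rfl | rfl, hk⟩ := im g hg i
      · exact ⟨some k, none, by simp, by simp [y, hk]⟩
      · exact ⟨none, some k, by simp, by simp [y, hk]⟩
    obtain ⟨k, e, he, hk⟩ := im g hg i
    obtain ⟨l, e', he', hl⟩ := im g hg j
    have a1 := bt_sg g (c i) (c j)
    simp only [hk, hl, map_smul, LinearMap.smul_apply, hc, smul_eq_mul,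
      if_neg (show i ≠ j by simpa using hij)] at a1
    have h4 : 2 * 2 * b ≠ 0 := mul_ne_zero (mul_ne_zero h2 h2) b0
    split_ifs at a1 with hkl
    · rcases he with rfl | rfl <;> rcases he' with rfl | rfl <;> first
        | exact absurd (by linear_combination -a1) hb | exact absurd (by linear_combination a1) h4
    rcases he with rfl | rfl <;> rcases he' with rfl | rfl
    · exact ⟨some k, some l, by simpa using hkl, by simp [y, hk, hl]⟩
    · exact absurd (by linear_combination -2 * a1) h4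
    · exact absurd (by linear_combination -2 * a1) h4
    · exact ⟨some l, some k, by simpa using Ne.symm hkl, by simp [y, hk, hl, neg_add_eq_sub]⟩
  · obtain ⟨k, e', he, hk⟩ := im g hg 3
    obtain ⟨m, m1, m2, m3⟩ := third 3 0 k
    have : sg g (c 3 - 0) = c 3 - c 0 := e (some 3) none
    rw [sub_zero, hk] at this
    have := congrArg (bt (c m)) this
    simp only [map_smul, map_sub, hc, if_neg m1, if_neg m2, if_neg m3, sub_self] at this
    rcases he with rfl | rfl <;> simp [b0] at this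

end CfsgLib.Dim4
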