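import Mathlib
import Cfsg.Agent.Lib.Dim4.Defs
import Cfsg.Agent.Lib.Perm.PermModule

/-!
DIM4, package R1, first part: the fixed point of `S`, Gram matrices, the flag of `S`.
See `plans/DIM4.md`.
-/

set_option autoImplicit false
set_option linter.unusedSectionVars false

namespace CfsgLib.Dim4

open Matrix Cfsg Cfsg.Geo CfsgLib.Asch CfsgLib.Forms CfsgLib.Symp Subgroup
open scoped MatrixGroups commutatorElement

variable {G F : Type*} [Group G] [Finite G] [Field F] {ρ : G →* Sp4 F}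

theorem B4_alt (u : V4 F) : B4 u u = 0 := spB_self u

theorem B4_swap (u v : V4 F) : B4 u v = -B4 v u := spB_comm u v

theorem B4_symm_zero {u v : V4 F} (h : B4 u v = 0) : B4 v u = 0 := by rw [B4_swap, h, neg_zero]

theorem B4_add_l (u v w : V4 F) : B4 (u + v) w = B4 u w + B4 v w := by
  rw [map_add, LinearMap.add_apply]

theorem B4_add_r (u v w : V4 F) : B4 u (v + w) = B4 u v + B4 u w := map_add _ _ _

theorem B4_sub_l (u v w : V4 F) : B4 (u - v) w = B4 u w - B4 v w := by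
  rw [map_sub B4, LinearMap.sub_apply]

theorem B4_sub_r (u v w : V4 F) : B4 u (v - w) = B4 u v - B4 u w := map_sub _ _ _

theorem B4_smul_l (c : F) (u v : V4 F) : B4 (c • u) v = c * B4 u v := by
  rw [map_smul B4, LinearMap.smul_apply, smul_eq_mul]

theorem B4_smul_r (c : F) (u v : V4 F) : B4 u (c • v) = c * B4 u v := by
  rw [map_smul (B4 u), smul_eq_mul]

theorem rho_mul (g h : G) (v : V4 F) : ρ (g * h) • v = ρ g • ρ h • v := by rw [map_mul, mul_smul]

theorem rho_one (v : V4 F) : ρ 1 • v = v := by rw [map_one, one_smul]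

theorem rho_inv (g : G) (v : V4 F) : ρ g • ρ g⁻¹ • v = v := by
  rw [← rho_mul, mul_inv_cancel, rho_one]

theorem B4_fix {g : G} {x : V4 F} (h : ρ g • x = x) (v : V4 F) : B4 x (ρ g • v) = B4 x v := by
  rw [← B4_smul (ρ g) x v, h]

theorem B4_fix' {g : G} {x : V4 F} (h : ρ g • x = x) (v : V4 F) : B4 (ρ g • v) x = B4 v x := by
  rw [← B4_smul (ρ g) v x, h]

theorem pow_smul_eig {g : G} {v : V4 F} {l : F} (h : ρ g • v = l • v) (i : ℕ) :
    ρ (g ^ i) • v = l ^ i • v := by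
  induction i with
  | zero => rw [pow_zero, rho_one, pow_zero, one_smul]
  | succ i ih => rw [pow_succ', rho_mul, ih, smul_smul', h, smul_smul, pow_succ]

/-- the linear representation of a subgroup -/
noncomputable def rep (ρ : G →* Sp4 F) (S : Subgroup G) : Representation F S (V4 F) where
  toFun s := Matrix.toLin' (ρ s).1
  map_one' := by simp [Module.End.one_eq_id]
  map_mul' s t := by simp [Module.End.mul_eq_comp, Matrix.toLin'_mul]

theorem exists_fixed_mod {p : ℕ} [Fact p.Prime] [CharP F p] {S : Subgroup G} (hS : IsPGroup p S)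
    {P Q : Submodule F (V4 F)} (hP : ∀ s ∈ S, ∀ v ∈ P, ρ s • v ∈ P)
    (hQ : ∀ s ∈ S, ∀ v ∈ Q, ρ s • v ∈ Q) (h : ¬ P ≤ Q) :
    ∃ u ∈ P, u ∉ Q ∧ ∀ s ∈ S, ρ s • u - u ∈ Q := by
  obtain ⟨_, ⟨u, hu, rfl⟩, h1, h2⟩ := Perm.exists_fixed_of_isPGroup hS
    ((rep ρ S).quotient Q fun s v hv => hQ s s.2 v hv) (P.map Q.mkQ)
    (by rintro s _ ⟨v, hv, rfl⟩; exact ⟨_, hP s s.2 v hv, rfl⟩)
    (fun e => h (by rwa [← LinearMap.le_ker_iff_map, Submodule.ker_mkQ] at e))
  exact ⟨u, hu, fun e => h1 ((Submodule.Quotient.mk_eq_zero Q).2 e), fun s hs =>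
    (Submodule.Quotient.eq Q).1 (h2 ⟨s, hs⟩)⟩

theorem exists_fixed {p : ℕ} [Fact p.Prime] [CharP F p] {S : Subgroup G} (hS : IsPGroup p S)
    {P : Submodule F (V4 F)} (hP : ∀ s ∈ S, ∀ v ∈ P, ρ s • v ∈ P) (h : P ≠ ⊥) :
    ∃ u ∈ P, u ≠ 0 ∧ ∀ s ∈ S, ρ s • u = u := by
  obtain ⟨u, h1, h2, h3⟩ := exists_fixed_mod (ρ := ρ) (Q := ⊥) hS hP
    (fun s _ v hv => by rw [Submodule.mem_bot] at hv ⊢; rw [hv, smul_zero']) (by simpa using h)
  exact ⟨u, h1, by simpa using h2, fun s hs => by simpa [sub_eq_zero] using h3 s hs⟩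

theorem fix_of_nrm {S : Subgroup G} {t : G} (h : ∀ s ∈ S, t * s * t⁻¹ ∈ S) {y : V4 F}
    (hy : ∀ s ∈ S, ρ s • y = y) : ∀ s ∈ S, ρ s • ρ t • y = ρ t • y := fun s hs => by
  have h1 : t ∈ normalizer (S : Set G) := mem_normalizer_fintype h
  have h2 : t⁻¹ * s * t ∈ S := (mem_normalizer_iff.1 h1 _).2 (by simpa [mul_assoc] using hs)
  rw [← rho_mul, show s * t = t * (t⁻¹ * s * t) by group, rho_mul, hy _ h2]

section
variable {p : ℕ} {S : Subgroup G} {τ w : G} (h : R1 p S τ w)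
include h

theorem R1.B4_orbit {x v : V4 F} {l : F} (hx : ∀ s ∈ S, ρ s • x = x) (hv : ∀ s ∈ S, ρ s • v = v)
    (hl : ρ τ • v = l • v) (h0 : B4 x v = 0) (g : G) :
    B4 x (ρ g • v) = 0 ∨ ∃ i : ℕ, B4 x (ρ g • v) = l ^ i * B4 x (ρ w • v) := by
  rcases h.bru g with ⟨s, hs, i, rfl⟩ | ⟨s, hs, s', hs', i, rfl⟩
  · left
    rw [rho_mul, B4_fix (hx s hs), pow_smul_eig hl, map_smul, h0, smul_zero]
  · refine Or.inr ⟨i, ?_⟩
    rw [mul_assoc, rho_mul, B4_fix (hx s hs), rho_mul, rho_mul, pow_smul_eig hl, smul_smul',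
      hv s' hs', smul_smul', map_smul, smul_eq_mul]

theorem R1.dep [IsAlgClosed F] [Fact p.Prime] [CharP F p] (hρ : Function.Injective ρ) (ha : Abs ρ)
    {x y : V4 F} (hx : ∀ s ∈ S, ρ s • x = x) (hy : ∀ s ∈ S, ρ s • y = y) (hx0 : x ≠ 0) :
    ∃ c : F, y = c • x := by
  let P : Submodule F (V4 F) :=
    { carrier := {u | ∀ z : V4 F, (∀ s ∈ S, ρ s • z = z) → B4 z u = 0}
      add_mem' := fun h1 h2 z hz => by rw [map_add, h1 z hz, h2 z hz, add_zero]
      zero_mem' := fun z _ => map_zero _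
      smul_mem' := fun c u h1 z hz => by rw [map_smul, h1 z hz, smul_zero] }
  let C : Submodule F (V4 F) :=
    { carrier := {u | ∀ s ∈ S, ρ s • u = u}
      add_mem' := fun h1 h2 s hs => by rw [smul_add', h1 s hs, h2 s hs]
      zero_mem' := fun s _ => smul_zero' _
      smul_mem' := fun c u h1 s hs => by rw [smul_smul', h1 s hs] }
  obtain ⟨u, hu, hu0, hu1⟩ := exists_fixed (ρ := ρ) h.pg (P := P)
    (fun s hs v hv z hz => by rw [B4_fix (hz s hs), hv z hz]) (fun e => h.ne (eq_bot_iff.2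
      fun s hs => mem_bot.2 (hρ (by
        rw [map_one]
        refine sp_ext fun v => ?_
        have : ρ s • v - v ∈ P := fun z hz => by rw [map_sub, B4_fix (hz s hs), sub_self]
        rw [e, Submodule.mem_bot, sub_eq_zero] at this
        rw [this, one_smul]))))
  have hinv : ∀ v ∈ P ⊓ C, Matrix.toLin' (ρ τ).1 v ∈ P ⊓ C := fun v hv => by
    refine ⟨fun z hz => ?_, fix_of_nrm h.nrm hv.2⟩
    have h1 : τ⁻¹ ∈ normalizer (S : Set G) := inv_mem (mem_normalizer_fintype h.nrm)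
    have h2 := hv.1 _ (fix_of_nrm (fun s hs => (mem_normalizer_iff.1 h1 s).1 hs) hz)
    rwa [← B4_smul (ρ τ), rho_inv] at h2
  have : Nontrivial ↥(P ⊓ C) := ⟨⟨⟨u, hu, hu1⟩, 0, fun e => hu0 (congrArg Subtype.val e)⟩⟩
  obtain ⟨l, hl⟩ := Module.End.exists_eigenvalue ((Matrix.toLin' (ρ τ).1).restrict hinv)
  obtain ⟨v, hv⟩ := hl.exists_hasEigenvector
  have hv0 : (v : V4 F) ≠ 0 := fun e => hv.2 (Subtype.ext e)
  have hv1 : ρ τ • (v : V4 F) = l • (v : V4 F) := congrArg Subtype.val hv.apply_eq_smul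
  have key : ∀ z ∈ C, B4 z (ρ w • (v : V4 F)) = 0 → z = 0 := fun z hz h0 => by
    by_contra hz0
    obtain ⟨g, hg⟩ := ha.exists_B4_ne hz0 hv0
    refine hg (B4_symm_zero ?_)
    rcases h.B4_orbit hz v.2.2 hv1 (v.2.1 z hz) g with e | ⟨i, e⟩
    · exact e
    · rw [e, h0, mul_zero]
  have h1 : B4 x (ρ w • (v : V4 F)) ≠ 0 := fun e => hx0 (key x hx e)
  refine ⟨B4 y (ρ w • (v : V4 F)) / B4 x (ρ w • (v : V4 F)), sub_eq_zero.1 (key _
    (C.sub_mem hy (C.smul_mem _ hx)) ?_)⟩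
  rw [B4_sub_l, B4_smul_l, div_mul_cancel₀ _ h1, sub_self]

end

/-- the fixed space of `S` is a point -/
theorem R1.fix' {p : ℕ} [Fact p.Prime] [CharP F p] {S : Subgroup G} {τ w : G} (h : R1 p S τ w)
    (hρ : Function.Injective ρ) (ha : Abs ρ) :
    ∃ x : V4 F, x ≠ 0 ∧ (∀ s ∈ S, ρ s • x = x) ∧
      ∀ y : V4 F, (∀ s ∈ S, ρ s • y = y) → ∃ c : F, y = c • x := by
  obtain ⟨x, -, hx0, hx⟩ := exists_fixed (ρ := ρ) h.pg (P := ⊤) (fun _ _ _ _ => trivial) top_ne_bot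
  refine ⟨x, hx0, hx, fun y hy => ?_⟩
  let f := algebraMap F (AlgebraicClosure F)
  have hf : ∀ z : V4 F, (∀ s ∈ S, ρ s • z = z) → ∀ s ∈ S, ((bc f).comp ρ) s • (f ∘ z) = f ∘ z :=
    fun z hz s hs => by rw [MonoidHom.comp_apply, bc_smul, hz s hs]
  obtain ⟨i, hi⟩ := Function.ne_iff.1 hx0
  have hi' : f (x i) ≠ 0 := (map_ne_zero f).2 hi
  obtain ⟨c, hc⟩ := h.dep ((bc_injective f).comp hρ) (ha.bc f) (hf x hx) (hf y hy)
    (Function.ne_iff.2 ⟨i, hi'⟩)
  refine ⟨y i / x i, funext fun j => f.injective ?_⟩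
  have h1 : f (y i) = c * f (x i) := congrFun hc i
  have h2 : f (y j) = c * f (x j) := congrFun hc j
  rw [Pi.smul_apply, smul_eq_mul, map_mul, map_div₀, h1, h2, mul_div_cancel_right₀ _ hi']

theorem rat_inv {K : Subfield F} {M : M4 F} (h : Rat K M) (hM : IsUnit M.det) : Rat K M⁻¹ := by
  obtain ⟨M0, rfl⟩ := rat_iff_exists.1 h
  have h0 : IsUnit M0.det := by
    rw [isUnit_iff_ne_zero] at hM ⊢
    intro e
    apply hM
    rw [← RingHom.mapMatrix_apply, ← RingHom.map_det, e, map_zero]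
  have : (M0.map K.subtype)⁻¹ = M0⁻¹.map K.subtype := Matrix.inv_eq_right_inv (by
    rw [← Matrix.map_mul, mul_nonsing_inv _ h0, Matrix.map_one _ (map_zero _) (map_one _)])
  exact this ▸ rat_iff_exists.2 ⟨_, rfl⟩

omit [Finite G] in
theorem gram' {x : V4 F} (hs : Submodule.span F (Set.range fun g => ρ g • x) = ⊤) {K : Subfield F}
    {c : F} (hc : c ≠ 0) (h : ∀ g, c * B4 x (ρ g • x) ∈ K) : RealisableOver K (mats ρ) := by
  obtain ⟨κ, a, -, h1, h2⟩ := exists_linearIndependent' F (fun g => ρ g • x)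
  rw [hs] at h1
  let b := Module.Basis.mk h2 h1.ge
  have := FiniteDimensional.fintypeBasisIndex b
  have hcard : Fintype.card I4 = Fintype.card κ := by
    rw [← Module.finrank_eq_card_basis b, finrank_V4]; simp
  let e := Fintype.equivOfCardEq hcard
  let P : M4 F := Matrix.of fun i j => (ρ (a (e j)) • x) i
  have hP : IsUnit P := Matrix.linearIndependent_cols_iff_isUnit.1 (h2.comp e e.injective)
  have key : ∀ g, Rat K (c • (Pᵀ * (J (Fin 2) F * ((ρ g).1 * P)))) := fun g i j => by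
    have h3 := h ((a (e i))⁻¹ * (g * a (e j)))
    rw [map_mul, map_mul, mul_smul, mul_smul, map_inv, ← B4_inv, spB_apply] at h3
    exact h3
  obtain ⟨Q, hQ⟩ := hP
  have hd : IsUnit (c • (Pᵀ * (J (Fin 2) F * ((ρ 1).1 * P)))).det := by
    have hP' : IsUnit P.det := (isUnit_iff_isUnit_det P).1 ⟨Q, hQ⟩
    rw [det_smul, det_mul, det_mul, det_mul, det_transpose, map_one]
    refine (hc.isUnit.pow _).mul (hP'.mul ((isUnit_det_J _ _).mul (IsUnit.mul ?_ hP')))
    simp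
  refine realisableOver_iff.2 ⟨Q⁻¹, ?_⟩
  rintro _ ⟨g, rfl⟩
  have h4 := (rat_inv (key 1) hd).mul (key g)
  convert h4 using 1
  have := invertibleOfIsUnitDet _ hd
  rw [eq_comm, ← Matrix.mul_right_inj_of_invertible (A := c • (Pᵀ * (J (Fin 2) F * ((ρ 1).1 * P)))),
    ← mul_assoc, mul_nonsing_inv _ hd, one_mul, cj_apply, inv_inv, map_one, ← hQ]
  simp [mul_assoc]

theorem R1.pow_eq' {p : ℕ} [Fact p.Prime] [CharP F p] {S : Subgroup G} {τ w : G} (h : R1 p S τ w)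
    (hρ : Function.Injective ρ) (ha : Abs ρ) (hn : NoSub ρ) {k : ℕ} (hτ : τ ^ (p ^ k - 1) = 1)
    (a : F) : a ^ p ^ k = a := by
  obtain ⟨x, hx0, hx, hu⟩ := h.fix' hρ ha
  obtain ⟨l, hl⟩ := hu _ (fix_of_nrm h.nrm hx)
  have h1 : l ^ (p ^ k - 1) = 1 := by
    have := pow_smul_eig hl (p ^ k - 1)
    rw [hτ, rho_one] at this
    exact smul_left_injective F hx0 (by simpa using this.symm)
  let K := (iterateFrobenius F p k).eqLocusField (RingHom.id F)
  have h2 : l ∈ K := by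
    show l ^ p ^ k = l
    have : p ^ k = p ^ k - 1 + 1 :=
      (Nat.sub_add_cancel (Nat.one_le_pow _ _ (Fact.out : p.Prime).pos)).symm
    rw [this, pow_succ, h1, one_mul]
  have h3 : B4 x (ρ w • x) ≠ 0 := fun e => by
    obtain ⟨g, hg⟩ := ha.exists_B4_ne hx0 hx0
    refine hg (B4_symm_zero ?_)
    rcases h.B4_orbit hx hx hl (B4_alt x) g with e' | ⟨i, e'⟩
    · exact e'
    · rw [e', e, mul_zero]
  have h4 : K = ⊤ := hn.eq_top (gram' (ha.span_orbit hx0) (inv_ne_zero h3) fun g => by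
    rcases h.B4_orbit hx hx hl (B4_alt x) g with e' | ⟨i, e'⟩
    · rw [e', mul_zero]; exact zero_mem _
    · rw [e', mul_comm, mul_inv_cancel_right₀ h3]; exact pow_mem h2 i)
  have h5 : a ∈ K := h4 ▸ Subfield.mem_top a
  exact h5

/-- a flag `⟨x⟩ < ⟨x, e⟩ < x^⊥` for the unipotent group `S` with `C_V(S) = ⟨x⟩` -/
structure Flag (ρ : G →* Sp4 F) (S : Subgroup G) (x e f d : V4 F) : Prop where
  fx : ∀ s ∈ S, ρ s • x = x
  uniq : ∀ y, (∀ s ∈ S, ρ s • y = y) → ∃ c : F, y = c • x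
  hf : B4 f x = 1
  ex : B4 e x = 0
  ind : ∀ c : F, c • x ≠ e
  step : ∀ s ∈ S, ∃ a : F, ρ s • e = e + a • x
  dx : B4 d x = 0
  de : B4 d e = 1
  lag : ∀ v, B4 v x = 0 → B4 v e = 0 → ∃ a b : F, v = a • e + b • x

theorem lag_of_ind {x e : V4 F} (hx : x ≠ 0) (ex : B4 e x = 0) (ind : ∀ c : F, c • x ≠ e)
    (v : V4 F) (h1 : B4 v x = 0) (h2 : B4 v e = 0) : ∃ a b : F, v = a • e + b • x := by
  have hli : LinearIndependent F ![x, e] := (LinearIndependent.pair_iff' hx).2 ind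
  have h3 : Module.finrank F (Submodule.span F {x, e}) = 2 := by
    have := finrank_span_eq_card hli
    rwa [Matrix.range_cons, Matrix.range_cons, Matrix.range_empty, Set.union_empty,
      Set.singleton_union] at this
  have hm : ∀ u : V4 F, B4 u x = 0 → B4 u e = 0 → u ∈ B4.orthogonal (Submodule.span F {x, e}) := by
    intro u a1 a2 n hn
    obtain ⟨a, b, rfl⟩ := Submodule.mem_span_pair.1 hn
    simp [B4_symm_zero a1, B4_symm_zero a2]
  have h4 : Submodule.span F {x, e} = B4.orthogonal (Submodule.span F {x, e}) := by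
    refine Submodule.eq_of_le_of_finrank_eq (Submodule.span_le.2 ?_) ?_
    · rintro _ (rfl | rfl)
      exacts [hm _ (B4_alt _) (B4_symm_zero ex), hm _ ex (B4_alt _)]
    · rw [LinearMap.BilinForm.finrank_orthogonal (spB_nondegenerate _ _), h3, finrank_V4]
  obtain ⟨a, b, hab⟩ := Submodule.mem_span_pair.1 (h4.ge (hm v h1 h2))
  exact ⟨b, a, by rw [← hab, add_comm]⟩

theorem R1.flag {p : ℕ} [Fact p.Prime] [CharP F p] {S : Subgroup G} {τ w : G} (h : R1 p S τ w)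
    (hρ : Function.Injective ρ) (ha : Abs ρ) : ∃ x e f d, Flag ρ S x e f d := by
  obtain ⟨x, hx0, hx, hu⟩ := h.fix' hρ ha
  obtain ⟨f, hf⟩ := exists_spB_eq_one hx0
  obtain ⟨e, h1, h2, h3⟩ := exists_fixed_mod (ρ := ρ) h.pg (P := LinearMap.ker (B4.flip x))
    (Q := Submodule.span F {x}) (fun s hs v hv => (B4_fix' (hx s hs) v).trans hv)
    (fun s hs v hv => by
      obtain ⟨a, rfl⟩ := Submodule.mem_span_singleton.1 hv
      rwa [smul_smul', hx s hs])
    (fun hle => by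
      have a1 := Submodule.finrank_mono hle
      have a2 := (B4.flip x).finrank_range_add_finrank_ker
      have a3 := (LinearMap.range (B4.flip x)).finrank_le
      rw [finrank_span_singleton hx0] at a1
      rw [finrank_V4] at a2
      rw [Module.finrank_self] at a3
      omega)
  have ind : ∀ c : F, c • x ≠ e := fun c hc => h2 (Submodule.mem_span_singleton.2 ⟨c, hc⟩)
  obtain ⟨d, hd, hd'⟩ := (spPQ (Fin 2) F).exists_dual_vec (spPQ_nondeg _ _) _ h2
  refine ⟨x, e, f, d, hx, hu, hf, h1, ind, fun s hs => ?_,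
    hd' x (Submodule.mem_span_singleton_self x), hd, lag_of_ind hx0 h1 ind⟩
  obtain ⟨a, ha'⟩ := Submodule.mem_span_singleton.1 (h3 s hs)
  exact ⟨a, by rw [ha', add_sub_cancel]⟩

namespace Flag

variable {S : Subgroup G} {x e f d : V4 F} (h : Flag ρ S x e f d)
include h

theorem ne_zero : x ≠ 0 := fun e => by simpa [e] using h.hf

theorem mid {s : G} (hs : s ∈ S) {v : V4 F} (hv : B4 v x = 0) :
    ∃ c b : F, ρ s • v = v + c • e + b • x := by
  obtain ⟨a, ha⟩ := h.step _ (inv_mem hs)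
  obtain ⟨c, b, hcb⟩ := h.lag (ρ s • v - v)
    (by rw [map_sub, LinearMap.sub_apply, B4_fix' (h.fx s hs), sub_self])
    (by rw [map_sub, LinearMap.sub_apply, B4_inv, ← map_inv, ha, map_add, map_smul, hv]; simp)
  exact ⟨c, b, by rw [add_assoc, ← hcb, add_sub_cancel]⟩

theorem exists_a : ∃ t ∈ S, ∃ a : F, a ≠ 0 ∧ ρ t • e = e + a • x := by
  by_contra hn
  push Not at hn
  obtain ⟨c, hc⟩ := h.uniq e fun s hs => by
    obtain ⟨a, ha⟩ := h.step s hs
    by_cases h0 : a = 0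
    · rw [ha, h0, zero_smul, add_zero]
    · exact absurd ha (hn s hs a h0)
  exact h.ind c hc.symm

theorem nx {s : G} (hs : s ∈ S) : B4 (ρ s • f - f) x = 0 := by
  rw [map_sub, LinearMap.sub_apply, B4_fix' (h.fx s hs), sub_self]

theorem coef {s : G} (hs : s ∈ S) {v : V4 F} {b : F} (hv : ρ s • v = v + b • x) :
    b = -B4 (ρ s • f - f) v := by
  have h1 := B4_smul (ρ s) f v
  rw [hv, B4_add_r, B4_smul_r, B4_fix' (h.fx s hs), h.hf] at h1
  rw [B4_sub_l]
  linear_combination h1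

theorem qx_false (hq : ∀ s ∈ S, ∀ v, B4 v x = 0 → ∃ b : F, ρ s • v = v + b • x)
    (h0 : ∀ s ∈ S, ∀ t ∈ S, B4 (ρ s • f - f) (ρ t • f - f) = 0) : False := by
  obtain ⟨t, ht, a, ha0, ha⟩ := h.exists_a
  obtain ⟨c, hc⟩ := h.uniq (ρ t • f - f) fun s hs => by
    obtain ⟨b, hb⟩ := hq s hs _ (h.nx ht)
    rw [hb, h.coef hs hb, h0 s hs t ht, neg_zero, zero_smul, add_zero]
  apply ha0
  rw [h.coef ht ha, hc, map_smul, LinearMap.smul_apply, B4_symm_zero h.ex, smul_zero, neg_zero]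

/-- the action of an element that is trivial on `x^⊥ / x` -/
theorem formula {s : G} (hs : s ∈ S) (hq : ∀ v, B4 v x = 0 → ∃ b : F, ρ s • v = v + b • x)
    (v : V4 F) : ρ s • v = v + B4 v x • (ρ s • f - f) +
      (B4 v x * B4 (ρ s • f) f - B4 (ρ s • f - f) v) • x := by
  obtain ⟨b, hb⟩ := hq (v - B4 v x • f) (by simp [h.hf])
  have h1 := h.coef hs hb
  rw [smul_sub', smul_smul'] at hb
  rw [B4_sub_r, B4_smul_r, B4_sub_l _ _ f, B4_alt, sub_zero, neg_sub] at h1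
  rw [← h1]
  generalize ρ s • v = v', ρ s • f = f' at hb ⊢
  linear_combination (norm := module) hb

theorem qx_of_two [CharP F 2] (h2 : ∀ s ∈ S, s * s = 1) {s : G} (hs : s ∈ S) (v : V4 F)
    (hv : B4 v x = 0) : ∃ b : F, ρ s • v = v + b • x := by
  have two : (2 : F) = 0 := CharTwo.two_eq_zero
  obtain ⟨t, ht, a, ha0, ha⟩ := h.exists_a
  obtain ⟨c, b, hcb⟩ := h.mid hs hv
  obtain ⟨c', b', hcb'⟩ := h.mid ht hv
  obtain ⟨a', ha'⟩ := h.step s hs
  have hst : s * t = t * s := by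
    rw [← inv_eq_of_mul_eq_one_right (h2 _ (mul_mem hs ht)), _root_.mul_inv_rev,
      inv_eq_of_mul_eq_one_right (h2 _ hs), inv_eq_of_mul_eq_one_right (h2 _ ht)]
  have e1 : ρ s • ρ s • v = v := by rw [← rho_mul, h2 s hs, rho_one]
  have e2 : ρ s • ρ t • v = ρ t • ρ s • v := by rw [← rho_mul, hst, rho_mul]
  rw [hcb, smul_add', smul_add', smul_smul', smul_smul', hcb, ha', h.fx s hs] at e1
  rw [hcb, hcb', smul_add', smul_add', smul_add', smul_add', smul_smul', smul_smul', smul_smul',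
    smul_smul', hcb, hcb', ha, ha', h.fx s hs, h.fx t ht] at e2
  have e3 : (c * a') • x = 0 := by
    linear_combination (norm := module) e1 - two • (c • e + b • x)
  have e4 : (c * a - c' * a') • x = 0 := by linear_combination (norm := module) -e2
  rw [smul_eq_zero, or_iff_left h.ne_zero] at e3 e4
  have e5 : c = 0 := by
    rcases mul_eq_zero.1 e3 with e | e
    · exact e
    · rw [e, mul_zero, sub_zero] at e4
      exact (mul_eq_zero.1 e4).resolve_right ha0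
  exact ⟨b, by rw [hcb, e5, zero_smul, add_zero]⟩

end Flag

end CfsgLib.Dim4
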