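import Mathlib
import Cfsg.Agent.Lib.Dim4.Defs
import Cfsg.Agent.Lib.Dim4.R1a
import Cfsg.Agent.Lib.Symp.Order
import Cfsg.Agent.Lib.CIT.AppModel
import Cfsg.Agent.Lib.SL2.Basic

/-!
DIM4, package R1: rank one groups in the defining characteristic.  See `plans/DIM4.md`.
-/

set_option autoImplicit false
set_option linter.unusedSectionVars false
set_option linter.unusedVariables false

namespace CfsgLib.Dim4

open Matrix Cfsg Cfsg.Geo CfsgLib.Asch CfsgLib.Forms CfsgLib.Symp Subgroup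
open scoped MatrixGroups commutatorElement

variable {G F : Type*} [Group G] [Finite G] [Field F] {ρ : G →* Sp4 F}

/-- the fixed space of `S` is a point -/
theorem R1.fix [Finite F] {p : ℕ} [Fact p.Prime] [CharP F p] {S : Subgroup G} {τ w : G} (h : R1 p S τ w)
    (hρ : Function.Injective ρ) (ha : Abs ρ) :
    ∃ x : V4 F, x ≠ 0 ∧ (∀ s ∈ S, ρ s • x = x) ∧
      ∀ y : V4 F, (∀ s ∈ S, ρ s • y = y) → ∃ c : F, y = c • x :=
  h.fix' hρ ha

omit [Finite G] in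
theorem gram (ha : Abs ρ) {x : V4 F} (hx : x ≠ 0) {K : Subfield F} {c : F} (hc : c ≠ 0)
    (h : ∀ g, c * B4 x (ρ g • x) ∈ K) : RealisableOver K (mats ρ) :=
  gram' (ha.span_orbit hx) hc h

theorem R1.pow_eq [Finite F] {p : ℕ} [Fact p.Prime] [CharP F p] {S : Subgroup G} {τ w : G} (h : R1 p S τ w)
    (hρ : Function.Injective ρ) (ha : Abs ρ) (hn : NoSub ρ) {k : ℕ} (hτ : τ ^ (p ^ k - 1) = 1)
    (a : F) : a ^ p ^ k = a :=
  h.pow_eq' hρ ha hn hτ a

/-! ### quadratic forms in characteristic two -/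

/-- a quadratic form with polar form `B4` -/
def IsQ (Q : V4 F → F) : Prop :=
  (∀ (c : F) v, Q (c • v) = c ^ 2 * Q v) ∧ ∀ u v, Q (u + v) = Q u + Q v + B4 u v

theorem exists_isQ [CharP F 2] {f x : V4 F} (hf : B4 f x = 1) : ∃ Q : V4 F → F, IsQ Q ∧ Q x = 0 := by
  have two : (2 : F) = 0 := CharTwo.two_eq_zero
  refine ⟨fun v => v (.inl 0) * v (.inr 0) + v (.inl 1) * v (.inr 1) +
    (x (.inl 0) * x (.inr 0) + x (.inl 1) * x (.inr 1)) * B4 f v ^ 2, ⟨fun c v => ?_, fun u v => ?_⟩, ?_⟩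
  · simp only [B4_smul_r, Pi.smul_apply, smul_eq_mul]; ring
  · simp only [B4_add_r, Pi.add_apply, B4_apply u v]
    linear_combination (u (.inl 0) * v (.inr 0) + u (.inl 1) * v (.inr 1) +
      (x (.inl 0) * x (.inr 0) + x (.inl 1) * x (.inr 1)) * B4 f u * B4 f v) * two
  · simp only [hf]
    linear_combination (x (.inl 0) * x (.inr 0) + x (.inl 1) * x (.inr 1)) * two

theorem IsQ.avg [CharP F 2] (H : Subgroup G) (hH : Odd H.index) {Q : V4 F → F} (hQ : IsQ Q)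
    (hi : ∀ h ∈ H, ∀ v, Q (ρ h • v) = Q v) :
    ∃ Q' : V4 F → F, IsQ Q' ∧ (∀ g v, Q' (ρ g • v) = Q' v) ∧
      ∀ v, (∀ g, Q (ρ g • v) = 0) → Q' v = 0 := by
  have := Fintype.ofFinite (G ⧸ H)
  refine ⟨fun v => ∑ q : G ⧸ H, Q (ρ q.out⁻¹ • v), ⟨fun c v => ?_, fun u v => ?_⟩, fun g v => ?_,
    fun v hv => Finset.sum_eq_zero fun q _ => hv _⟩
  · simp only [smul_smul', hQ.1, Finset.mul_sum]
  · have h1 : (Fintype.card (G ⧸ H) : F) = 1 := by
      rw [← Nat.card_eq_fintype_card]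
      obtain ⟨k, hk⟩ := hH
      rw [show Nat.card (G ⧸ H) = 2 * k + 1 from hk]
      simp [CharTwo.two_eq_zero]
    simp only [smul_add', hQ.2, B4_smul, Finset.sum_add_distrib, Finset.sum_const,
      Finset.card_univ, nsmul_eq_mul, h1, one_mul]
  · refine (Fintype.sum_equiv (MulAction.toPerm g) _ _ fun q => ?_).symm
    obtain ⟨h, hh⟩ := QuotientGroup.mk_out_eq_mul H (g * q.out)
    rw [MulAction.toPerm_apply, ← MulAction.Quotient.mk_smul_out, smul_eq_mul, hh, ← rho_mul,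
      show (g * q.out * h)⁻¹ * g = (h : G)⁻¹ * q.out⁻¹ by group, rho_mul, hi _ (inv_mem h.2)]

theorem R1.quad [CharP F 2] {S : Subgroup G} {τ w : G} (h : R1 2 S τ w)
    (hρ : Function.Injective ρ) (ha : Abs ρ) (h2 : ∀ s ∈ S, s * s = 1) (hodd : Odd (orderOf τ))
    (hidx : Odd S.index) {s₀ : G} (hs₀ : s₀ ∈ S)
    (htr : ∀ s ∈ S, s = 1 ∨ ∃ g ∈ zpowers τ, s = g * s₀ * g⁻¹) : HasQuad ρ := by
  have two : (2 : F) = 0 := CharTwo.two_eq_zero
  obtain ⟨x, e, f, d, hF⟩ := h.flag hρ ha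
  have hq := fun s hs => hF.qx_of_two h2 (s := s) hs
  obtain ⟨l, hl⟩ := hF.uniq _ (fix_of_nrm h.nrm hF.fx)
  obtain ⟨Q₀, hQ₀, hx₀⟩ := exists_isQ hF.hf
  obtain ⟨Q, hQ, hinv, hx⟩ := hQ₀.avg (ρ := ρ.comp (zpowers τ).subtype) ⊥
    (by rwa [index_bot, Nat.card_zpowers]) (fun g hg v => by rw [mem_bot.1 hg, rho_one])
  replace hx := hx x fun g => by
    obtain ⟨i, hi⟩ := mem_powers_iff_mem_zpowers.2 g.2
    rw [MonoidHom.comp_apply, subtype_apply, ← hi, pow_smul_eig hl, hQ₀.1, hx₀, mul_zero]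
  replace hinv : ∀ g ∈ zpowers τ, ∀ v, Q (ρ g • v) = Q v := fun g hg v => hinv ⟨g, hg⟩ v
  -- the basic formulas
  have key : ∀ s ∈ S, ∀ v, Q (ρ s • v) + Q v =
      B4 v x ^ 2 * (Q (ρ s • f - f) + B4 (ρ s • f) f) ∧
      B4 (ρ s • v) v = B4 v x ^ 2 * B4 (ρ s • f) f := by
    intro s hs v
    have h1 := hF.formula hs (hq s hs) v
    have h3 := hF.nx hs
    generalize ρ s • f - f = n at h1 h3 ⊢
    rw [h1]
    simp only [hQ.2, hQ.1, hx, B4_add_l, B4_smul_l, B4_smul_r, h3, B4_alt, B4_swap x v,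
      B4_swap v n]
    constructor
    · linear_combination (Q v - B4 v x * B4 n v) * two
    · linear_combination (B4 v x * B4 n v - B4 v x ^ 2 * B4 (ρ s • f) f) * two
  have key1 : ∀ s ∈ S, ∀ v, Q (ρ s • v) + Q v = B4 v x ^ 2 * (Q (ρ s • f) + Q f) := fun s hs v => by
    rw [(key s hs v).1, (key s hs f).1, hF.hf, one_pow, one_mul]
  have hm : ∀ s ∈ S, ∃ m : F, Q (ρ s • f) + Q f = m * (Q (ρ s₀ • f) + Q f) ∧
      B4 (ρ s • f) f = m * B4 (ρ s₀ • f) f := by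
    intro s hs
    rcases htr s hs with rfl | ⟨g, hg, rfl⟩
    · refine ⟨0, ?_, ?_⟩
      · rw [rho_one]; linear_combination Q f * two
      · rw [rho_one, B4_alt, zero_mul]
    · refine ⟨B4 (ρ g⁻¹ • f) x ^ 2, ?_, ?_⟩
      · rw [← key1 _ hs₀, rho_mul, rho_mul, hinv g hg, hinv _ (inv_mem hg)]
      · rw [← (key _ hs₀ _).2, rho_mul, rho_mul, B4_inv, map_inv]
  by_cases h0 : Q (ρ s₀ • f) + Q f = 0
  · obtain ⟨Q', h1, h3, -⟩ := hQ.avg (ρ := ρ) S hidx fun s hs v => by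
      obtain ⟨m, hm1, -⟩ := hm s hs
      have := key1 s hs v
      rw [hm1, h0, mul_zero, mul_zero] at this
      linear_combination this - Q v * two
    exact ⟨Q', h1.1, h1.2, h3⟩
  refine (hF.qx_false hq fun s hs t ht => ?_).elim
  obtain ⟨a, a1, a2⟩ := hm s hs
  obtain ⟨b, b1, b2⟩ := hm t ht
  obtain ⟨c, c1, c2⟩ := hm _ (mul_mem hs ht)
  have e1 := key1 s hs (ρ t • f)
  rw [B4_fix' (hF.fx t ht), hF.hf, ← rho_mul] at e1
  have e2 : c = a + b := by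
    refine mul_right_cancel₀ h0 ?_
    linear_combination a1 + b1 - c1 + e1 - Q (ρ t • f) * two
  have e3 : B4 (ρ (s * t) • f) f = B4 (ρ t • f) (ρ s • f) := by
    rw [← B4_smul (ρ s) (ρ t • f), ← rho_mul, ← rho_mul, h2 s hs, rho_one]
  rw [B4_sub_l, B4_sub_r, B4_sub_r, B4_alt, B4_swap f, B4_swap (ρ s • f) (ρ t • f), ← e3, a2, b2,
    c2, e2]
  linear_combination (-a * B4 (ρ s₀ • f) f) * two

/-! ### `SL₂` -/

section SL2

open CfsgLib.SL2

variable {E : Type*} [Field E]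

/-- the upper unitriangular matrices -/
def UU (E : Type*) [Field E] : Subgroup SL(2, E) where
  carrier := Set.range uu
  mul_mem' := by rintro _ _ ⟨a, rfl⟩ ⟨b, rfl⟩; exact ⟨_, uu_add a b⟩
  one_mem' := ⟨0, uu_zero⟩
  inv_mem' := by rintro _ ⟨a, rfl⟩; exact ⟨_, uu_neg a⟩

theorem uu_mem (a : E) : uu a ∈ UU E := ⟨a, rfl⟩

theorem card_UU : Nat.card (UU E) = Nat.card E :=
  (Nat.card_congr (Equiv.ofInjective _ uu_injective)).symm

theorem uu_pow (a : E) (n : ℕ) : uu a ^ n = uu (n * a) := by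
  induction n with
  | zero => simp [uu_zero]
  | succ n ih => rw [pow_succ, ih, ← uu_add]; congr 1; push_cast; ring

theorem dg_conj (t : Eˣ) (b : E) : dg t * uu b * (dg t)⁻¹ = uu ((t : E) ^ 2 * b) := by
  rw [mul_inv_eq_iff_eq_mul]
  apply ext2 <;> simp [mul_ap]
  field_simp

theorem exists_uu_dg {g : SL(2, E)} (h : g 1 0 = 0) : ∃ b a, g = uu b * dg a := by
  have hd := det_eq g
  rw [h, mul_zero, sub_zero] at hd
  have h0 : g 0 0 ≠ 0 := left_ne_zero_of_mul_eq_one hd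
  refine ⟨g 0 1 * g 0 0, Units.mk0 _ h0, ext2 ?_ ?_ ?_ ?_⟩ <;> simp [mul_ap, h, h0]
  exact eq_inv_of_mul_eq_one_right hd

theorem sl2_R1 [Finite E] (p : ℕ) [Fact p.Prime] [CharP E p] :
    ∃ τ : SL(2, E), R1 p (UU E) τ ww ∧ τ ^ (Nat.card E - 1) = 1 ∧ ∀ t, dg t ∈ zpowers τ := by
  obtain ⟨g, hg⟩ := IsCyclic.exists_monoid_generator (α := Eˣ)
  have h1 : ∀ t : Eˣ, ∃ i : ℕ, dg t = dg g ^ i := fun t => by
    obtain ⟨i, rfl⟩ := hg t
    exact ⟨i, map_pow dgHom g i⟩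
  refine ⟨dg g, ⟨?_, ?_, ?_, fun x => ?_⟩, ?_, fun t => ?_⟩
  · rintro ⟨_, a, rfl⟩
    exact ⟨1, Subtype.ext (by simp [uu_pow, uu_zero])⟩
  · intro e
    have := mem_bot.1 (e ▸ uu_mem (1 : E))
    exact one_ne_zero (uu_injective (this.trans uu_zero.symm))
  · rintro _ ⟨a, rfl⟩
    exact ⟨_, (dg_conj g a).symm⟩
  · by_cases h : x 1 0 = 0
    · obtain ⟨b, a, rfl⟩ := exists_uu_dg h
      obtain ⟨i, hi⟩ := h1 a
      exact Or.inl ⟨_, uu_mem b, i, by rw [hi]⟩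
    · obtain ⟨b, a, e⟩ := exists_uu_dg (g := (uu (x 0 0 / x 1 0) * ww)⁻¹ * x)
        (by simp [mul_ap, inv_00, inv_01, inv_10, inv_11, h])
      obtain ⟨i, hi⟩ := h1 a
      exact Or.inr ⟨_, uu_mem (x 0 0 / x 1 0), _, uu_mem b, i, by rw [← hi, ← e, mul_inv_cancel_left]⟩
  · rw [← dgHom_apply, ← map_pow, ← Nat.card_units, pow_card_eq_one', map_one]
  · obtain ⟨i, hi⟩ := h1 t
    exact hi ▸ npow_mem_zpowers _ i

end SL2

theorem l2even_quad [Finite F] [CharP F 2] (h : CIT.IsoL2Even G) (hρ : Function.Injective ρ)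
    (ha : Abs ρ) : HasQuad ρ := by
  obtain ⟨E, _, _, _, -, ⟨e⟩⟩ := h
  have two : (2 : E) = 0 := CharTwo.two_eq_zero
  let φ : SL(2, E) →* G := e.symm.toMonoidHom.comp (QuotientGroup.mk' (center SL(2, E)))
  have hs : Function.Surjective φ := e.symm.surjective.comp (QuotientGroup.mk'_surjective _)
  have hi : Function.Injective φ := e.symm.injective.comp (by
    rw [← MonoidHom.ker_eq_bot_iff, QuotientGroup.ker_mk', SL2.center_eq_bot_of_two two])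
  obtain ⟨τ, h1, h2, h3⟩ := sl2_R1 (E := E) 2
  obtain ⟨n, -, hn⟩ := FiniteField.card E 2
  have hev : Even (Fintype.card E) := by rw [hn]; exact (Nat.even_pow' n.ne_zero).2 even_two
  have hpos : 0 < Fintype.card E := Fintype.card_pos
  obtain ⟨Q, a1, a2, a3⟩ := h1.quad (ρ := ρ.comp φ) (hρ.comp hi) (ha.comp hs)
    (by rintro _ ⟨a, rfl⟩; rw [← SL2.uu_add, CharTwo.add_self_eq_zero, SL2.uu_zero])
    ((Nat.Even.sub_odd hpos hev odd_one).of_dvd_nat (orderOf_dvd_of_pow_eq_one (by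
      rwa [Nat.card_eq_fintype_card] at h2)))
    (by
      have := (UU E).card_mul_index
      rw [card_UU, SL2.card_SL2, Nat.card_eq_fintype_card] at this
      rw [Nat.eq_of_mul_eq_mul_left hpos this]
      exact Nat.Even.sub_odd (Nat.one_le_pow _ _ hpos) (hev.pow_of_ne_zero two_ne_zero) odd_one)
    (uu_mem 1)
    (by
      rintro _ ⟨a, rfl⟩
      obtain ⟨r, rfl⟩ := FiniteField.isSquare_of_char_two (ringChar.eq E 2) a
      by_cases h0 : r = 0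
      · left; rw [h0, mul_zero, SL2.uu_zero]
      · exact Or.inr ⟨_, h3 (Units.mk0 r h0), by rw [dg_conj, Units.val_mk0, mul_one, pow_two]⟩)
  exact ⟨Q, a1, a2, fun g v => by obtain ⟨g, rfl⟩ := hs g; exact a3 g v⟩

theorem card_sub_one_dvd [Fintype F] {n : ℕ} (hn : n ≠ 0) (h : ∀ a : F, a ^ n = a) :
    Fintype.card F - 1 ∣ n - 1 := by
  rw [← FiniteField.forall_pow_eq_one_iff]
  intro x
  refine mul_right_cancel (b := x) (Units.ext ?_)
  rw [← pow_succ, Nat.sub_add_cancel (Nat.pos_of_ne_zero hn), one_mul, Units.val_pow_eq_pow_val, h]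

theorem sz_field [Fintype F] [CharP F 2] (h : Lie.IsoSuzuki G) (hρ : Function.Injective ρ)
    (ha : Abs ρ) (hn : NoSub ρ) :
    ∃ m : ℕ, 1 ≤ m ∧ Fintype.card F = 2 ^ (2 * m + 1) ∧ Nonempty (G ≃* Lie.Sz F (2 ^ (m + 1))) := by
  obtain ⟨E, _, _, m, hm, hE, ⟨e⟩⟩ := h
  let φ := (Sz.lieSzEquiv hE).trans e.symm
  set T := Sz.tits hE
  have := Finite.of_injective φ φ.injective
  obtain ⟨g, hg⟩ := IsCyclic.exists_monoid_generator (α := Eˣ)
  have h1 : ∀ t : Eˣ, ∃ i : ℕ, T.M t = T.M g ^ i := fun t => by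
    obtain ⟨i, rfl⟩ := hg t
    exact ⟨i, (T.M_pow g i).symm⟩
  have hR : R1 2 T.U (T.M g) T.T := by
    refine ⟨T.isPGroup_U, fun e => ?_, ?_, fun x => ?_⟩
    · have : T.S 0 1 ∈ T.U := ⟨0, 1, rfl⟩
      exact one_ne_zero (T.S_eq_one.1 (mem_bot.1 (e ▸ this))).2
    · rintro _ ⟨a, b, rfl⟩
      exact ⟨_, _, T.M_conj_S g a b⟩
    · rcases T.bruhat x with ⟨a, b, k, rfl⟩ | ⟨a, b, c, d, k, rfl⟩ <;> obtain ⟨i, hi⟩ := h1 k
      · exact Or.inl ⟨_, ⟨a, b, rfl⟩, i, by rw [hi]⟩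
      · exact Or.inr ⟨_, ⟨a, b, rfl⟩, _, ⟨c, d, rfl⟩, i, by rw [hi]⟩
  have h2 := card_sub_one_dvd (by positivity) (hR.pow_eq' (ρ := ρ.comp φ.toMonoidHom)
    (hρ.comp φ.injective) (ha.comp φ.surjective) (hn.comp φ.surjective) (k := 2 * m + 1) (by
      rw [T.M_pow, ← hE, ← Nat.card_eq_fintype_card, ← Nat.card_units, pow_card_eq_one', T.M_one]))
  obtain ⟨⟨k, hk0⟩, -, hk⟩ := FiniteField.card F 2
  simp only [PNat.mk_coe] at hk
  have h3 : k ∣ 2 * m + 1 := by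
    rw [hk, ← Nat.gcd_eq_left_iff_dvd, Nat.pow_sub_one_gcd_pow_sub_one] at h2
    have h4 : 2 ^ Nat.gcd k (2 * m + 1) = 2 ^ k := by
      have := Nat.one_le_two_pow (n := k)
      have := Nat.one_le_two_pow (n := Nat.gcd k (2 * m + 1))
      omega
    exact Nat.gcd_eq_left_iff_dvd.1 (Nat.pow_right_injective le_rfl h4)
  have h4 : 2 ^ ((2 * m + 1) * 2) ∣ 2 ^ (k * 4) := by
    have a1 := (card_subgroup_dvd_card T.U).trans (card_dvd_of_injective (ρ.comp φ.toMonoidHom)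
      (hρ.comp φ.injective))
    rw [T.card_U, Nat.card_eq_fintype_card, hE, card_sp, hk, ← pow_mul, ← pow_mul] at a1
    refine Nat.Coprime.dvd_of_dvd_mul_right (Nat.Coprime.pow_left _ ?_) a1
    refine Nat.Coprime.prod_right fun i _ => Nat.coprime_two_left.2 ?_
    exact Nat.Even.sub_odd (Nat.one_le_pow _ _ (by positivity))
      (((Nat.even_pow' hk0.ne').2 even_two).pow_of_ne_zero (by omega)) odd_one
  rw [Nat.pow_dvd_pow_iff_le_right one_lt_two] at h4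
  have h5 : k = 2 * m + 1 := by
    obtain ⟨c, hc⟩ := h3
    have : c ≤ 2 := by
      by_contra hc2
      have : k * 3 ≤ k * c := Nat.mul_le_mul_left k (by omega)
      omega
    interval_cases c <;> omega
  rw [h5] at hk
  obtain ⟨e'⟩ := CIT.App.nonempty_sz_equiv hE hk
  exact ⟨m, hm, hk, ⟨e.trans e'⟩⟩

namespace Flag

variable {S : Subgroup G} {x e f d : V4 F} (h : Flag ρ S x e f d)
include h

theorem act_d {s : G} (hs : s ∈ S) : ∃ b : F, ρ s • d = d + B4 d (ρ s • d) • e + b • x := by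
  obtain ⟨c, b, hcb⟩ := h.mid hs h.dx
  refine ⟨b, ?_⟩
  have : B4 d (ρ s • d) = c := by
    rw [hcb, B4_add_r, B4_add_r, B4_smul_r, B4_smul_r, B4_alt, h.de, h.dx]; ring
  rw [this, hcb]

theorem c_mul {s t : G} (hs : s ∈ S) (ht : t ∈ S) :
    B4 d (ρ (s * t) • d) = B4 d (ρ s • d) + B4 d (ρ t • d) := by
  obtain ⟨b, hb⟩ := h.act_d ht
  obtain ⟨a, ha⟩ := h.step s hs
  generalize B4 d (ρ t • d) = c at hb ⊢
  rw [rho_mul, hb, smul_add', smul_add', smul_smul', smul_smul', ha, h.fx s hs]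
  simp only [B4_add_r, B4_smul_r, h.de, h.dx]
  ring

theorem decomp {v : V4 F} (hv : B4 v x = 0) : ∃ a b : F, v = B4 v e • d + a • e + b • x := by
  obtain ⟨a, b, hab⟩ := h.lag (v - B4 v e • d) (by rw [B4_sub_l, B4_smul_l, hv, h.dx]; ring)
    (by rw [B4_sub_l, B4_smul_l, h.de]; ring)
  exact ⟨a, b, by rw [add_assoc, ← hab, add_sub_cancel]⟩

theorem c_eq_zero {s : G} (hs : s ∈ S) :
    B4 d (ρ s • d) = 0 ↔ ∀ v, B4 v x = 0 → ∃ b : F, ρ s • v = v + b • x := by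
  refine ⟨fun h0 v hv => ?_, fun hq => ?_⟩
  · obtain ⟨b, hb⟩ := h.act_d hs
    obtain ⟨a, ha⟩ := h.step s hs
    obtain ⟨a', b', e1⟩ := h.decomp hv
    generalize B4 v e = m at e1
    refine ⟨m * b + a' * a, ?_⟩
    rw [e1, smul_add', smul_add', smul_smul', smul_smul', smul_smul', hb, h0, ha, h.fx s hs]
    module
  · obtain ⟨b, hb⟩ := hq d h.dx
    rw [hb, B4_add_r, B4_smul_r, B4_alt, h.dx]; ring

theorem c_conj {s g : G} (hs : s ∈ S) (hg : ∀ s ∈ S, g * s * g⁻¹ ∈ S) (h0 : B4 d (ρ s • d) = 0) :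
    B4 d (ρ (g * s * g⁻¹) • d) = 0 := by
  obtain ⟨l, hl⟩ := h.uniq _ (fix_of_nrm hg h.fx)
  obtain ⟨b, hb⟩ := (h.c_eq_zero hs).1 h0 (ρ g⁻¹ • d)
    (by rw [B4_inv, map_inv, inv_inv, hl, B4_smul_r, h.dx, mul_zero])
  rw [rho_mul, rho_mul, hb, smul_add', smul_smul', rho_inv, hl, B4_add_r, B4_smul_r, B4_smul_r,
    B4_alt, h.dx]
  ring

theorem exists_c (h2 : (2 : F) ≠ 0) (hc : ∀ s ∈ S, ∀ t ∈ S, s * t = t * s) :
    ∃ s ∈ S, B4 d (ρ s • d) ≠ 0 := by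
  by_contra hn
  push Not at hn
  have hq := fun s hs => (h.c_eq_zero (s := s) hs).1 (hn s hs)
  refine h.qx_false hq fun s hs t ht => ?_
  obtain ⟨a, ha⟩ := hq s hs _ (h.nx ht)
  obtain ⟨b, hb⟩ := hq t ht _ (h.nx hs)
  have a1 := h.coef hs ha
  have b1 := h.coef ht hb
  rw [smul_sub', ← rho_mul] at ha hb
  rw [hc t ht s hs] at hb
  have e1 : (a - b) • x = 0 := by
    generalize ρ (s * t) • f = u, ρ s • f = v, ρ t • f = w at ha hb
    linear_combination (norm := module) hb - ha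
  rw [smul_eq_zero, or_iff_left h.ne_zero, a1, b1, B4_swap (ρ t • f - f)] at e1
  refine mul_left_cancel₀ h2 ?_
  linear_combination -e1

theorem three (h3 : (3 : F) = 0) {s : G} (hs : s ∈ S) (hs3 : s ^ 3 = 1) (hc : B4 d (ρ s • d) ≠ 0) :
    ρ s • e = e := by
  obtain ⟨b, hb⟩ := h.act_d hs
  obtain ⟨a, ha⟩ := h.step s hs
  obtain ⟨a', b', e1⟩ := h.decomp (h.nx hs)
  have e2 := h.coef hs ha
  rw [← neg_eq_iff_eq_neg] at e2
  rw [← e2, sub_eq_iff_eq_add] at e1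
  generalize B4 d (ρ s • d) = c at hb hc
  have e3 : ρ s • ρ s • ρ s • f = f := by
    rw [← rho_mul, ← rho_mul, ← pow_three', hs3, rho_one]
  simp only [e1, smul_add', smul_smul', hb, ha, h.fx s hs] at e3
  have e4 : (a * a * c) • x = 0 := by
    linear_combination (norm := module) -e3 +
      h3 • ((-a) • d + (a' - a * c) • e + (b' - a * b + a' * a) • x)
  rw [smul_eq_zero, or_iff_left h.ne_zero, mul_eq_zero, or_iff_left hc, mul_self_eq_zero] at e4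
  rw [ha, e4, zero_smul, add_zero]

end Flag

theorem sl2_field {E : Type*} [Field E] [Fintype E] [Fintype F] {p : ℕ} [Fact p.Prime] (hp : p ≠ 2)
    [CharP E p] [CharP F p] {ρ : SL(2, E) →* Sp4 F} (hρ : Function.Injective ρ) (ha : Abs ρ)
    (hn : NoSub ρ) : 5 ≤ p ∧ Fintype.card E = Fintype.card F := by
  have hpp : p.Prime := Fact.out
  have two : ∀ (K : Type _) [Field K] [CharP K p], (2 : K) ≠ 0 := fun K _ _ e =>
    hp ((Nat.prime_dvd_prime_iff_eq hpp Nat.prime_two).1 ((CharP.cast_eq_zero_iff K p 2).1 e))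
  have twoE : (2 : E) ≠ 0 := fun e =>
    hp ((Nat.prime_dvd_prime_iff_eq hpp Nat.prime_two).1 ((CharP.cast_eq_zero_iff E p 2).1 e))
  obtain ⟨τ, h1, h2, -⟩ := sl2_R1 (E := E) p
  obtain ⟨x, e, f, d, hF⟩ := h1.flag hρ ha
  let ψ : E →+ F := AddMonoidHom.mk' (fun a => B4 d (ρ (SL2.uu a) • d)) fun a b => by
    rw [SL2.uu_add, hF.c_mul (uu_mem a) (uu_mem b)]
  have h3 : ∀ a, ψ a = 0 → ∀ t, ψ (t ^ 2 * a) = 0 := fun a h0 t => by
    by_cases ht : t = 0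
    · rw [ht, zero_pow two_ne_zero, zero_mul, map_zero]
    · have := hF.c_conj (uu_mem a) (g := SL2.dg (Units.mk0 t ht))
        (by rintro _ ⟨b, rfl⟩; exact ⟨_, (dg_conj _ b).symm⟩) h0
      rwa [dg_conj] at this
  have h4 : ∀ a, ψ a = 0 → a = 0 := fun a h0 => by
    by_contra ha0
    obtain ⟨_, ⟨b, rfl⟩, hb⟩ := hF.exists_c (two F) (by
      rintro _ ⟨a, rfl⟩ _ ⟨b, rfl⟩; rw [← SL2.uu_add, ← SL2.uu_add, add_comm])
    apply hb
    have e1 : b = ((b / a + 1) / 2) ^ 2 * a - ((b / a - 1) / 2) ^ 2 * a := by field_simp; ring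
    show ψ b = 0
    rw [e1, map_sub, h3 a h0, h3 a h0, sub_zero]
  refine ⟨hpp.five_le_of_ne_two_of_ne_three hp ?_, le_antisymm
    (Fintype.card_le_of_injective ψ ((injective_iff_map_eq_zero ψ).2 h4)) ?_⟩
  · rintro rfl
    obtain ⟨c, hc⟩ := hF.uniq e (by
      rintro _ ⟨a, rfl⟩
      by_cases h0 : a = 0
      · rw [h0, SL2.uu_zero, rho_one]
      · exact hF.three (CharP.cast_eq_zero F 3) (uu_mem a)
          (by rw [uu_pow, CharP.cast_eq_zero, zero_mul, SL2.uu_zero]) fun e => h0 (h4 a e))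
    exact hF.ind c hc.symm
  · obtain ⟨k, -, hk⟩ := FiniteField.card E p
    rw [Nat.card_eq_fintype_card, hk] at h2
    have h5 := card_sub_one_dvd (pow_ne_zero _ hpp.ne_zero) (h1.pow_eq' hρ ha hn h2)
    rw [← hk] at h5
    have h6 : 1 < Fintype.card E := Fintype.one_lt_card
    have := Nat.le_of_dvd (by omega) h5
    omega

end CfsgLib.Dim4
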