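import Mathlib
import Cfsg.Agent.Lib.Dim4.OV
import Cfsg.Agent.Lib.Dim4.R1
import Cfsg.Agent.Lib.SL2.Unip

/-!
DIM4, package OV7: `SL₂(7)` is not maximal in `Sp₄(7)`.  See `plans/DIM4.md`.
-/

set_option autoImplicit false

namespace CfsgLib.Dim4

open Matrix Cfsg Cfsg.Geo CfsgLib.Asch CfsgLib.Forms CfsgLib.Symp Subgroup
open scoped MatrixGroups commutatorElement

namespace OV7

open SL2 TRA OV

variable {F : Type*} [Field F] [NeZero (2 : F)]

theorem trace_psi_mul (x y : W5 F) : (psi x * psi y).trace = 2 * bt x y := by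
  have := congrArg Matrix.trace (psi_anti x y)
  rw [trace_add, trace_mul_comm (psi y), trace_smul, trace_one] at this
  simp at this
  exact mul_left_cancel₀ two_ne_zero (by linear_combination this)

theorem bt_vd (g k : Sp4 F) : bt (vd g) (vd k) =
    (g * k).1.trace + (g * k⁻¹).1.trace - g.1.trace * k.1.trace / 2 := by
  have h : ((g.1 + (g⁻¹).1) * (k.1 + (k⁻¹).1)).trace = 2 * ((g * k).1.trace + (g * k⁻¹).1.trace) := by
    have h1 := trace_inv (k * g)
    have h2 := trace_inv (k⁻¹ * g)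
    rw [_root_.mul_inv_rev, Submonoid.coe_mul, Submonoid.coe_mul, trace_mul_comm k.1] at h1
    rw [_root_.mul_inv_rev, inv_inv, Submonoid.coe_mul, Submonoid.coe_mul, trace_mul_comm (k⁻¹).1]
      at h2
    simp only [add_mul, mul_add, trace_add, Submonoid.coe_mul, h1, h2]
    ring
  rw [add_inv, add_inv] at h
  simp only [add_mul, mul_add, trace_add, smul_mul_assoc, mul_smul_comm, trace_smul, one_mul, mul_one,
    trace_psi, trace_psi_mul, trace_one, smul_eq_mul] at h
  have h2 : (2 : F) ≠ 0 := two_ne_zero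
  simp at h
  field_simp at h ⊢
  exact mul_left_cancel₀ (pow_ne_zero 2 h2) (by linear_combination h)

/-- a regular unipotent element is not conjugate to its inverse if `-1` is not a square -/
theorem not_real (hs : ¬ IsSquare (-1 : F)) {u k : Sp4 F} (ht : u.1.trace = 4) (hq : q5 (vd u) = 0)
    (h0 : vd u ≠ 0) (hk : k * u * k⁻¹ = u⁻¹) : False := by
  have h2 : (2 : F) ≠ 0 := two_ne_zero
  have hy := add_inv u
  rw [ht, show (4 : F) / 2 = 2 by field_simp; norm_num] at hy
  obtain ⟨e, he⟩ : ∃ e, bt (vd u) e = 1 := by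
    obtain ⟨e, he⟩ := not_forall.1 fun h => h0 (bt_nondeg h)
    exact ⟨(bt (vd u) e)⁻¹ • e, by simp [he]⟩
  have hE := psi_anti (vd u) e
  have hd : sg k (vd u) = vd u := by rw [← vd_conj, hk, vd_inv]
  have m0 : psi (vd u) ≠ 0 := fun e => h0 (psi_injective (e.trans (map_zero _).symm))
  have mm := psi_sq (vd u)
  have km := sg_eq_iff.1 hd
  have ma := B4_psi (vd u)
  rw [he, one_smul] at hE
  rw [hq, zero_smul] at mm
  set M := psi (vd u)
  set Z := u.1 - (u⁻¹).1 with hZ
  have zz : Z * Z = (4 : F) • M := by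
    have : Z * Z = (u.1 + (u⁻¹).1) * (u.1 + (u⁻¹).1) - (4 : F) • 1 := by
      simp only [hZ, sub_mul, mul_sub, add_mul, mul_add, coe_mul_inv, coe_inv_mul]; module
    rw [this, hy]
    simp only [add_mul, mul_add, smul_mul_assoc, mul_smul_comm, one_mul, mul_one, mm]
    module
  have zm : Z * M = M * Z := by
    rw [← sub_eq_iff_eq_add'.2 hy]
    simp only [hZ, sub_mul, mul_sub, add_mul, mul_add, coe_mul_inv, coe_inv_mul, smul_mul_assoc,
      mul_smul_comm, one_mul, mul_one]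
    module
  have kz : k.1 * Z = -(Z * k.1) := by
    have e1 : k * u = u⁻¹ * k := mul_inv_eq_iff_eq_mul.1 hk
    have e2 : k * u⁻¹ = u * k := by rw [mul_inv_eq_iff_eq_mul, mul_assoc, e1, mul_inv_cancel_left]
    simp only [hZ, sub_mul, mul_sub, ← Submonoid.coe_mul, e1, e2, neg_sub]
  have za : ∀ v w, B4 (Z *ᵥ v) w = -B4 v (Z *ᵥ w) := fun v w => by
    have := B4_mulVec u⁻¹ v w
    rw [inv_inv] at this
    simp [hZ, sub_mulVec, B4_mulVec u, this]
  have h4 : (4 : F) ≠ 0 := by rw [show (4 : F) = 2 * 2 by norm_num]; exact mul_ne_zero h2 h2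
  have sy : ∀ v w, B4 ((Z * M) *ᵥ v) w = B4 ((Z * M) *ᵥ w) v := fun v w => by
    rw [← mulVec_mulVec, za, ma, mulVec_mulVec, ← zm, B4_swap v, neg_neg]
  obtain ⟨v, hv⟩ : ∃ v, B4 ((Z * M) *ᵥ v) v ≠ 0 := by
    by_contra hn
    push Not at hn
    have a0 : Z * M = 0 := ext_iff_mulVec.2 fun v => by
      rw [zero_mulVec]
      refine eq_zero_of_B4 fun w => mul_left_cancel₀ h2 ?_
      have := hn (v + w)
      simp only [mulVec_add, map_add, LinearMap.add_apply, hn, sy w v] at this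
      rw [B4_swap]
      linear_combination -this
    have : Z * Z = Z * (M * psi e + psi e * M) * Z := by rw [hE, mul_one]
    rw [mul_add, add_mul, ← mul_assoc, a0, mul_assoc Z, mul_assoc (psi e), ← zm, a0, zz] at this
    simp [h4, m0] at this
  have kv : B4 ((Z * M) *ᵥ (k.1 *ᵥ v)) (k.1 *ᵥ v) = -B4 ((Z * M) *ᵥ v) v := by
    rw [mulVec_mulVec, mul_assoc, ← km, ← mul_assoc, ← neg_neg (Z * k.1), ← kz, neg_mul, neg_mulVec,
      mul_assoc, ← mulVec_mulVec, map_neg, LinearMap.neg_apply]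
    exact congrArg _ (B4_smul k _ _)
  set w := k.1 *ᵥ v
  by_cases hi : LinearIndependent F ![(Z * M) *ᵥ v, (Z * M) *ᵥ w]
  · have z0 : Z * (Z * M) = 0 := by rw [← mul_assoc, zz, smul_mul_assoc, mm, smul_zero]
    have : LinearIndependent F ![M *ᵥ v, M *ᵥ w, (Z * M) *ᵥ v, (Z * M) *ᵥ w] :=
      Fintype.linearIndependent_iff.2 fun c hc => by
        simp only [Fin.sum_univ_four, cons_val] at hc
        have h1 := congrArg (Z *ᵥ ·) hc
        simp only [mulVec_add, mulVec_smul, mulVec_mulVec, z0, zero_mulVec, smul_zero, add_zero,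
          mulVec_zero] at h1
        obtain ⟨a, b⟩ := LinearIndependent.pair_iff.1 hi _ _ h1
        rw [a, b, zero_smul, zero_smul, zero_add, zero_add] at hc
        obtain ⟨a', b'⟩ := LinearIndependent.pair_iff.1 hi _ _ hc
        intro i
        fin_cases i
        exacts [a, b, a', b']
    have h5 : (⊤ : Submodule F (V4 F)) ≤ LinearMap.ker (mulVecLin M) := by
      rw [← this.span_eq_top_of_card_eq_finrank (by simp), Submodule.span_le]
      rintro _ ⟨i, rfl⟩
      fin_cases i <;> simp [mm, zm, ← mul_assoc]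
    exact m0 (ext_iff_mulVec.2 fun v => (h5 trivial).trans (zero_mulVec v).symm)
  · rw [LinearIndependent.pair_iff] at hi
    push Not at hi
    obtain ⟨a, b, hab, h1⟩ := hi
    have e1 := congrArg (B4 · v) hab
    have e2 := congrArg (B4 · w) hab
    simp only [map_add, map_smul, LinearMap.add_apply, LinearMap.smul_apply, smul_eq_mul, map_zero,
      LinearMap.zero_apply, kv, sy w v] at e1 e2
    have b0 : b ≠ 0 := fun e => h1 (by simpa [e, hv] using e1) e
    refine hs ⟨a / b, ?_⟩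
    field_simp
    exact mul_right_cancel₀ hv (by linear_combination b * e2 - a * e1)

instance : Fact (Nat.Prime 7) := ⟨by norm_num⟩

theorem gen {K : Subgroup SL(2, ZMod 7)} {a : ZMod 7} (ha : a ≠ 0) (h1 : ww ∈ K) (h2 : uu a ∈ K) :
    K = ⊤ := by
  have hu : ∀ c, uu c ∈ K := fun c => by
    have := pow_mem h2 (c / a).val
    rwa [uu_pow, ZMod.natCast_zmod_val, div_mul_cancel₀ _ ha] at this
  refine eq_top_iff.2 fun g _ => SL2.transvection_induction (· ∈ K) (fun i j hij c => ?_)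
    (fun A B => mul_mem) g
  fin_cases i <;> fin_cases j
  · exact absurd rfl hij
  · convert hu c using 1
    apply ext2 <;> simp [SpecialLinearGroup.transvection_coe]
  · convert mul_mem (mul_mem h1 (hu (-c))) (inv_mem h1) using 1
    apply ext2 <;> simp [SpecialLinearGroup.transvection_coe, mul_ap, inv_00, inv_01, inv_10, inv_11]
  · exact absurd rfl hij

/-- the trace on the cubic forms -/
def T0 (g : SL(2, ZMod 7)) : ZMod 7 := tr g ^ 3 - 2 * tr g

/-- the form on the `vd g` -/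
def gm (a b : SL(2, ZMod 7)) : ZMod 7 := T0 (a * b) + T0 (a * b⁻¹) - T0 a * T0 b * 4

/-- the form on differences -/
def Gm (a b c d : SL(2, ZMod 7)) : ZMod 7 := gm a c - gm a d - gm b c + gm b d

/-- explicit elements -/
def m2 (a b c d : ZMod 7) (h : a * d - b * c = 1 := by decide) : SL(2, ZMod 7) := mk2 a b c d h

/-- first terms -/
def AA : Fin 7 → SL(2, ZMod 7) :=
  ![m2 0 1 6 3, m2 0 1 6 3, m2 0 1 6 3, m2 0 5 4 3, m2 0 5 4 3, m2 1 3 5 2, m2 1 3 5 2]

/-- second terms -/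
def BB : Fin 7 → SL(2, ZMod 7) :=
  ![m2 0 1 6 3, m2 0 3 2 3, m2 1 2 4 2, m2 0 4 5 3, m2 1 1 1 2, m2 4 2 1 6, m2 5 1 3 5]

/-- the Gram matrix -/
def gr (i k : Fin 7) : ZMod 7 :=
  -((if i = k then 1 else 0) + 1 - (if i = 0 then 1 else 0) - if k = 0 then 1 else 0)

theorem gramY : ∀ i k, Gm (AA i) (BB i) (AA k) (BB k) = gr i k := by decide +kernel

theorem invU : ∀ i k, Gm (uu 1 * AA i * (uu 1)⁻¹) (uu 1 * BB i * (uu 1)⁻¹) (AA k) (BB k) =
    gr (c[0, 5, 2, 6, 3, 4, 1] i) k - gr 5 k := by decide +kernel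

theorem invW : ∀ i k, Gm (ww * AA i * ww⁻¹) (ww * BB i * ww⁻¹) (AA k) (BB k) =
    gr ((c[0, 3] * c[2, 6] : Equiv.Perm (Fin 7)) i) k - gr 3 k := by decide +kernel

theorem pow7 : ∀ a b c d : ZMod 7, a + d = 2 → a * d - b * c = 1 → !![a, b; c, d] ^ 7 = 1 := by
  decide +kernel

theorem weyl : ∀ a b c d : ZMod 7, !![a, b; c, d] * !![a, b; c, d] = -1 →
    (!![a, b; c, d] * (uu 1).1) ^ 3 = -1 → !![a, b; c, d] = (uu a * ww * (uu a)⁻¹).1 := by
  decide +kernel

variable [CharP F 7] {ρ : SL(2, ZMod 7) →* Sp4 F} (hρ : Function.Injective ρ) (ha : Abs ρ)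

omit [NeZero (2 : F)] [CharP F 7] in
theorem pm_of_comm (ha : Abs ρ) {k : Sp4 F} (h : ∀ g, k * ρ g = ρ g * k) : k.1 = 1 ∨ k.1 = -1 := by
  obtain ⟨c, h⟩ := ha.comm (x := k.1) fun g => congrArg Subtype.val (h g)
  exact (Symp.mem_center_iff.1 (Subgroup.mem_center_iff.2 fun k => Subtype.ext (by simp [h]))).imp
    (congrArg Subtype.val) (congrArg Subtype.val)

include hρ ha

omit [NeZero (2 : F)] [CharP F 7] in
theorem rho_neg (g : SL(2, ZMod 7)) : (ρ (-g)).1 = -(ρ g).1 := by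
  have : (ρ (-1)).1 = -1 := (pm_of_comm ha fun g => by simp [← map_mul]).resolve_left fun e =>
    absurd (hρ ((Subtype.ext e).trans (map_one ρ).symm)) (by decide)
  rw [← neg_one_mul g, map_mul, Submonoid.coe_mul, this, neg_one_mul]

omit [NeZero (2 : F)] [CharP F 7] in
theorem rho_sq {g : SL(2, ZMod 7)} (h : g * g = -1) : (ρ g).1 * (ρ g).1 = -1 := by
  rw [← Submonoid.coe_mul, ← map_mul, h, rho_neg hρ ha, map_one]
  rfl

omit [CharP F 7] in
theorem nq {a : ZMod 7} (h0 : a ≠ 0) {x : SL(2, ZMod 7)} (hx : x = uu a ∨ x = ww * uu a) :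
    vd (ρ x) ≠ 0 := fun h => by
  have h1 : ww ∈ Subgroup.closure {ww, x} := subset_closure (by simp)
  have h2 : x ∈ Subgroup.closure {ww, x} := subset_closure (by simp)
  refine qq ha (quad_of_sq (rho_sq hρ ha (g := ww) (by decide))).2 h fun g =>
    ⟨g, (gen h0 h1 ?_).ge trivial, Or.inl rfl⟩
  rcases hx with rfl | rfl
  exacts [h2, (mul_mem_cancel_left h1).1 h2]

theorem trace_eq (g : SL(2, ZMod 7)) : (ρ g).1.trace = ZMod.castHom dvd_rfl F (T0 g) := by
  have key : ∀ g : SL(2, ZMod 7), (tr g = 2 ∨ tr g = 0 ∨ tr g = 6 ∨ tr g = 3) →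
      (ρ g).1.trace = ZMod.castHom dvd_rfl F (T0 g) := fun g h => by
    have cj : tr g ≠ 2 → (ρ g).1.trace = (ρ (comp (tr g))).1.trace := fun h2 => by
      obtain ⟨x, hx⟩ := exists_conj_comp (g := g) (by
        rcases h with h | h | h | h
        · exact absurd h h2
        all_goals rw [h]; decide)
      rw [← hx, map_mul, map_mul, map_inv]
      simpa using (TRA.tr_conj (ρ x)⁻¹ (ρ g)).symm
    rcases h with h | h | h | h
    · rw [T0, h, show (2 ^ 3 - 2 * 2 : ZMod 7) = 4 by decide, map_ofNat]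
      refine trace_seven ?_
      rw [← map_pow, show g ^ 7 = 1 from Subtype.ext ?_, map_one]
      exact (eta_fin_two g.1 ▸ pow7 _ _ _ _ h (det_eq g) : g.1 ^ 7 = 1)
    · rw [cj (by rw [h]; decide), T0, h, (quad_of_sq (rho_sq hρ ha (by decide))).1]
      simp
    · rw [cj (by rw [h]; decide), T0, h, show (6 ^ 3 - 2 * 6 : ZMod 7) = 1 by decide, map_one]
      exact (ord3 (by rw [← map_pow, show comp (6 : ZMod 7) ^ 3 = 1 by decide, map_one])).resolve_right
        fun e => nq hρ ha (a := 6) (by decide) (Or.inr (by decide)) e.1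
    · rw [cj (by rw [h]; decide), T0, h, show (3 ^ 3 - 2 * 3 : ZMod 7) = 0 by decide, map_zero]
      exact (ord8 (by rw [← map_pow]; exact rho_sq hρ ha (by decide))).resolve_right
        fun e => nq hρ ha (a := 3) (by decide) (Or.inr (by decide)) e.1
  rcases (by decide : ∀ t : ZMod 7, (t = 2 ∨ t = 0 ∨ t = 6 ∨ t = 3) ∨
    (-t = 2 ∨ -t = 0 ∨ -t = 6 ∨ -t = 3)) (tr g) with h | h
  · exact key g h
  · have := key (-g) (by rwa [tr_neg])
    rw [rho_neg hρ ha, trace_neg, show T0 (-g) = -T0 g by simp only [T0, tr_neg]; ring, map_neg]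
      at this
    exact neg_injective this

theorem bt_eq (a b c d : SL(2, ZMod 7)) :
    bt (vd (ρ a) - vd (ρ b)) (vd (ρ c) - vd (ρ d)) = ZMod.castHom dvd_rfl F (Gm a b c d) := by
  have : ∀ a b, bt (vd (ρ a)) (vd (ρ b)) = ZMod.castHom dvd_rfl F (gm a b) := fun a b => by
    have h2 : (2 : F) ≠ 0 := two_ne_zero
    have h7 : (7 : F) = 0 := CharP.cast_eq_zero F 7
    rw [bt_vd, ← map_inv, ← map_mul, ← map_mul, trace_eq hρ ha, trace_eq hρ ha, trace_eq hρ ha,
      trace_eq hρ ha]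
    simp only [gm, map_add, map_sub, map_mul, map_ofNat]
    field_simp
    linear_combination h7 * ZMod.castHom dvd_rfl F (T0 a) * ZMod.castHom dvd_rfl F (T0 b)
  simp only [map_sub, LinearMap.sub_apply, this, Gm, map_add]
  ring

theorem inner (hs : ¬ IsSquare (-1 : F)) {h : Sp4 F} (hh : h ∈ normalizer (ρ.range : Set (Sp4 F))) :
    ∃ g, h.1 = (ρ g).1 ∨ h.1 = -(ρ g).1 := by
  have hN : ∀ g, ρ g ∈ normalizer (ρ.range : Set (Sp4 F)) := fun g => le_normalizer ⟨g, rfl⟩
  have h7 : ∀ a : ZMod 7, uu a ^ 7 = 1 := by decide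
  obtain ⟨x, ex, x7, x1⟩ := exists_aut hρ hh (h7 1) (by decide)
  obtain ⟨b, b0, hb⟩ := exists_isConj_uu_of_orderOf 7 (orderOf_eq_prime x7 x1)
  have : IsConj (uu 1) x := by
    rcases (by decide : ∀ b : ZMod 7, b ≠ 0 → (∃ r, 1 * b = r * r) ∨ ∃ r, -1 * b = r * r) b b0
      with k | k
    · exact ((isConj_uu_iff one_ne_zero).2 ⟨b0, k⟩).trans hb
    · obtain ⟨g, hg⟩ := isConj_iff.1 (((isConj_uu_iff (by decide)).2 ⟨b0, k⟩).trans hb)
      have t1 := trace_seven (u := ρ (uu 1)) (by rw [← map_pow, h7, map_one])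
      have t2 := trace_seven (u := ρ (uu 1) ^ 2) (by
        rw [← pow_mul, mul_comm, pow_mul, ← map_pow, h7, map_one, one_pow])
      have h2 : (2 : F) ≠ 0 := two_ne_zero
      rw [(sq_data _).1, t1] at t2
      field_simp at t2
      refine (not_real hs (k := (ρ g)⁻¹ * h) t1 (mul_left_cancel₀ (pow_ne_zero 2 h2)
        (by linear_combination t2)) (nq hρ ha one_ne_zero (Or.inl rfl)) ?_).elim
      rw [← hg, uu_neg, map_mul, map_mul, map_inv, map_inv] at ex
      calc _ = (ρ g)⁻¹ * (h * ρ (uu 1) * h⁻¹) * ρ g := by group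
        _ = _ := by rw [← ex]; group
  obtain ⟨g, rfl⟩ := isConj_iff.1 this
  obtain ⟨y, ey⟩ := (mem_normalizer_iff.1 (mul_mem (inv_mem (hN g)) hh) _).1 ⟨ww, rfl⟩
  set k := (ρ g)⁻¹ * h with hk
  have ku : k * ρ (uu 1) * k⁻¹ = ρ (uu 1) := by
    rw [map_mul, map_mul, map_inv] at ex
    calc _ = (ρ g)⁻¹ * (h * ρ (uu 1) * h⁻¹) * ρ g := by rw [hk]; group
      _ = _ := by rw [← ex]; group
  have kn : k * ρ (-1) * k⁻¹ = ρ (-1) :=
    mul_inv_eq_iff_eq_mul.2 (Subtype.ext (by simp [rho_neg hρ ha]))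
  have y1 : y * y = -1 := hρ (by
    rw [map_mul, ey, conj_mul, ← map_mul, show (ww * ww : SL(2, ZMod 7)) = -1 by decide, kn])
  have y2 : (y * uu 1) ^ 3 = -1 := hρ (by
    rw [map_pow, map_mul, ey, ← ku, conj_mul, conj_pow, ← map_mul, ← map_pow,
      show (ww * uu 1 : SL(2, ZMod 7)) ^ 3 = -1 by decide, kn])
  have y3 : y = uu (y 0 0) * ww * (uu (y 0 0))⁻¹ := Subtype.ext ((eta_fin_two y.1).trans
    (weyl _ _ _ _ (eta_fin_two y.1 ▸ congrArg Subtype.val y1)
      (eta_fin_two y.1 ▸ congrArg Subtype.val y2)))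
  have := pm_of_comm ha (k := (ρ (uu (y 0 0)))⁻¹ * k) fun x => mem_centralizer_singleton_iff.1
    ((gen (K := (centralizer {(ρ (uu (y 0 0)))⁻¹ * k}).comap ρ) one_ne_zero
      (mem_centralizer_singleton_iff.2 (by
        rw [y3, map_mul, map_mul, map_inv] at ey
        calc _ = (ρ (uu (y 0 0)))⁻¹ * (ρ (uu (y 0 0)) * ρ ww * (ρ (uu (y 0 0)))⁻¹) * k := by group
          _ = _ := by rw [ey]; group))
      (mem_centralizer_singleton_iff.2 (by
        rw [mul_assoc, mul_inv_eq_iff_eq_mul.1 ku, ← mul_assoc _ _ k, ← mul_assoc _ _ k, ← map_inv,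
          ← map_mul, ← map_mul, ← uu_neg, ← uu_add, ← uu_add, add_comm]))).ge (mem_top x)) |>.symm
  refine ⟨g * uu (y 0 0), ?_⟩
  have e : h.1 = (ρ (g * uu (y 0 0))).1 * ((ρ (uu (y 0 0)))⁻¹ * k).1 := by
    rw [← Submonoid.coe_mul, map_mul, hk]
    congr 1
    group
  rcases this with k | k <;> rw [k] at e <;> simp [e]

theorem main (hs : ¬ IsSquare (-1 : F)) : Over ρ := by
  have h7 : (7 : F) = 0 := CharP.cast_eq_zero F 7
  have h3 : (3 : F) ≠ 0 := fun e => one_ne_zero (α := F) (by linear_combination h7 - 2 * e)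
  let y := fun i => vd (ρ (AA i)) - vd (ρ (BB i))
  have hy : ∀ i k, bt (y i) (y k) = -((if i = k then 1 else 0) + 1 - (if i = 0 then 1 else 0) -
      if k = 0 then 1 else 0) := fun i k => by
    rw [bt_eq hρ ha, gramY]
    simp only [gr, map_neg, map_sub, map_add, apply_ite (ZMod.castHom dvd_rfl F), map_one, map_zero]
  have li : LinearIndependent F fun i : Fin 5 => y i.succ.castSucc :=
    Fintype.linearIndependent_iff.2 fun c hc => by
      have : ∀ k, c k + ∑ i, c i = 0 := fun k => by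
        have := congrArg (bt (y k.succ.castSucc)) hc
        simp only [map_sum, map_smul, hy, map_zero] at this
        simp [Finset.sum_add_distrib, mul_add] at this
        linear_combination -this
      have h0 : ∑ i, c i = 0 := by
        have := Finset.sum_congr rfl fun k (_ : k ∈ Finset.univ) => this k
        simp only [Finset.sum_add_distrib, Finset.sum_const, Finset.card_univ, Fintype.card_fin,
          nsmul_eq_mul, mul_zero, Nat.cast_ofNat] at this
        linear_combination (∑ i, c i) * h7 - this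
      exact fun k => by simpa [h0] using this k
  have nd : ∀ x, (∀ k, bt x (y k) = 0) → x = 0 := fun x hx => bt_nondeg fun z =>
    (Submodule.span_le (p := LinearMap.ker (bt x))).2 (by rintro _ ⟨i, rfl⟩; exact hx _)
      (li.span_eq_top_of_card_eq_finrank (by simp) ▸ Submodule.mem_top)
  let K : Subgroup SL(2, ZMod 7) :=
    { carrier := {g | ∃ π : Equiv.Perm (Fin 7), ∀ i j, sg (ρ g) (y i - y j) = y (π i) - y (π j)}
      mul_mem' := fun ⟨π, h⟩ ⟨π', h'⟩ => ⟨π * π', fun i j => by rw [map_mul, sg_mul, h', h]; rfl⟩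
      one_mem' := ⟨1, by simp⟩
      inv_mem' := fun {g} ⟨π, h⟩ => ⟨π⁻¹, fun i j => by
        rw [← sg_inv_sg (ρ g) (y (π⁻¹ i) - _), h, map_inv]; simp⟩ }
  have mem : ∀ g (π : Equiv.Perm (Fin 7)) m, (∀ i k, Gm (g * AA i * g⁻¹) (g * BB i * g⁻¹) (AA k) (BB k) =
      gr (π i) k - gr m k) → g ∈ K := fun g π m h => by
    have : ∀ i, sg (ρ g) (y i) = y (π i) - y m := fun i => sub_eq_zero.1 (nd _ fun k => by
      rw [map_sub bt, map_sub bt (y _), map_sub (sg _), ← vd_conj', ← vd_conj', LinearMap.sub_apply,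
        LinearMap.sub_apply, bt_eq hρ ha, bt_eq hρ ha, bt_eq hρ ha, h, gramY, gramY, map_sub, sub_self])
    exact ⟨π, fun i j => by rw [map_sub, this, this]; abel⟩
  have hK := gen one_ne_zero (mem _ _ _ invW) (mem _ _ _ invU)
  refine over_of h3 y (s := -1) (by simp) (fun i j k l => ?_) (fun h hh i j hij => ?_) (i := 0)
    (j := 1) (k := 2) (by decide) (by decide) (by decide) fun t ht _ e => ?_
  · simp only [map_sub, LinearMap.sub_apply, hy]
    ring
  · obtain ⟨g, e⟩ := inner hρ ha hs hh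
    obtain ⟨π, k⟩ := hK.ge (mem_top g)
    refine ⟨π i, π j, π.injective.ne hij, ?_⟩
    rcases e with e | e
    · rw [Subtype.ext e, k]
    · rw [sg_neg e, k]
  · obtain ⟨g, k⟩ := inner hρ ha hs ht
    have e1 := add_inv t
    rw [eq_inv_of_mul_eq_one_left ((pow_succ t 2).symm.trans (cube e)) |>.symm, sq,
      Submonoid.coe_mul, e] at e1
    have e2 := (smul_one_add_psi (a := (-1 : F)) (x := 0) (by rw [← e1, map_zero]; module)).1
    have h2 : (2 : F) ≠ 0 := two_ne_zero
    field_simp at e2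
    have inj := (ZMod.castHom dvd_rfl F : ZMod 7 →+* F).injective
    obtain ⟨k1, k2⟩ := (by decide : ∀ t : ZMod 7, t ^ 3 - 2 * t ≠ 2 ∧ t ^ 3 - 2 * t ≠ -2) (tr g)
    rcases k with k | k <;> rw [k] at e2
    · exact k2 (inj (by rw [map_neg, map_ofNat, e2, trace_eq hρ ha, T0]))
    · exact k1 (inj (by rw [map_ofNat, neg_injective (e2.trans (trace_neg _)), trace_eq hρ ha, T0]))

end OV7

theorem over7 {E F : Type*} [Field E] [Fintype E] [Field F] [Fintype F] (hE : Fintype.card E = 7)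
    (hF : Fintype.card F = 7) {ρ : SL(2, E) →* Sp4 F} (hρ : Function.Injective ρ) (ha : Abs ρ) :
    Over ρ := by
  have : CharP F 7 := charP_of_card_eq_prime hF
  have : NeZero (2 : F) := ⟨fun e => absurd ((CharP.cast_eq_zero_iff F 7 2).1 e) (by decide)⟩
  let e := Classical.slMapEquiv (ι := Fin 2) (FiniteField.ringEquivOfCardEq ((ZMod.card 7).trans hE.symm))
  have := OV7.main (ρ := ρ.comp e.toMonoidHom) (hρ.comp e.injective) (ha.comp e.surjective)
    (by rw [FiniteField.isSquare_neg_one_iff, hF]; decide)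
  rwa [Over, MonoidHom.range_comp, MonoidHom.range_eq_top (f := e.toMonoidHom).2 e.surjective,
    ← MonoidHom.range_eq_map] at this

end CfsgLib.Dim4
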