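import Mathlib
import Cfsg.Agent.Lib.Dim4.W5
import Cfsg.Agent.Lib.Dim4.RsA

/-!
DIM4, package SL: the simply laced case.  See `plans/DIM4.md`.
-/

set_option autoImplicit false

namespace CfsgLib.Dim4

open Matrix Cfsg Cfsg.Geo CfsgLib.Asch CfsgLib.Forms CfsgLib.Symp Subgroup
open scoped MatrixGroups commutatorElement

variable {K W : Type*} [Field K] [AddCommGroup W] [Module K W] {β : LinearMap.BilinForm K W}
  {Δ : Set W}

namespace SL

variable (h : RS β Δ)
include h

theorem triangle {a b c : W} (ha : a ∈ Δ) (hb : b ∈ Δ) (hc : c ∈ Δ) (ab : β a b = -1)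
    (ac : β a c = -1) (bc : β b c = -1) (n1 : a ≠ b) (n2 : a ≠ c) (n3 : b ≠ c) : a + b + c = 0 := by
  by_contra n0
  have ba := (h.symm _ _).trans ab
  have ca := (h.symm _ _).trans ac
  have cb := (h.symm _ _).trans bc
  have aa := h.norm a ha
  have bb := h.norm b hb
  have cc := h.norm c hc
  have sum : ∀ {x y : W}, x ∈ Δ → y ∈ Δ → β x y = -1 → y + x ∈ Δ := fun hx hy e => by
    simpa [e] using h.refl _ hx _ hy
  set n := a + b + c with hn
  have an : β a n = 0 := by simp only [map_add, map_sub, map_neg, map_smul, LinearMap.add_apply, LinearMap.sub_apply, LinearMap.neg_apply, LinearMap.smul_apply, smul_eq_mul, hn, aa, ab, ac]; ring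
  have bn : β b n = 0 := by simp only [map_add, map_sub, map_neg, map_smul, LinearMap.add_apply, LinearMap.sub_apply, LinearMap.neg_apply, LinearMap.smul_apply, smul_eq_mul, hn, bb, ba, bc]; ring
  have cn : β c n = 0 := by simp only [map_add, map_sub, map_neg, map_smul, LinearMap.add_apply, LinearMap.sub_apply, LinearMap.neg_apply, LinearMap.smul_apply, smul_eq_mul, hn, cc, ca, cb]; ring
  have s1 : -a + (1 : K) • n ∈ Δ := by
    convert sum hc hb cb using 1; rw [hn]; module
  have key : ∀ x ∈ Δ, β x n = 0 → -x + n ∈ Δ → β a x = -1 → (3 : K) = 0 ∧ ∃ k : K, x = a + k • n :=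
    fun x hx xn hx' ax => by
    obtain ⟨h3, k, e | e⟩ := h.sm _ (h.neg x hx) _ (h.neg a ha) n 1 n0 one_ne_zero (by simp [xn])
      (by simp [an]) hx' s1
    · exact ⟨h3, k, by rw [← e]; module⟩
    · have := congrArg (β a) e
      simp only [map_add, map_sub, map_neg, map_smul, LinearMap.add_apply, LinearMap.sub_apply, LinearMap.neg_apply, LinearMap.smul_apply, smul_eq_mul, aa, ax, an] at this
      exact absurd (by linear_combination -this : (1 : K) = 0) one_ne_zero
  obtain ⟨h3, k, ek⟩ := key c hc cn (by convert sum hb ha ba using 1; rw [hn]; module) ac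
  obtain ⟨-, l, el⟩ := key b hb bn (by convert sum hc ha ca using 1; rw [hn]; module) ab
  have k0 : k ≠ 0 := by rintro rfl; exact n2 (by simpa using ek.symm)
  have l0 : l ≠ 0 := by rintro rfl; exact n1 (by simpa using el.symm)
  have kl : k + l = 1 := by
    have : (k + l - 1) • n = 0 := by
      have e3 : (3 : K) • a = 0 := by rw [h3, zero_smul]
      calc (k + l - 1) • n = (a + k • n) + (a + l • n) + a - n - (3 : K) • a := by module
        _ = 0 := by rw [← ek, ← el, e3, hn]; module
    exact sub_eq_zero.1 ((smul_eq_zero.1 this).resolve_right n0)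
  obtain ⟨-, m, e⟩ := h.sm a ha a ha (k • n) (l / k) (smul_ne_zero k0 n0) (div_ne_zero l0 k0)
    (by simp [an]) (by simp [an]) (ek ▸ hc) (by rw [smul_smul, div_mul_cancel₀ _ k0, ← el]; exact hb)
  rcases e with e | e
  · have := congrArg (β a) e
    simp only [map_add, map_sub, map_neg, map_smul, LinearMap.add_apply, LinearMap.sub_apply, LinearMap.neg_apply, LinearMap.smul_apply, smul_eq_mul, aa, an] at this
    have h1 : l / k = 1 := mul_right_cancel₀ h.two (by linear_combination this)
    rw [div_eq_one_iff_eq k0] at h1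
    exact n3 (by rw [ek, el, h1])
  · have := congrArg (β a) e
    simp only [map_add, map_sub, map_neg, map_smul, LinearMap.add_apply, LinearMap.sub_apply, LinearMap.neg_apply, LinearMap.smul_apply, smul_eq_mul, aa, an] at this
    have h1 : l / k = -1 := mul_right_cancel₀ h.two (by linear_combination this)
    rw [div_eq_iff k0] at h1
    exact one_ne_zero (by linear_combination h1 - kl : (1 : K) = 0)

theorem sgn {u c : W} (hu : u ∈ Δ) (hc : c ∈ Δ) {e : K} (h1 : β u c ^ 2 = 1) (he : e ^ 2 = 1) :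
    ∃ c' ∈ Δ, β u c' = e ∧ ∀ v, β v u = 0 → β v c' = β v c := by
  by_cases h2 : β u c = e
  · exact ⟨c, hc, h2, fun _ _ => rfl⟩
  · refine ⟨_, h.refl u hu c hc, ?_, fun v hv => by simp only [map_add, map_sub, map_neg, map_smul, LinearMap.add_apply, LinearMap.sub_apply, LinearMap.neg_apply, LinearMap.smul_apply, smul_eq_mul, hv]; ring⟩
    have : β u c = -e := (sq_eq_sq_iff_eq_or_eq_neg.1 (h1.trans he.symm)).resolve_left h2
    simp only [map_add, map_sub, map_neg, map_smul, LinearMap.add_apply, LinearMap.sub_apply, LinearMap.neg_apply, LinearMap.smul_apply, smul_eq_mul, h.norm u hu, this]; ring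

variable (h1 : ∀ a ∈ Δ, ∀ b ∈ Δ, b ≠ a → b ≠ -a → β a b = 0 ∨ β a b ^ 2 = 1)
include h1

theorem d4' {u : Fin 5 → W} (hu : ∀ i, u i ∈ Δ) (ho : ∀ i j, i ≠ j → β (u i) (u j) = 0) {d c : W}
    (hd : d ∈ Δ) (hc : c ∈ Δ) (d0 : β (u 0) d ^ 2 = 1) (d1 : β (u 1) d ^ 2 = 1)
    (d2 : β (u 2) d ^ 2 = 1) (d3 : β (u 3) d ^ 2 = 1) (d4 : β (u 4) d = 0)
    (c0 : β (u 0) c ^ 2 = 1) (c1 : β (u 1) c ^ 2 = 1)
    (c2 : β (u 2) c ^ 2 = 1) (c3 : β (u 3) c = 0) (c4 : β (u 4) c ^ 2 = 1) : False := by
  have sp := h.span_frame hu ho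
  have nm := fun i => h.norm _ (hu i)
  have two := h.two
  have ext : ∀ x : W, (∀ i, β (u i) x = 0) → x = 0 := fun x hx =>
    h.eq_zero_of_span sp (by rintro _ ⟨i, rfl⟩; rw [h.symm]; exact hx i)
  have fl : ∀ (x : W) (e : Fin 5 → K), x ∈ Δ → (∀ i, β (u i) x ^ 2 = e i ^ 2 ∧
      (e i = 0 ∨ e i ^ 2 = 1)) → ∃ y ∈ Δ, ∀ i, β (u i) y = e i := fun x e hx he => by
    have key : ∀ s : Finset (Fin 5), ∃ y ∈ Δ, (∀ i ∈ s, β (u i) y = e i) ∧
        ∀ i, β (u i) y ^ 2 = e i ^ 2 := by
      intro s
      induction s using Finset.induction_on with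
      | empty => exact ⟨x, hx, by simp, fun i => (he i).1⟩
      | insert j s hj ih =>
        obtain ⟨y, hy, y1, y2⟩ := ih
        rcases (he j).2 with e0 | e1
        · refine ⟨y, hy, fun i hi => ?_, y2⟩
          rcases Finset.mem_insert.1 hi with rfl | hi
          · rw [e0]; simpa [e0] using y2 i
          · exact y1 i hi
        · obtain ⟨z, hz, z1, z2⟩ := sgn h (hu j) hy ((y2 j).trans e1) e1
          refine ⟨z, hz, fun i hi => ?_, fun i => ?_⟩
          · rcases Finset.mem_insert.1 hi with rfl | hi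
            · exact z1
            · rw [z2 _ (ho i j (fun e => hj (e ▸ hi))), y1 i hi]
          · by_cases e : i = j
            · rw [e, z1]
            · rw [z2 _ (ho i j e), y2]
    obtain ⟨y, hy, y1, -⟩ := key Finset.univ
    exact ⟨y, hy, fun i => y1 i (Finset.mem_univ _)⟩
  obtain ⟨d', hd', ed⟩ := fl d ![1, 1, 1, 1, 0] hd (by intro i; fin_cases i <;> simp [*])
  obtain ⟨c', hc', ec⟩ := fl c ![1, 1, -1, 0, 1] hc (by intro i; fin_cases i <;> simp [*])
  obtain ⟨c'', hc'', ec'⟩ := fl c ![1, 1, 1, 0, 1] hc (by intro i; fin_cases i <;> simp [*])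
  have o := fun i j (e : i ≠ j) => ho i j e
  have e1 : (2 : K) • d' = u 0 + u 1 + u 2 + u 3 := sub_eq_zero.1 (ext _ fun i => by
    fin_cases i <;> simp [ed, nm, o])
  have e2 : (2 : K) • c'' = u 0 + u 1 + u 2 + u 4 := sub_eq_zero.1 (ext _ fun i => by
    fin_cases i <;> simp [ec', nm, o])
  have e3 : 2 * β d' c' = 1 := by
    have := congrArg (β · c') e1
    simp only [map_add, map_sub, map_neg, map_smul, LinearMap.add_apply, LinearMap.sub_apply, LinearMap.neg_apply, LinearMap.smul_apply, smul_eq_mul, ec] at this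
    simpa using this
  have h3 : (3 : K) = 0 := by
    rcases h1 d' hd' c' hc' (fun e => by simpa [e, ed] using ec 3)
      (fun e => by simpa [e, ed] using ec 3) with e | e
    · rw [e, mul_zero] at e3; exact absurd e3 zero_ne_one
    · linear_combination 4 * -e + (2 * β d' c' + 1) * e3
  have h2 : (2 : K) = -1 := by linear_combination h3
  rw [h2, neg_one_smul] at e1 e2
  obtain ⟨-, k, e⟩ := h.sm _ (hu 3) _ (hu 4) (u 0 + u 1 + u 2) 1
    (fun e => two (by simpa [nm, o] using congrArg (β (u 0)) e)) one_ne_zero (by simp [o])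
    (by simp [o]) (by rw [add_comm, ← e1]; exact h.neg _ hd')
    (by rw [one_smul, add_comm, ← e2]; exact h.neg _ hc'')
  rcases e with e | e <;> exact two (by simpa [nm, o] using congrArg (β (u 4)) e)

theorem d4 {d a b c : W} (hd : d ∈ Δ) (ha : a ∈ Δ) (hb : b ∈ Δ) (hc : c ∈ Δ) (ab : β a b = 0)
    (ac : β a c = 0) (bc : β b c = 0) (da : β a d = -1) (db : β b d = -1) (dc : β c d = -1) :
    False := by
  have ba := (h.symm _ _).trans ab
  have ca := (h.symm _ _).trans ac
  have cb := (h.symm _ _).trans bc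
  have ad := (h.symm _ _).trans da
  have bd := (h.symm _ _).trans db
  have cd := (h.symm _ _).trans dc
  have aa := h.norm a ha
  have bb := h.norm b hb
  have cc := h.norm c hc
  have dd := h.norm d hd
  have two := h.two
  have sum : ∀ {x y : W}, x ∈ Δ → y ∈ Δ → β x y = -1 → y + x ∈ Δ := fun hx hy e => by
    simpa [e] using h.refl _ hx _ hy
  have he : d + a + b + c + d ∈ Δ := sum hd (sum hc (sum hb (sum ha hd da) (by simp only [map_add, map_sub, map_neg, map_smul, LinearMap.add_apply, LinearMap.sub_apply, LinearMap.neg_apply, LinearMap.smul_apply, smul_eq_mul, db, ba]; ring))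
    (by simp only [map_add, map_sub, map_neg, map_smul, LinearMap.add_apply, LinearMap.sub_apply, LinearMap.neg_apply, LinearMap.smul_apply, smul_eq_mul, dc, ca, cb]; ring)) (by simp only [map_add, map_sub, map_neg, map_smul, LinearMap.add_apply, LinearMap.sub_apply, LinearMap.neg_apply, LinearMap.smul_apply, smul_eq_mul, dd, ad, bd, cd]; ring)
  set e := d + a + b + c + d with he'
  have ae : β a e = 0 := by simp only [map_add, map_sub, map_neg, map_smul, LinearMap.add_apply, LinearMap.sub_apply, LinearMap.neg_apply, LinearMap.smul_apply, smul_eq_mul, he', da, aa, ab, ac]; ring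
  have be : β b e = 0 := by simp only [map_add, map_sub, map_neg, map_smul, LinearMap.add_apply, LinearMap.sub_apply, LinearMap.neg_apply, LinearMap.smul_apply, smul_eq_mul, he', db, ba, bb, bc]; ring
  have ce : β c e = 0 := by simp only [map_add, map_sub, map_neg, map_smul, LinearMap.add_apply, LinearMap.sub_apply, LinearMap.neg_apply, LinearMap.smul_apply, smul_eq_mul, he', dc, ca, cb, cc]; ring
  have ea := (h.symm _ _).trans ae
  have eb := (h.symm _ _).trans be
  have ec := (h.symm _ _).trans ce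
  have ed : β e d = 1 := by simp only [map_add, map_sub, map_neg, map_smul, LinearMap.add_apply, LinearMap.sub_apply, LinearMap.neg_apply, LinearMap.smul_apply, smul_eq_mul, he', dd, da, db, dc]; ring
  obtain ⟨v, hv, hv'⟩ := h.fr4 ![a, b, c, e] (RS.mem4 ha hb hc he) (h.orth4 ab ac ae bc be ce)
  have va : β v a = 0 := hv' 0
  have vb : β v b = 0 := hv' 1
  have vc : β v c = 0 := hv' 2
  have ve : β v e = 0 := hv' 3
  have av := (h.symm _ _).trans va
  have bv := (h.symm _ _).trans vb
  have cv := (h.symm _ _).trans vc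
  have ev := (h.symm _ _).trans ve
  have vd : β v d = 0 := by
    have := ve
    simp only [map_add, map_sub, map_neg, map_smul, LinearMap.add_apply, LinearMap.sub_apply, LinearMap.neg_apply, LinearMap.smul_apply, smul_eq_mul, he', va, vb, vc] at this
    exact mul_left_cancel₀ two (by linear_combination this)
  clear_value e
  have m5 := RS.mem5 ha hb hc he hv
  have o5 := h.orth5 ab ac ae av bc be bv ce cv ev
  have hx : ∃ x ∈ Δ, β v x ≠ 0 ∧ (β a x ≠ 0 ∨ β b x ≠ 0 ∨ β c x ≠ 0 ∨ β e x ≠ 0) := by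
    by_contra hn
    push Not at hn
    refine h.span4 a b c e (h.irr' ha (by simp) fun x hx => ?_)
    by_cases hvx : β v x = 0
    · left
      have e1 : (2 : K) • x = β a x • a + β b x • b + β c x • c + β e x • e + β v x • v :=
        h.expand m5 o5 x
      have : x = (2 : K)⁻¹ • (β a x • a + β b x • b + β c x • c + β e x • e) := by
        rw [eq_inv_smul_iff₀ two, e1, hvx, zero_smul, add_zero]
      rw [this]
      refine Submodule.smul_mem _ _ (add_mem (add_mem (add_mem ?_ ?_) ?_) ?_) <;>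
        exact Submodule.smul_mem _ _ (Submodule.subset_span (by simp))
    · right
      obtain ⟨x1, x2, x3, x4⟩ := hn x hx hvx
      rintro y (rfl | rfl | rfl | rfl) <;> rw [h.symm] <;> simp [x1, x2, x3, x4]
  obtain ⟨x, hx, vx, hx'⟩ := hx
  have val : ∀ u ∈ Δ, ∀ w, β w u = 0 → β w x ≠ 0 → β u x = 0 ∨ β u x ^ 2 = 1 :=
    fun u hu w e1 e2 => h1 u hu x hx (fun e => e2 (e ▸ e1)) (fun e => e2 (by simp [e, e1]))
  have xa := val a ha v va vx
  have xb := val b hb v vb vx
  have xc := val c hc v vc vx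
  have xe := val e he v ve vx
  have xv : β v x ^ 2 = 1 := by
    refine Or.resolve_left ?_ vx
    rcases hx' with k | k | k | k
    exacts [val v hv a av k, val v hv b bv k, val v hv c cv k, val v hv e ev k]
  have sum : β a x ^ 2 + β b x ^ 2 + β c x ^ 2 + β e x ^ 2 + β v x ^ 2 = 4 := h.sum_sq m5 o5 hx
  have fin : ∀ p q r s : W, p ∈ Δ → q ∈ Δ → r ∈ Δ → s ∈ Δ → β p q = 0 → β p r = 0 → β p s = 0 →
      β q r = 0 → β q s = 0 → β r s = 0 → β p v = 0 → β q v = 0 → β r v = 0 → β s v = 0 →
      β p d ^ 2 = 1 → β q d ^ 2 = 1 → β r d ^ 2 = 1 → β s d ^ 2 = 1 →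
      β p x ^ 2 = 1 → β q x ^ 2 = 1 → β r x ^ 2 = 1 → β s x = 0 → False :=
    fun p q r s hp hq hr hs pq pr ps qr qs rs pv qv rv sv pd qd rd sd px qx rx sx =>
      d4' h h1 (RS.mem5 hp hq hr hs hv) (h.orth5 pq pr ps pv qr qs qv rs rv sv) hd hx pd qd rd sd vd
        px qx rx sx xv
  have sa : β a d ^ 2 = 1 := by simp [da]
  have sb : β b d ^ 2 = 1 := by simp [db]
  have sc : β c d ^ 2 = 1 := by simp [dc]
  have se : β e d ^ 2 = 1 := by simp [ed]
  have o1 : (1 : K) ≠ 0 := one_ne_zero
  rcases xa with xa | xa <;> rcases xb with xb | xb <;> rcases xc with xc | xc <;>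
    rcases xe with xe | xe <;>
    first
    | exact hx'.elim (· xa) (·.elim (· xb) (·.elim (· xc) (· xe)))
    | exact fin a b c e ha hb hc he ab ac ae bc be ce av bv cv ev sa sb sc se xa xb xc xe
    | exact fin a b e c ha hb he hc ab ae ac be bc ec av bv ev cv sa sb se sc xa xb xe xc
    | exact fin a e c b ha he hc hb ae ac ab ec eb cb av ev cv bv sa se sc sb xa xe xc xb
    | exact fin e b c a he hb hc ha eb ec ea bc ba ca ev bv cv av se sb sc sa xe xb xc xa
    | (rw [xa, xb, xc, xe, xv] at sum; first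
        | (apply two; linear_combination -sum)
        | (apply o1; linear_combination -sum)
        | (apply o1; linear_combination sum))

/-- the root system is of type `A` -/
theorem exists_simplex : ∃ X : Set W, X ⊆ Δ ∧ (∀ x ∈ X, ∀ y ∈ X, x ≠ y → β x y = 1) ∧
    Submodule.span K X = ⊤ ∧ ∀ c ∈ Δ, c ∈ X ∨ -c ∈ X ∨ ∃ x ∈ X, ∃ y ∈ X, c = x - y := by
  have two := h.two
  obtain ⟨a, ha⟩ := h.ne
  obtain ⟨X, hX, mx⟩ := (h.fin.finite_subsets.subset (t := {X | X ⊆ Δ ∧ a ∈ X ∧
      ∀ x ∈ X, ∀ y ∈ X, x ≠ y → β x y = 1 ∧ y ≠ -x}) fun _ hX => hX.1).exists_maximal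
      ⟨{a}, by simpa using ha, rfl, by simp⟩
  obtain ⟨X1, X2, X3⟩ := hX
  have ext : ∀ c ∈ Δ, (∀ x ∈ X, x ≠ c → β x c = 1 ∧ c ≠ -x) → c ∈ X := fun c hc hc' =>
    mx (y := insert c X) ⟨Set.insert_subset hc X1, Or.inr X2, by
      rintro x (rfl | hx) y (rfl | hy) hxy
      · exact (hxy rfl).elim
      · exact ⟨(h.symm _ _).trans (hc' y hy hxy.symm).1,
          fun e => (hc' y hy hxy.symm).2 (by rw [e, neg_neg])⟩
      · exact hc' x hx hxy
      · exact X3 x hx y hy hxy⟩ (Set.subset_insert _ _) (Or.inl rfl)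
  have key : ∀ c ∈ Δ, c ∉ X → -c ∉ X → (¬ ∃ x ∈ X, ∃ y ∈ X, c = x - y) → ∀ x ∈ X, β x c ≠ 1 :=
    fun c hc c1 c2 c3 x hx xc => by
    have cx := (h.symm _ _).trans xc
    have val : ∀ y ∈ X, β y c = 0 ∨ β y c = 1 := fun y hy => by
      rcases h1 y (X1 hy) c hc (fun e => c1 (e ▸ hy)) (fun e => c2 (by simpa [e] using hy)) with e | e
      · exact Or.inl e
      refine Or.inr ((RsA.pm e).resolve_right fun e => ?_)
      have yx : y ≠ x := by
        rintro rfl
        exact two (by linear_combination e - xc)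
      have := triangle h hc (X1 hy) (h.neg x (X1 hx)) ((h.symm _ _).trans e) (by simp [cx])
        (by simp [(X3 y hy x hx yx).1]) (fun e => c1 (e ▸ hy)) (fun e => c2 (by simpa [e] using hx))
        (X3 x hx y hy yx.symm).2
      exact c3 ⟨x, hx, y, hy, by rw [← sub_eq_zero, ← this]; abel⟩
    by_cases hall : ∀ y ∈ X, β y c = 1
    · exact c1 (ext c hc fun y hy _ => ⟨hall y hy, fun e => c2 (by simpa [e] using hy)⟩)
    push Not at hall
    obtain ⟨y, hy, yc⟩ := hall
    have yc := (val y hy).resolve_right yc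
    have yx : y ≠ x := by rintro rfl; exact zero_ne_one (yc.symm.trans xc)
    by_cases hone : ∀ z ∈ X, z ≠ x → β z c = 0
    · have r : x - c ∈ Δ := by simpa [cx] using h.refl c hc x (X1 hx)
      have := ext _ r fun z hz _ => by
        by_cases e : z = x
        · refine ⟨by simp only [map_add, map_sub, map_neg, map_smul, LinearMap.add_apply, LinearMap.sub_apply, LinearMap.neg_apply, LinearMap.smul_apply, smul_eq_mul, e, h.norm x (X1 hx), xc]; ring, fun e' => ?_⟩
          rw [e] at e'
          have e2 : c = (2 : K) • x := by rw [two_smul, ← sub_eq_zero, ← neg_eq_zero, ← sub_eq_zero.2 e']; abel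
          rcases h.eq_of_smul (X1 hx) hc e2 with k | k
          · exact c1 (k ▸ hx)
          · exact c2 (by simpa [k] using hx)
        · refine ⟨by simp only [map_add, map_sub, map_neg, map_smul, LinearMap.add_apply, LinearMap.sub_apply, LinearMap.neg_apply, LinearMap.smul_apply, smul_eq_mul, (X3 z hz x hx e).1, hone z hz e]; ring, fun e' => ?_⟩
          have e2 : c = x + z := by rw [← sub_eq_zero, ← neg_eq_zero, ← sub_eq_zero.2 e']; abel
          have := h.norm c hc
          simp only [map_add, map_sub, map_neg, map_smul, LinearMap.add_apply, LinearMap.sub_apply, LinearMap.neg_apply, LinearMap.smul_apply, smul_eq_mul, e2, h.norm x (X1 hx), h.norm z (X1 hz), (X3 z hz x hx e).1, (X3 x hx z hz (Ne.symm e)).1] at this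
          exact two (mul_left_cancel₀ two (by linear_combination this))
      exact c3 ⟨x, hx, _, this, by abel⟩
    push Not at hone
    obtain ⟨z, hz, zx, zc⟩ := hone
    have zc := (val z hz).resolve_left zc
    have yz : y ≠ z := by rintro rfl; exact zero_ne_one (yc.symm.trans zc)
    have r : x - z ∈ Δ := by simpa [(X3 z hz x hx zx).1] using h.refl z (X1 hz) x (X1 hx)
    exact d4 h h1 (h.neg x (X1 hx)) hc (X1 hy) r ((h.symm _ _).trans yc)
      (by simp only [map_add, map_sub, map_neg, map_smul, LinearMap.add_apply, LinearMap.sub_apply, LinearMap.neg_apply, LinearMap.smul_apply, smul_eq_mul, cx, (h.symm _ _).trans zc]; ring)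
      (by simp only [map_add, map_sub, map_neg, map_smul, LinearMap.add_apply, LinearMap.sub_apply, LinearMap.neg_apply, LinearMap.smul_apply, smul_eq_mul, (X3 y hy x hx yx).1, (X3 y hy z hz yz).1]; ring) (by simp [cx])
      (by simp [(X3 y hy x hx yx).1]) (by simp only [map_add, map_sub, map_neg, map_smul, LinearMap.add_apply, LinearMap.sub_apply, LinearMap.neg_apply, LinearMap.smul_apply, smul_eq_mul, h.norm x (X1 hx), (X3 z hz x hx zx).1]; ring)
  have orth : ∀ c ∈ Δ, c ∉ X → -c ∉ X → (¬ ∃ x ∈ X, ∃ y ∈ X, c = x - y) → ∀ x ∈ X, β c x = 0 :=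
    fun c hc c1 c2 c3 x hx => by
    rw [h.symm]
    rcases h1 x (X1 hx) c hc (fun e => c1 (e ▸ hx)) (fun e => c2 (by simpa [e] using hx)) with e | e
    · exact e
    rcases RsA.pm e with e | e
    · exact (key c hc c1 c2 c3 x hx e).elim
    · refine (key (-c) (h.neg c hc) c2 (by simpa using c1) ?_ x hx (by simp [e])).elim
      rintro ⟨y, hy, z, hz, e⟩
      exact c3 ⟨z, hz, y, hy, by rw [← neg_sub, ← e, neg_neg]⟩
  have sp : Submodule.span K X = ⊤ := h.irr' ha X2 fun c hc => by
    by_cases c1 : c ∈ X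
    · exact Or.inl (Submodule.subset_span c1)
    by_cases c2 : -c ∈ X
    · exact Or.inl (neg_mem_iff.1 (Submodule.subset_span c2))
    by_cases c3 : ∃ x ∈ X, ∃ y ∈ X, c = x - y
    · obtain ⟨x, hx, y, hy, rfl⟩ := c3
      exact Or.inl (sub_mem (Submodule.subset_span hx) (Submodule.subset_span hy))
    · exact Or.inr fun x hx => by simpa [orth c hc c1 c2 c3 x hx] using hx
  refine ⟨X, X1, fun x hx y hy e => (X3 x hx y hy e).1, sp, fun c hc => ?_⟩
  by_contra hn
  simp only [not_or] at hn
  exact h.ne_zero hc (h.eq_zero_of_span sp (orth c hc hn.1 hn.2.1 hn.2.2))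

end SL

theorem RS.sl (h : RS β Δ)
    (h1 : ∀ a ∈ Δ, ∀ b ∈ Δ, b ≠ a → b ≠ -a → β a b = 0 ∨ β a b ^ 2 = 1) : False := by
  classical
  obtain ⟨X, X1, X2, sp, all⟩ := SL.exists_simplex h h1
  have two := h.two
  set Y : Set W := insert 0 X with hY
  have fY : Y.Finite := (h.fin.subset X1).insert 0
  let s : W → K := fun y => if y = 0 then 0 else 1
  have bY : ∀ y ∈ Y, ∀ z ∈ Y, β y z = (if y = z then 1 else 0) + s y + s z - 1 := by
    rintro y (rfl | hy) z (rfl | hz)
    · simp [s]
    · simp [s, h.ne_zero (X1 hz), (h.ne_zero (X1 hz)).symm]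
    · simp [s, h.ne_zero (X1 hy)]
    · by_cases e : y = z
      · simp only [s, e, h.norm z (X1 hz), h.ne_zero (X1 hz), if_true, if_false]; ring
      · simp [s, e, X2 y hy z hz e, h.ne_zero (X1 hz), h.ne_zero (X1 hy)]
  let Γ : Subgroup (W ≃ₗ[K] W) :=
    { carrier := {γ | ∃ t, ∀ y ∈ Y, γ y + t ∈ Y}
      one_mem' := ⟨0, by simp⟩
      mul_mem' := by
        rintro γ γ' ⟨t, ht⟩ ⟨t', ht'⟩
        exact ⟨γ t' + t, fun y hy => by simpa [add_assoc] using ht _ (ht' y hy)⟩
      inv_mem' := by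
        rintro γ ⟨t, ht⟩
        refine ⟨-γ⁻¹ t, fun y hy => ?_⟩
        have := ((fY.injOn_iff_bijOn_of_mapsTo (f := fun y => γ y + t) ht).1
          fun a _ b _ e => γ.injective (add_right_cancel e)).surjOn hy
        obtain ⟨z, hz, rfl⟩ := this
        simpa using hz }
  obtain ⟨t, ht⟩ := h.sgn Γ fun c hc => by
    refine ⟨Module.reflection (h.norm c hc), ?_, fun x => Module.reflection_apply _ _⟩
    obtain ⟨a, ha, b, hb, rfl⟩ : ∃ a ∈ Y, ∃ b ∈ Y, c = a - b := by
      rcases all c hc with e | e | ⟨x, hx, y, hy, e⟩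
      · exact ⟨c, Or.inr e, 0, Or.inl rfl, by simp⟩
      · exact ⟨0, Or.inl rfl, -c, Or.inr e, by simp⟩
      · exact ⟨x, Or.inr hx, y, Or.inr hy, e⟩
    have ab : a ≠ b := fun e => h.ne_zero hc (sub_eq_zero.2 e)
    refine ⟨(s a - s b) • (a - b), fun y hy => ?_⟩
    rw [Module.reflection_apply, map_sub, LinearMap.sub_apply, bY a ha y hy, bY b hb y hy]
    by_cases e1 : a = y
    · convert hb using 1
      rw [if_pos e1, if_neg (e1 ▸ ab.symm), ← e1]; module
    by_cases e2 : b = y
    · convert ha using 1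
      rw [if_neg e1, if_pos e2, ← e2]; module
    · convert hy using 1
      rw [if_neg e1, if_neg e2]; module
  have ht' : ∀ y ∈ Y, -y + t ∈ Y := ht
  have tY : t ∈ Y := by simpa using ht' 0 (Or.inl rfl)
  have get : ∀ a b c : W, ∃ z ∈ Y, z ≠ 0 ∧ z ≠ a ∧ z ≠ b ∧ z ≠ c := fun a b c => by
    obtain ⟨z, hz, hz'⟩ := h.exists_not_mem sp a b c c
    exact ⟨z, Or.inr hz, h.ne_zero (X1 hz), fun e => hz' (Submodule.subset_span (by simp [e])),
      fun e => hz' (Submodule.subset_span (by simp [e])),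
      fun e => hz' (Submodule.subset_span (by simp [e]))⟩
  obtain ⟨y, hy, y0, yt, -⟩ := get t t t
  obtain ⟨z, hz, z0, zt, zy, zy'⟩ := get t y (-y + t)
  have e : β y (y - z) + β (-y + t) (y - z) - β t (y - z) - β 0 (y - z) = 0 := by
    simp only [map_add, map_sub, map_neg, map_smul, LinearMap.add_apply, LinearMap.sub_apply, LinearMap.neg_apply, LinearMap.smul_apply, smul_eq_mul, map_zero, LinearMap.zero_apply]; ring
  simp only [map_sub] at e
  rw [bY y hy y hy, bY y hy z hz, bY _ (ht' y hy) y hy, bY _ (ht' y hy) z hz, bY t tY y hy,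
    bY t tY z hz, bY 0 (Or.inl rfl) y hy, bY 0 (Or.inl rfl) z hz, if_pos rfl, if_neg zy.symm,
    if_neg zy'.symm, if_neg yt.symm, if_neg zt.symm, if_neg y0.symm, if_neg z0.symm] at e
  split_ifs at e
  · exact two (by linear_combination e)
  · exact one_ne_zero (by linear_combination e : (1 : K) = 0)

end CfsgLib.Dim4
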