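import Mathlib
import Cfsg.Agent.Lib.Dickson.Tau
import Cfsg.Agent.Lib.Dickson.TwoTransv
import Cfsg.Agent.Lib.Dim4.W5

/-!
DIM4, package TRI, part a: three involutions in a finite subgroup of `PGL₂`.  See `plans/DIM4.md`.
-/

set_option autoImplicit false

namespace CfsgLib.Dim4.Tri

open Equiv Matrix CfsgLib.Dickson CfsgLib.Dickson.P1
open scoped MatrixGroups

/-- order dividing `n`, not the identity -/
def Od {H : Type*} [Group H] (n : ℕ) (g : H) : Prop := g ^ n = 1 ∧ g ≠ 1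

instance decOd {H : Type*} [Group H] [DecidableEq H] (n : ℕ) (g : H) : Decidable (Od n g) :=
  inferInstanceAs (Decidable (_ ∧ _))

set_option synthInstance.maxSize 1000 in
theorem s4 : ∀ a : Perm (Fin 4), a * a = 1 → ∀ b : Perm (Fin 4), b * b = 1 → Od 4 (a * b) → ¬ Od 2 (a * b) →
    ∀ c : Perm (Fin 4), c * c = 1 → ¬ Od 2 (a * b * c) → ¬ (Od 2 (c * a) ∧ Od 2 (c * b)) →
    ((Od 2 (c * b) ∨ Od 2 (c * (a * b * a))) ∧ Od 3 (c * a)) ∨
      ((Od 2 (c * a) ∨ Od 2 (c * (b * a * b))) ∧ Od 3 (c * b)) := by decide +kernel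

/-- the five reflections of a dihedral group of order ten -/
def Fv {H : Type*} [Group H] (n : ℕ) (a b c : H) : Prop := Od n (c * a) ∨ Od n (c * b) ∨ Od n (c * (b * a * b)) ∨
  Od n (c * (a * b * a * a * (a * b * a))) ∨ Od n (c * (a * b * a))

/-- code of a permutation -/
def enc (g : Perm (Fin 5)) : ℕ := g 0 + 8 * g 1 + 64 * g 2 + 512 * g 3 + 4096 * g 4

/-- value of a code -/
def ap (p i : ℕ) : ℕ := p / 8 ^ i % 8

/-- product of codes -/
def cm (p q : ℕ) : ℕ := ap p (ap q 0) + 8 * ap p (ap q 1) + 64 * ap p (ap q 2) + 512 * ap p (ap q 3) +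
  4096 * ap p (ap q 4)

/-- power of a code -/
def pw (p n : ℕ) : ℕ := Nat.rec 18056 (fun _ r => cm r p) n

/-- `Od` for codes -/
def od (n p : ℕ) : Bool := and (Nat.beq (pw p n) 18056) (not (Nat.beq p 18056))

/-- `Fv` for codes -/
def fv (n a b c : ℕ) : Bool := od n (cm c a) || od n (cm c b) || od n (cm c (cm (cm b a) b)) ||
  od n (cm c (cm (cm (cm (cm a b) a) a) (cm (cm a b) a))) || od n (cm c (cm (cm a b) a))

theorem ap_enc (g : Perm (Fin 5)) (i : Fin 5) : ap (enc g) i = g i := by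
  have := (g 0).2; have := (g 1).2; have := (g 2).2; have := (g 3).2; have := (g 4).2
  fin_cases i <;> simp [ap, enc] <;> omega

theorem enc_mul (g h : Perm (Fin 5)) : enc (g * h) = cm (enc g) (enc h) := by
  have e : ∀ i : Fin 5, ap (enc g) (ap (enc h) i) = (g * h) i := fun i => by rw [ap_enc, ap_enc]; rfl
  exact (congrArg₂ _ (congrArg₂ _ (congrArg₂ _ (congrArg₂ _ (e 0) (congrArg _ (e 1))) (congrArg _ (e 2)))
    (congrArg _ (e 3))) (congrArg _ (e 4))).symm

theorem enc_eq {g : Perm (Fin 5)} : enc g = 18056 ↔ g = 1 :=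
  ⟨fun e => Equiv.ext fun i => Fin.ext (by rw [← ap_enc, e, ← ap_enc]; rfl), fun e => by rw [e]; rfl⟩

theorem od_enc (n : ℕ) (g : Perm (Fin 5)) : od n (enc g) = true ↔ Od n g := by
  have : ∀ n : ℕ, pw (enc g) n = enc (g ^ n) := fun n => by
    induction n with
    | zero => exact (enc_eq.2 (pow_zero g)).symm
    | succ n ih => rw [pow_succ, enc_mul, ← ih]; rfl
  rw [od, Bool.and_eq_true, Nat.beq_eq, Bool.not_eq_true', ← Bool.not_eq_true, Nat.beq_eq, this, enc_eq, enc_eq, Od]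

/-- the even elements of order at most two -/
def L5 : List ℕ :=
  [18056, 14416, 8984, 5344, 14346, 8459, 1228, 14465, 4259, 668, 9985, 5666, 1620, 17601, 16922, 16467]

theorem mem_L5 : ∀ c : Perm (Fin 5), c * c = 1 → Perm.sign c = 1 → enc c ∈ L5 := by decide +kernel

theorem a5n : ∀ a ∈ L5, ∀ b ∈ L5, od 5 (cm a b) = true → ∀ c ∈ L5, ¬ od 2 (cm (cm a b) c) = true →
    ¬ (od 2 (cm c a) = true ∧ od 2 (cm c b) = true) → fv 2 a b c = true ∧ fv 3 a b c = true := by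
  decide +kernel

theorem a5 {a b c : Perm (Fin 5)} (ha : enc a ∈ L5) (hb : enc b ∈ L5) (hc : enc c ∈ L5) (h1 : Od 5 (a * b))
    (h2 : ¬ Od 2 (a * b * c)) (h3 : ¬ (Od 2 (c * a) ∧ Od 2 (c * b))) : Fv 2 a b c ∧ Fv 3 a b c := by
  have := a5n _ ha _ hb (by rwa [← enc_mul, od_enc]) _ hc (by rwa [← enc_mul, ← enc_mul, od_enc])
    (by rwa [← enc_mul, ← enc_mul, od_enc, od_enc])
  simpa only [fv, Fv, Bool.or_eq_true, ← enc_mul, od_enc, or_assoc] using this

variable {F L : Type*} [Field F] [Field L]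

/-- the involution with matrix `[[u, v], [w, -u]]` -/
noncomputable def mv (u v w : F) (h : u * u + v * w = 1) : PGL(2, F) :=
  pm u v w (-u) (by rw [show u * -u - v * w = -1 by linear_combination -h]; simp)

theorem map_mv (f : F →+* L) (u v w : F) (h) : pglMap f (mv u v w h) =
    mv (f u) (f v) (f w) (by rw [← map_mul, ← map_mul, ← map_add, h, map_one]) := by
  rw [mv, map_pm]; exact pm_congr rfl rfl rfl (map_neg _ _)

theorem mv_sq (u v w : F) (h) : mv u v w h * mv u v w h = 1 := by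
  rw [mv, pm_mul, pm_eq_one_iff]
  exact ⟨by ring, by ring, by ring⟩

theorem tau_mv (u v w u' v' w' : F) (h h') :
    tau (mv u v w h * mv u' v' w' h') = (2 * u * u' + v * w' + w * v') ^ 2 := by
  rw [mv, mv, pm_mul, tau_pm, div_eq_iff (det_mul_ne (by rw [show u * -u - v * w = -1 by linear_combination -h]; simp)
    (by rw [show u' * -u' - v' * w' = -1 by linear_combination -h']; simp))]
  have : (u * u' + v * w') * (w * v' + -u * -u') - (u * v' + v * -u') * (w * u' + -u * w') = 1 := by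
    linear_combination (u' * u' + v' * w') * h + h'
  rw [this]; ring

theorem mv_conj (u v w u' v' w' : F) (h h') {β : F} (e : β = 2 * u * u' + v * w' + w * v') :
    mv u v w h * mv u' v' w' h' * mv u v w h =
      mv (u' - β * u) (v' - β * v) (w' - β * w) (by linear_combination h' + β ^ 2 * h + β * e) := by
  rw [mv, mv, pm_mul, pm_mul, mv, pm_eq_pm_iff]
  exact ⟨-1, by linear_combination -u' * h - u * e, by linear_combination -v' * h - v * e,
    by linear_combination -w' * h - w * e, by linear_combination u' * h + u * e⟩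

theorem no_pt {x κ : L} (h2 : (2 : L) ≠ 0) (hκ : κ ≠ 0) {h h'} {A B : PGL(2, L)} (hA : A = mv 1 0 0 h)
    (hB : B = mv x 1 κ h') {p : P1 L} (e1 : A • p = p) (e2 : B • p = p) : False := by
  subst hA hB
  rcases eq_inf_or p with rfl | ⟨v, rfl⟩
  · exact hκ (pm_smul_inf_eq_inf.1 e2)
  · rw [mv, pm_smul_pt_eq_pt] at e1 e2
    obtain rfl : v = 0 := mul_left_cancel₀ h2 (by linear_combination e1)
    exact one_ne_zero (by linear_combination e2)

theorem no_pair {x κ y s t : L} (h2 : (2 : L) ≠ 0) (hx : x ≠ 0) (hκ : κ ≠ 0) (hδ : t - s * κ ≠ 0)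
    (hy : y ≠ 0 ∨ 2 * x * y + t + s * κ ≠ 0) {h h' h''} {A B C : PGL(2, L)} (hA : A = mv 1 0 0 h)
    (hB : B = mv x 1 κ h') (hC : C = mv y s t h'') {p q : P1 L} (hpq : p ≠ q)
    (e1 : (A • p = p ∧ A • q = q) ∨ (A • p = q ∧ A • q = p))
    (e2 : (B • p = p ∧ B • q = q) ∨ (B • p = q ∧ B • q = p))
    (e3 : (C • p = p ∧ C • q = q) ∨ (C • p = q ∧ C • q = p)) : False := by
  subst hA hB hC
  have z : ∀ a : L, 2 * a = 0 → a = 0 := fun a ha => (mul_eq_zero.1 ha).resolve_left h2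
  rcases eq_inf_or p with rfl | ⟨v, rfl⟩ <;> rcases eq_inf_or q with rfl | ⟨w, rfl⟩ <;>
    simp only [mv, pm_smul_inf_eq_inf, pm_smul_inf_eq_pt, pm_smul_pt_eq_inf, pm_smul_pt_eq_pt] at e1 e2 e3
  · exact hpq rfl
  · rcases e1 with e1 | e1
    · obtain rfl : w = 0 := z _ (by linear_combination e1.2)
      exact e2.elim (fun e => hκ e.1) fun e => hx (by linear_combination e.1)
    · exact one_ne_zero (by linear_combination e1.1)
  · rcases e1 with e1 | e1
    · obtain rfl : v = 0 := z _ (by linear_combination e1.1)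
      exact e2.elim (fun e => hκ e.2) fun e => hx (by linear_combination e.2)
    · exact one_ne_zero (by linear_combination e1.2)
  · rcases e1 with e1 | e1
    · exact hpq (by rw [z v (by linear_combination e1.1), z w (by linear_combination e1.2)])
    obtain rfl : w = -v := by linear_combination e1.1
    have v0 : v ≠ 0 := fun e => hpq (by rw [e, neg_zero])
    rcases e2 with e2 | e2
    · exact mul_ne_zero hx v0 (z _ (z _ (by linear_combination e2.1 - e2.2)))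
    rcases e3 with e3 | e3
    · obtain rfl : y = 0 := (mul_eq_zero.1 (z _ (z _ (by linear_combination e3.1 - e3.2)) : y * v = 0)).resolve_right v0
      exact hy.elim (fun e => e rfl) fun e => e (by linear_combination t * e2.1 + κ * e3.1)
    · exact hδ (by linear_combination t * e2.1 - κ * e3.1)

theorem plat_three {K : Type*} [Field K] [Finite K] (h3 : (3 : K) = 0) (hK : ∀ b : K, b = 0 ∨ b = 1 ∨ b = -1)
    (hc : 3 ≤ Nat.card K) (f : K →+* F) (k : PGL(2, F)) :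
    Platonic ((pglMap f).range.map (MulAut.conj k).toMonoidHom) 4 24 ∧
      Platonic ((pslMap f).range.map (MulAut.conj k).toMonoidHom) 3 12 := by
  have c3 : Nat.card K = 3 := le_antisymm (by
    have : (Set.univ : Set K) ⊆ {0, 1, -1} := fun b _ => hK b
    rw [← Set.ncard_univ]
    exact (Set.ncard_le_ncard this).trans ((Set.ncard_insert_le _ _).trans
      (Nat.succ_le_succ ((Set.ncard_insert_le _ _).trans (by simp))))) hc
  have key : ∀ (g : PGL(2, K)) (n : ℕ), g ^ n = 1 → (k * pglMap f g * k⁻¹) ^ n = 1 := fun g n e => by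
    rw [conj_pow, ← map_pow, e]; simp
  refine ⟨⟨?_, ?_⟩, ?_, ?_⟩
  · rw [Subgroup.card_map_of_injective (MulAut.conj k).injective,
      ← Nat.card_congr (MonoidHom.ofInjective (pglMap_injective f)).toEquiv, card_pgl, c3]
    norm_num
  · rintro ⟨_, _, ⟨g, rfl⟩, rfl⟩
    rcases hK (tau g) with e | e | e
    · exact Or.inl (Subtype.ext (key g 2 (pow_two_eq_one_iff.2 (Or.inl e))))
    · exact Or.inr (Or.inl (Subtype.ext (key g 3 (pow_three_eq_one_iff.2 (Or.inl e)))))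
    · exact Or.inr (Or.inr (Subtype.ext (key g 4 (pow_four_eq_one_iff.2
        (Or.inl (Or.inr (by linear_combination e - h3)))))))
  · have := card_psl (K := K)
    rw [c3] at this
    rw [Subgroup.card_map_of_injective (MulAut.conj k).injective,
      ← Nat.card_congr (MonoidHom.ofInjective (pslMap_injective f)).toEquiv]
    norm_num at this
    omega
  · rintro ⟨_, _, ⟨g, rfl⟩, rfl⟩
    obtain ⟨r, e⟩ := isSquare_tau_of_mem (g := pslPGL K g) ⟨g, rfl⟩
    rcases hK r with rfl | rfl | rfl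
    · exact Or.inl (Subtype.ext (key _ 2 (pow_two_eq_one_iff.2 (Or.inl (by simpa using e)))))
    all_goals exact Or.inr (Or.inl (Subtype.ext (key _ 3 (pow_three_eq_one_iff.2 (Or.inl (by simpa using e))))))

theorem plat (p : ℕ) [Fact p.Prime] [CharP F p] [PerfectField F] (h2 : (2 : F) ≠ 0) (Γ : Subgroup PGL(2, F))
    [Finite Γ] {x κ y s t : F} (hx : x ≠ 0) (hκ : κ ≠ 0) (hδ : t - s * κ ≠ 0)
    (hy : y ≠ 0 ∨ 2 * x * y + t + s * κ ≠ 0) {h h' h''} (m1 : mv 1 0 0 h ∈ Γ) (m2 : mv x 1 κ h' ∈ Γ)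
    (m3 : mv y s t h'' ∈ Γ) (hu : ∀ (k : PGL(2, F)) (b : F), b ≠ 0 → k * aff 1 1 one_ne_zero * k⁻¹ ∈ Γ →
      k * aff 1 b one_ne_zero * k⁻¹ ∈ Γ → (3 : F) = 0 ∧ (b = 1 ∨ b = -1)) :
    Platonic Γ 3 12 ∨ Platonic Γ 4 24 ∨ Platonic Γ 5 60 := by
  let f := algebraMap F (AlgebraicClosure F)
  have f2 : (2 : AlgebraicClosure F) ≠ 0 := by rw [← map_ofNat f]; exact (map_ne_zero f).2 h2
  have a1 : pglMap f (mv 1 0 0 h) = mv 1 0 0 (by simp) := by simp only [map_mv, map_one, map_zero]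
  have a2 : pglMap f (mv x 1 κ h') = mv (f x) 1 (f κ) (by simpa using congrArg f h') := by
    simp only [map_mv, map_one]
  rcases dickson_pgl p Γ with ⟨q, e⟩ | ⟨q, q', hq, -, e⟩ | e | e | e | ⟨k, K, hK, c3, e⟩
  · exact (no_pt f2 ((map_ne_zero f).2 hκ) a1 a2 (e ⟨_, m1⟩) (e ⟨_, m2⟩)).elim
  · exact (no_pair f2 ((map_ne_zero f).2 hx) ((map_ne_zero f).2 hκ) (by simpa using (map_ne_zero f).2 hδ)
      (hy.imp (map_ne_zero f).2 fun e => by simpa [map_ofNat] using (map_ne_zero f).2 e) a1 a2 (map_mv f y s t h'') hq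
      (e ⟨_, m1⟩) (e ⟨_, m2⟩) (e ⟨_, m3⟩)).elim
  · exact Or.inl e
  · exact Or.inr (Or.inl e)
  · exact Or.inr (Or.inr e)
  have mem : ∀ b : K, k * aff 1 (b : F) one_ne_zero * k⁻¹ ∈ Γ := fun b => by
    have : aff 1 (b : F) one_ne_zero ∈ (pslMap K.subtype).range := by
      obtain ⟨g, hg⟩ := aff_one_mem_range_pslPGL b
      exact ⟨g, by rw [pslMap_apply, hg, map_aff]; exact aff_congr (map_one _) rfl⟩
    rcases e with e | e
    · exact e ▸ ⟨_, range_pslMap_le_range_pglMap _ this, rfl⟩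
    · exact e.2 ▸ ⟨_, this, rfl⟩
  obtain ⟨k1, k2⟩ := plat_three (K := K) (Subtype.ext (hu k 1 one_ne_zero (mem 1) (mem 1)).1) (fun b => by
    by_cases hb : b = 0
    · exact Or.inl hb
    · exact Or.inr ((hu k b (fun e => hb (Subtype.ext e)) (mem 1) (mem b)).2.imp Subtype.ext Subtype.ext))
    c3 K.subtype k
  rcases e with e | e
  · exact Or.inr (Or.inl (e ▸ k1))
  · exact Or.inl (e.2 ▸ k2)

theorem od_map {H H' : Type*} [Group H] [Group H'] {φ : H →* H'} (hφ : Function.Injective φ) (n : ℕ) (g : H) :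
    Od n (φ g) ↔ Od n g := by
  rw [Od, Od, ← map_pow, map_eq_one_iff φ hφ, map_ne_one_iff φ hφ]

theorem s4' {H : Type*} [Group H] (h : Platonic H 4 24) {a b c : H} (ha : a * a = 1) (hb : b * b = 1)
    (hc : c * c = 1) (h1 : Od 4 (a * b)) (h2 : ¬ Od 2 (a * b)) (h3 : ¬ Od 2 (a * b * c))
    (h4 : ¬ (Od 2 (c * a) ∧ Od 2 (c * b))) : ((Od 2 (c * b) ∨ Od 2 (c * (a * b * a))) ∧ Od 3 (c * a)) ∨
      ((Od 2 (c * a) ∨ Od 2 (c * (b * a * b))) ∧ Od 3 (c * b)) := by
  obtain ⟨e⟩ := h.S4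
  have := s4 (e.toMonoidHom a) (by rw [← map_mul, ha, map_one]) (e.toMonoidHom b) (by rw [← map_mul, hb, map_one])
  simp only [← map_mul, od_map (φ := e.toMonoidHom) e.injective] at this
  simpa only [← map_mul, od_map (φ := e.toMonoidHom) e.injective] using this h1 h2 (e.toMonoidHom c)
    (by rw [← map_mul, hc, map_one]) (by simpa only [← map_mul, od_map (φ := e.toMonoidHom) e.injective] using h3)
    (by simpa only [← map_mul, od_map (φ := e.toMonoidHom) e.injective] using h4)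

theorem a5' {H : Type*} [Group H] (h : Platonic H 5 60) {a b c : H} (ha : a * a = 1) (hb : b * b = 1)
    (hc : c * c = 1) (h1 : Od 5 (a * b)) (h3 : ¬ Od 2 (a * b * c)) (h4 : ¬ (Od 2 (c * a) ∧ Od 2 (c * b))) :
    Fv 2 a b c ∧ Fv 3 a b c := by
  obtain ⟨e⟩ := h.A5
  let φ : H →* Perm (Fin 5) := (alternatingGroup (Fin 5)).subtype.comp e.toMonoidHom
  have hφ : Function.Injective φ := Subtype.val_injective.comp e.injective
  have m : ∀ g, g * g = 1 → enc (φ g) ∈ L5 := fun g hg =>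
    mem_L5 _ (by rw [← map_mul, hg, map_one]) (Perm.mem_alternatingGroup.1 (e g).2)
  simpa only [Fv, ← map_mul, od_map hφ] using a5 (m a ha) (m b hb) (m c hc) (by rwa [← map_mul, od_map hφ])
    (by simpa only [← map_mul, od_map hφ] using h3) (by simpa only [← map_mul, od_map hφ] using h4)

theorem concl {Γ : Subgroup PGL(2, F)} {x κ y s t X Y Z : F} (hx : X ≠ 0) (hκ : X ^ 2 ≠ 4)
    (hδ : t - s * κ ≠ 0) (eX : X = 2 * x) (eY : Y = 2 * y) (eZ : Z = 2 * x * y + t + s * κ) (hy : Y ≠ 0 ∨ Z ≠ 0)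
    {h h' h''} (m1 : mv 1 0 0 h ∈ Γ) (m2 : mv x 1 κ h' ∈ Γ) (m3 : mv y s t h'' ∈ Γ)
    (hp : Platonic Γ 3 12 ∨ Platonic Γ 4 24 ∨ Platonic Γ 5 60) :
    (X ^ 2 = 1 ∨ X ^ 2 = 2 ∨ X ^ 4 - 3 * X ^ 2 + 1 = 0) ∧
      (X ^ 2 = 2 → (Z * (Z - X * Y) = 0 ∧ Y ^ 2 = 1) ∨ (Y * (Y - X * Z) = 0 ∧ Z ^ 2 = 1)) ∧
      (X ^ 2 = X + 1 → 0 ∈ pat X Y Z ∧ ∃ w ∈ pat X Y Z, w ^ 2 = 1) := by
  set a : Γ := ⟨_, m1⟩
  set b : Γ := ⟨_, m2⟩
  set c : Γ := ⟨_, m3⟩
  have ha : a * a = 1 := Subtype.ext (mv_sq _ _ _ h)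
  have hb : b * b = 1 := Subtype.ext (mv_sq _ _ _ h')
  have hc : c * c = 1 := Subtype.ext (mv_sq _ _ _ h'')
  have aba := mv_conj 1 0 0 x 1 κ h h' (β := X) (by rw [eX]; ring)
  have t1 : tau (a * b).1 = X ^ 2 := (tau_mv _ _ _ _ _ _ h h').trans (by rw [eX]; ring)
  have t2 : tau (c * a).1 = Y ^ 2 := (tau_mv _ _ _ _ _ _ h'' h).trans (by rw [eY]; ring)
  have t3 : tau (c * b).1 = Z ^ 2 := (tau_mv _ _ _ _ _ _ h'' h').trans (by rw [eZ]; ring)
  have t4 : tau (c * (b * a * b)).1 = (X * Z - Y) ^ 2 :=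
    (congrArg (fun g => tau (c.1 * g)) (mv_conj x 1 κ 1 0 0 h' h (β := X) (by rw [eX]; ring))).trans
      ((tau_mv _ _ _ _ _ _ h'' _).trans (by rw [eY, eZ]; ring))
  have t5 : tau (c * (a * b * a)).1 = (Z - X * Y) ^ 2 :=
    (congrArg (fun g => tau (c.1 * g)) aba).trans ((tau_mv _ _ _ _ _ _ h'' _).trans (by rw [eY, eZ]; ring))
  have t6 : tau (c * (a * b * a * a * (a * b * a))).1 = (Y + X * (Z - X * Y)) ^ 2 := by
    refine (congrArg (fun g => tau (c.1 * (g * a.1 * g))) aba).trans ?_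
    exact (congrArg (fun g => tau (c.1 * g)) (mv_conj _ _ _ 1 0 0 _ h (β := -X) (by rw [eX]; ring))).trans
      ((tau_mv _ _ _ _ _ _ h'' _).trans (by rw [eY, eZ]; ring))
  have o2 : ∀ {g : Γ} {r : F}, tau g.1 = r ^ 2 → Od 2 g → r = 0 := fun {g r} e o =>
    pow_eq_zero_iff two_ne_zero |>.1 (e ▸ (pow_two_eq_one_iff.1 (congrArg Subtype.val o.1)).resolve_right
      fun k => o.2 (Subtype.ext k))
  have o3 : ∀ {g : Γ} {r : F}, tau g.1 = r ^ 2 → Od 3 g → r ^ 2 = 1 := fun {g r} e o =>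
    e ▸ (pow_three_eq_one_iff.1 (congrArg Subtype.val o.1)).resolve_right fun k => o.2 (Subtype.ext k)
  have n1 : (a * b).1 ≠ 1 := fun e => hκ (by rw [← t1, e, tau_one])
  have n1' : a * b ≠ 1 := fun e => n1 (congrArg Subtype.val e)
  have n2 : ¬ Od 2 (a * b) := fun o => hx (o2 t1 o)
  have n3 : ¬ Od 2 (a * b * c) := fun o => by
    have k := (pow_two_eq_one_iff.1 (congrArg Subtype.val o.1)).resolve_right fun k => o.2 (Subtype.ext k)
    change tau (mv 1 0 0 h * mv x 1 κ h' * mv y s t h'') = 0 at k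
    rw [mv, mv, mv, pm_mul, pm_mul, tau_pm, div_eq_zero_iff, or_iff_left (det_mul_ne (det_mul_ne (by simp)
      (by rw [show x * -x - 1 * κ = -1 by linear_combination -h']; simp))
      (by rw [show y * -y - s * t = -1 by linear_combination -h'']; simp)), pow_eq_zero_iff two_ne_zero] at k
    exact hδ (by linear_combination k)
  have n4 : ¬ (Od 2 (c * a) ∧ Od 2 (c * b)) := fun o => hy.elim (· (o2 t2 o.1)) (· (o2 t3 o.2))
  have p3 : ∀ {m n}, Platonic Γ m n → X ^ 2 = 1 ∨ (a * b).1 ^ m = 1 := fun k => by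
    rcases k.2 (a * b) with e | e | e
    exacts [absurd ⟨e, n1'⟩ n2, Or.inl (o3 t1 ⟨e, n1'⟩), Or.inr (congrArg Subtype.val e)]
  have q3 : Platonic Γ 3 12 → X ^ 2 = 1 := fun k =>
    (p3 k).elim id fun e => t1 ▸ (pow_three_eq_one_iff.1 e).resolve_right n1
  have q4 : Platonic Γ 4 24 → X ^ 2 = 1 ∨ X ^ 2 = 2 := fun k => (p3 k).imp id fun e =>
    t1 ▸ ((pow_four_eq_one_iff.1 e).resolve_right n1).resolve_left fun e => pow_ne_zero 2 hx (t1 ▸ e)
  have q5 : Platonic Γ 5 60 → X ^ 2 = 1 ∨ X ^ 4 - 3 * X ^ 2 + 1 = 0 := fun k => (p3 k).imp id fun e => by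
    have := (pow_five_eq_one_iff.1 e).resolve_right n1
    rw [t1] at this
    linear_combination this
  refine ⟨?_, fun e => ?_, fun e => ?_⟩
  · rcases hp with k | k | k
    exacts [Or.inl (q3 k), (q4 k).imp_right Or.inl, (q5 k).imp_right Or.inr]
  · have k1 : X ^ 2 ≠ 1 := fun k => one_ne_zero (α := F) (by linear_combination k - e)
    rcases hp with k | k | k
    · exact absurd (q3 k) k1
    · refine (s4' k ha hb hc ⟨Subtype.ext (pow_four_eq_one_iff.2 (Or.inl (Or.inr (t1.trans e)))), n1'⟩ n2 n3 n4).imp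
        (fun o => ⟨mul_eq_zero.2 (o.1.imp (o2 t3) (o2 t5)), o3 t2 o.2⟩) fun o => ⟨mul_eq_zero.2 (o.1.imp (o2 t2)
          fun o => by linear_combination -o2 t4 o), o3 t3 o.2⟩
    · exact absurd (by linear_combination (X ^ 2 - 1) * e - (q5 k).resolve_left k1) (one_ne_zero (α := F))
  · have k1 : X ^ 2 ≠ 1 := fun k => hx (by linear_combination k - e)
    rcases hp with k | k | k
    · exact absurd (q3 k) k1
    · have k2 := (q4 k).resolve_left k1
      exact absurd (by linear_combination (X + 1) * (k2 - e) - k2) (one_ne_zero (α := F))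
    obtain ⟨o, o'⟩ := a5' k ha hb hc ⟨Subtype.ext (pow_five_eq_one_iff.2 (Or.inl (by
      rw [t1]; linear_combination (X ^ 2 + X - 1) * e))), n1'⟩ n3 n4
    rw [show Y + X * (Z - X * Y) = X * (Z - Y) by linear_combination -Y * e] at t6
    simp only [pat, List.mem_cons, List.not_mem_nil, or_false, exists_eq_or_imp, exists_eq_left, @eq_comm F 0]
    exact ⟨o.imp (o2 t2) (Or.imp (o2 t3) (Or.imp (o2 t4) (Or.imp (o2 t6) (o2 t5)))),
      o'.imp (o3 t2) (Or.imp (o3 t3) (Or.imp (o3 t4) (Or.imp (o3 t6) (o3 t5))))⟩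

end CfsgLib.Dim4.Tri
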