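import Mathlib
import Cfsg.Agent.Lib.Dim4.W5b
import Cfsg.Agent.Lib.Dim4.TRIa

/-!
DIM4, package TRI: triples of roots.  See `plans/DIM4.md`.
-/

set_option autoImplicit false

namespace CfsgLib.Dim4

open Matrix Cfsg Cfsg.Geo CfsgLib.Asch CfsgLib.Forms CfsgLib.Symp Subgroup CfsgLib.Dickson
open scoped MatrixGroups commutatorElement

namespace Tri

section Abstract

variable {K W : Type*} [Field K] [AddCommGroup W] [Module K W] {β : LinearMap.BilinForm K W} {Δ : Set W}

theorem four (h : RS β Δ) {a b : W} (ha : a ∈ Δ) (hb : b ∈ Δ) (hn : b ≠ a) (e : β a b = 2) : (3 : K) = 0 := by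
  refine (h.sm a ha a ha (b - a) 2 (sub_ne_zero.2 hn) h.two ?_ ?_ (by simpa using hb) ?_).1
  · rw [map_sub, e, h.norm a ha, sub_self]
  · rw [map_sub, e, h.norm a ha, sub_self]
  · convert h.neg _ (h.refl b hb a ha) using 1
    rw [h.symm, e]; module

theorem exists_third (h : RS β Δ) {a : W} (ha : a ∈ Δ) (b : W) :
    ∃ c ∈ Δ, c ∉ Submodule.span K {a, b} ∧ (β c a ≠ 0 ∨ β c b ≠ 0) := by
  by_contra hn
  push Not at hn
  rcases h.irr (Submodule.span K {a, b}) (fun c hc u hu => by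
    by_cases k : c ∈ Submodule.span K {a, b}
    · exact sub_mem hu (Submodule.smul_mem _ _ k)
    · obtain ⟨p, q, rfl⟩ := Submodule.mem_span_pair.1 hu
      simpa [(hn c hc k).1, (hn c hc k).2] using hu) with e | e
  · have := h.norm a ha
    rw [Submodule.span_eq_bot.1 e a (by simp), map_zero] at this
    exact h.two this.symm
  · have := finrank_range_le_card (R := K) ![a, b]
    rw [Set.finrank, Matrix.range_cons, Matrix.range_cons, Matrix.range_empty, Set.union_empty,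
      Set.singleton_union, e, finrank_top, h.five] at this
    simp at this

theorem deg (h : RS β Δ) {a b c : W} (ha : a ∈ Δ) (hb : b ∈ Δ) (hc : c ∈ Δ) {x y z : K} (ex : β a b = x)
    (ey : β c a = y) (ez : β c b = z) (hx : x ≠ 0) (h4 : x ^ 2 ≠ 4) (hn : c ∉ Submodule.span K {a, b})
    (hD : 4 + x * y * z - x ^ 2 - y ^ 2 - z ^ 2 = 0) : 2 * y - x * z = 0 := by
  by_contra h0
  have aa := h.norm a ha
  have bb := h.norm b hb
  have cc := h.norm c hc
  have ex' : β b a = x := by rw [h.symm, ex]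
  have ey' : β a c = y := by rw [h.symm, ey]
  have ez' : β b c = z := by rw [h.symm, ez]
  have ra : ∀ {p q r : K} (p' : K), p • a + q • b + r • c ∈ Δ → p' = -p - x * q - y * r →
      p' • a + q • b + r • c ∈ Δ := fun p' k e => by
    convert h.refl a ha _ k using 1
    simp only [map_add, map_smul, smul_eq_mul, aa, ex, ey', e]; module
  have rb : ∀ {p q r : K} (q' : K), p • a + q • b + r • c ∈ Δ → q' = -x * p - q - z * r →
      p • a + q' • b + r • c ∈ Δ := fun q' k e => by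
    convert h.refl b hb _ k using 1
    simp only [map_add, map_smul, smul_eq_mul, bb, ex', ez', e]; module
  have rc : ∀ {p q r : K} (r' : K), p • a + q • b + r • c ∈ Δ → r' = -y * p - z * q - r →
      p • a + q • b + r' • c ∈ Δ := fun r' k e => by
    convert h.refl c hc _ k using 1
    simp only [map_add, map_smul, smul_eq_mul, cc, ey, ez, e]; module
  have k0 : (-1 : K) • a + (0 : K) • b + (0 : K) • c ∈ Δ := by simpa using h.neg a ha
  have k1 := rc (2 * y - x * z) (rb (2 * x - y * z) (ra (z ^ 2 - 3) (rc (y - x * z) (rb x k0 (by ring)) (by ring))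
    (by linear_combination -hD)) (by ring)) (by ring)
  set n := (z ^ 2 - 4) • a + (2 * x - y * z) • b + (2 * y - x * z) • c with hn'
  have na : β a n = 0 := by
    simp only [hn', map_add, map_smul, smul_eq_mul, aa, ex, ey']; linear_combination -2 * hD
  have nb : β b n = 0 := by simp only [hn', map_add, map_smul, smul_eq_mul, bb, ex', ez']; ring
  have n0 : n ≠ 0 := fun e => hn (Submodule.mem_span_pair.2 ⟨-(2 * y - x * z)⁻¹ * (z ^ 2 - 4),
    -(2 * y - x * z)⁻¹ * (2 * x - y * z), by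
      rw [← inv_smul_smul₀ h0 c, ← neg_eq_iff_add_eq_zero.2 e]; module⟩)
  have k2 : a + n ∈ Δ := by convert k1 using 1; rw [hn']; module
  obtain ⟨-, l, e | e⟩ := h.sm a ha _ (h.refl b hb a ha) n 1 n0 one_ne_zero na (by simp [na, nb]) k2 (by
    convert h.refl b hb _ k2 using 1
    rw [map_add, nb]; module)
  · have := congrArg (β b) e
    simp only [map_sub, map_smul, smul_eq_mul, bb, ex', nb] at this
    exact mul_ne_zero h.two hx (by linear_combination -this)
  · have := congrArg (β a) e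
    simp only [map_sub, map_add, map_smul, smul_eq_mul, aa, ex, ex', na] at this
    exact h4 (by linear_combination -this)

end Abstract

section Clifford

variable {F R : Type*} [Field F] [Ring R] [Algebra F R]

/-- a standard frame of a three-dimensional quadratic space -/
structure Fr (e₀ e₁ e₂ : R) : Prop where
  s0 : e₀ * e₀ = 1
  s1 : e₁ * e₁ = 0
  s2 : e₂ * e₂ = 0
  c1 : e₁ * e₀ = -(e₀ * e₁)
  c2 : e₂ * e₀ = -(e₀ * e₂)
  c3 : e₂ * e₁ = 1 - e₁ * e₂

variable {e₀ e₁ e₂ : R}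

theorem Fr.l (h : Fr e₀ e₁ e₂) (x : R) : e₀ * (e₀ * x) = x ∧ e₁ * (e₁ * x) = 0 ∧ e₂ * (e₂ * x) = 0 ∧
    e₁ * (e₀ * x) = -(e₀ * (e₁ * x)) ∧ e₂ * (e₀ * x) = -(e₀ * (e₂ * x)) ∧ e₂ * (e₁ * x) = x - e₁ * (e₂ * x) := by
  simp only [← mul_assoc, h.s0, h.s1, h.s2, h.c1, h.c2, h.c3, one_mul, zero_mul, neg_mul, sub_mul, and_self]

/-- the even Clifford algebra is a matrix algebra -/
def Fr.π (h : Fr e₀ e₁ e₂) : Matrix (Fin 2) (Fin 2) F →ₐ[F] R :=
  AlgHom.ofLinearMap
    { toFun := fun M => M 0 0 • (e₁ * e₂) + M 0 1 • (e₀ * e₁) - M 1 0 • (e₀ * e₂) + M 1 1 • (1 - e₁ * e₂)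
      map_add' := fun M N => by simp only [Matrix.add_apply]; module
      map_smul' := fun c M => by simp only [Matrix.smul_apply, smul_eq_mul, RingHom.id_apply]; module }
    (by simp) fun M N => by
      simp only [LinearMap.coe_mk, AddHom.coe_mk, mul_apply, Fin.sum_univ_two, mul_add, add_mul, mul_sub, sub_mul,
        smul_mul_assoc, mul_smul_comm, mul_assoc, one_mul, mul_one, h.l, h.s0, h.s1, h.s2, h.c1, h.c3, mul_neg,
        mul_zero, neg_neg, smul_zero, neg_zero, sub_zero]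
      module

theorem Fr.π_apply (h : Fr e₀ e₁ e₂) (M : Matrix (Fin 2) (Fin 2) F) :
    h.π M = M 0 0 • (e₁ * e₂) + M 0 1 • (e₀ * e₁) - M 1 0 • (e₀ * e₂) + M 1 1 • (1 - e₁ * e₂) := rfl

theorem Fr.ω (h : Fr e₀ e₁ e₂) : ∃ w : R, w * w = 1 ∧ (∀ M : Matrix (Fin 2) (Fin 2) F, h.π M * w = w * h.π M) ∧
    ∀ u v t : F, w * h.π !![u, v; t, -u] = u • e₀ + v • e₁ + t • e₂ := by
  refine ⟨e₀ * (e₁ * e₂ - e₂ * e₁), ?_, fun M => ?_, fun u v t => ?_⟩ <;>
    simp only [h.π_apply, of_apply, cons_val', cons_val_zero, cons_val_one, cons_val_fin_one, mul_add, add_mul,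
      mul_sub, sub_mul, smul_mul_assoc, mul_smul_comm, mul_assoc, one_mul, mul_one, h.l, h.s0, h.s2, h.c1,
      h.c2, h.c3, mul_neg, mul_zero, neg_neg, smul_zero, neg_zero, sub_zero]
  · abel
  · module
  · module

end Clifford

variable {G F : Type*} [Group G] [Field F] {ρ : G →* Sp4 F}

theorem hat_inv {A B : M4 F} (h : Hat ρ A) (e : A * B = 1) : Hat ρ B := by
  obtain ⟨g, hg⟩ := h
  have k : B = (ρ g⁻¹).1 * ((ρ g).1 * B) := by rw [← mul_assoc, map_inv, coe_inv_mul, one_mul]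
  refine ⟨g⁻¹, hg.imp (fun e' => ?_) fun e' => ?_⟩
  · rw [k, e', e, mul_one]
  · rw [k, e', neg_mul, e, mul_neg, mul_one, neg_neg]

theorem plat_hat [Finite G] [PerfectField F] (p : ℕ) [Fact p.Prime] [CharP F p] (h2 : (2 : F) ≠ 0) (hs : SMm ρ)
    {e₀ e₁ e₂ : M4 F} (fr : Fr e₀ e₁ e₂) : ∃ Γ : Subgroup PGL(2, F), Finite Γ ∧
      (∀ u v w h, Hat ρ (u • e₀ + v • e₁ + w • e₂) → mv u v w h ∈ Γ) ∧
      ∀ (k : PGL(2, F)) (b : F), b ≠ 0 → k * aff 1 1 one_ne_zero * k⁻¹ ∈ Γ →
        k * aff 1 b one_ne_zero * k⁻¹ ∈ Γ → (3 : F) = 0 ∧ (b = 1 ∨ b = -1) := by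
  obtain ⟨w, w2, wc, wv⟩ := fr.ω (F := F)
  set π := fr.π (F := F)
  have inj : Function.Injective π := π.toRingHom.injective
  have ww : ∀ M N, w * π M * (w * π N) = π M * π N := fun M N => by
    rw [← wc, mul_assoc, ← mul_assoc w, w2, one_mul]
  let S : Subgroup (GL (Fin 2) F) :=
    { carrier := {M | M.1.det ^ 2 = 1 ∧ (Hat ρ (π M.1) ∨ Hat ρ (w * π M.1))}
      one_mem' := ⟨by simp, Or.inl (by simpa using hat_one)⟩
      mul_mem' := by
        rintro M N ⟨d, k⟩ ⟨d', k'⟩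
        refine ⟨by rw [Units.val_mul, det_mul, mul_pow, d, d', one_mul], ?_⟩
        rw [Units.val_mul, map_mul]
        rcases k with k | k <;> rcases k' with k' | k' <;> have := k.mul k'
        · exact Or.inl this
        · exact Or.inr (by rwa [← mul_assoc, wc, mul_assoc] at this)
        · exact Or.inr (by rwa [mul_assoc] at this)
        · exact Or.inl (by rwa [ww] at this)
      inv_mem' := by
        rintro M ⟨d, k⟩
        have e : π M.1 * π (M⁻¹).1 = 1 := by rw [← map_mul, Units.mul_inv, map_one]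
        refine ⟨?_, k.imp (hat_inv · e) (hat_inv · (by rw [ww, e]))⟩
        have := congrArg (fun A => det A ^ 2) M.mul_inv
        simpa only [det_mul, mul_pow, d, one_mul, det_one, one_pow] using this }
  have fin : (S : Set (GL (Fin 2) F)).Finite := by
    refine (((hat_finite (ρ := ρ)).union ((hat_finite (ρ := ρ)).image (w * ·))).preimage
      (f := fun M : GL (Fin 2) F => π M.1) (inj.comp Units.val_injective).injOn).subset fun M hM => ?_
    exact hM.2.imp id fun k => ⟨_, k, by simp only [← mul_assoc, w2, one_mul]⟩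
  refine ⟨S.map ProjGenLinGroup.mk, (fin.image _).to_subtype, fun u v t h k => ⟨_, ⟨?_, Or.inr ?_⟩, rfl⟩,
    fun k b hb m1 m2 => ?_⟩
  · rw [gm_val, det_fin_two_of, show u * -u - v * t = -1 by linear_combination -h]; simp
  · rwa [gm_val, wv]
  obtain ⟨k, rfl⟩ := ProjGenLinGroup.mk_surjective k
  set N := π (k.1 * !![0, 1; 0, 0] * (k⁻¹).1) with hN
  have N2 : N * N = 0 := by
    rw [hN, ← map_mul, mul_assoc, mul_assoc, ← mul_assoc (k⁻¹).1, ← mul_assoc (k⁻¹).1, Units.inv_mul, one_mul,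
      ← mul_assoc !![0, 1; 0, 0], show (!![0, 1; 0, 0] * !![0, 1; 0, 0] : Matrix (Fin 2) (Fin 2) F) = 0 by
        ext i j; fin_cases i <;> fin_cases j <;> simp]
    simp
  have N0 : N ≠ 0 := fun e => by
    have := (map_eq_zero_iff π inj).1 e
    rw [Units.mul_left_eq_zero, Units.mul_right_eq_zero] at this
    simpa using congrFun (congrFun this 0) 1
  have key : ∀ b : F, ProjGenLinGroup.mk k * aff 1 b one_ne_zero * (ProjGenLinGroup.mk k)⁻¹ ∈
      S.map ProjGenLinGroup.mk → Hat ρ (1 + (2 * b) • N) := by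
    rintro b ⟨M, ⟨d, hM⟩, e⟩
    rw [aff, pm, ← map_inv, ← map_mul, ← map_mul, eq_comm, ProjGenLinGroup.mk_eq_mk_iff] at e
    obtain ⟨u, rfl⟩ := e
    simp only [Units.val_mul, gm_val, GeneralLinearGroup.coe_scalar] at d hM
    have d2 : ((u : F) ^ 2) ^ 2 = 1 := by
      have := congrArg det k.mul_inv
      rw [det_mul, det_one] at this
      rw [det_mul, det_mul, det_mul, mul_right_comm k.1.det, this] at d
      simpa using d
    have e1 : π (k.1 * !![1, b; 0, 1] * (k⁻¹).1 * scalar (Fin 2) (u : F)) = (u : F) • (1 + b • N) := by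
      rw [show (!![1, b; 0, 1] : Matrix (Fin 2) (Fin 2) F) = 1 + b • !![0, 1; 0, 0] by
        ext i j; fin_cases i <;> fin_cases j <;> simp, scalar_apply, ← smul_one_eq_diagonal, mul_smul_comm, mul_one,
        mul_add, add_mul, mul_one, Units.mul_inv, mul_smul_comm, smul_mul_assoc, map_smul, map_add, map_one, map_smul]
    have e2 : (u : F) • (1 + b • N) * ((u : F) • (1 + b • N)) = (u : F) ^ 2 • (1 + (2 * b) • N) := by
      simp only [smul_mul_assoc, mul_smul_comm, mul_add, add_mul, one_mul, mul_one, N2]; module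
    have k1 : Hat ρ ((u : F) ^ 2 • (1 + (2 * b) • N)) := by
      rw [← e2, ← e1]
      exact hM.elim (fun k => k.mul k) fun k => ww _ _ ▸ k.mul k
    rcases sq_eq_one_iff.1 d2 with e | e <;> rw [e] at k1
    · rwa [one_smul] at k1
    · simpa only [neg_smul, one_smul, neg_neg] using k1.neg
  have z : ∀ a c : F, a • N * c • N = 0 := fun a c => by simp [N2]
  obtain ⟨k1, k2⟩ := hs _ _ (key 1 m1) (key b m2) (smul_ne_zero (by simpa using h2) N0)
    (smul_ne_zero (mul_ne_zero h2 hb) N0) (z _ _) (z _ _) (z _ _) (z _ _)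
  refine ⟨k1, k2.imp (fun e => mul_left_cancel₀ h2 (smul_left_injective F N0 e)) fun e =>
    mul_left_cancel₀ h2 (smul_left_injective F N0 (e.trans ?_))⟩
  simp

variable [NeZero (2 : F)]

theorem main [Finite G] [IsAlgClosed F] (p : ℕ) [Fact p.Prime] [CharP F p] (h : RS bt (roots ρ)) (hs : SMm ρ)
    {a b c : W5 F} (ha : a ∈ roots ρ) (hb : b ∈ roots ρ) (hc : c ∈ roots ρ) {X Y Z : F} (eX : bt a b = X)
    (eY : bt c a = Y) (eZ : bt c b = Z) (hx : X ≠ 0) (h4 : X ^ 2 ≠ 4) (hn : c ∉ Submodule.span F {a, b})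
    (hy : Y ≠ 0 ∨ Z ≠ 0) : (X ^ 2 = 1 ∨ X ^ 2 = 2 ∨ X ^ 4 - 3 * X ^ 2 + 1 = 0) ∧
      (X ^ 2 = 2 → (Z * (Z - X * Y) = 0 ∧ Y ^ 2 = 1) ∨ (Y * (Y - X * Z) = 0 ∧ Z ^ 2 = 1)) ∧
      (X ^ 2 = X + 1 → 0 ∈ pat X Y Z ∧ ∃ w ∈ pat X Y Z, w ^ 2 = 1) := by
  have h2 : (2 : F) ≠ 0 := two_ne_zero
  have hD : 4 + X * Y * Z - X ^ 2 - Y ^ 2 - Z ^ 2 ≠ 0 := fun hD => by
    have k1 := deg h ha hb hc eX eY eZ hx h4 hn hD
    have k2 := deg h hb ha hc ((bt_symm _ _).trans eX) eZ eY hx h4 (by rwa [Set.pair_comm]) (by linear_combination hD)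
    have k := sub_ne_zero.2 h4
    exact hy.elim (· (mul_left_cancel₀ k (by linear_combination -2 * k1 - X * k2)))
      (· (mul_left_cancel₀ k (by linear_combination -2 * k2 - X * k1)))
  obtain ⟨x, ex⟩ : ∃ x, X = 2 * x := ⟨X / 2, by field_simp⟩
  obtain ⟨y, ey⟩ : ∃ y, Y = 2 * y := ⟨Y / 2, by field_simp⟩
  obtain ⟨κ, hκ⟩ : ∃ κ, x * x + 1 * κ = 1 := ⟨1 - x * x, by ring⟩
  have κ0 : κ ≠ 0 := fun e => h4 (by rw [ex]; linear_combination 4 * hκ - 4 * e)
  obtain ⟨s, t, hst, ez⟩ : ∃ s t, y * y + s * t = 1 ∧ Z = 2 * x * y + t + s * κ := by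
    obtain ⟨r, hr⟩ := IsAlgClosed.exists_eq_mul_self ((Z - 2 * x * y) ^ 2 - 4 * κ * (1 - y * y))
    refine ⟨(Z - 2 * x * y - r) / (2 * κ), (Z - 2 * x * y + r) / 2, ?_, ?_⟩ <;> field_simp
    · linear_combination hr
    · ring
  have hδ : t - s * κ ≠ 0 := fun e => hD (by
    rw [ex, ey, ez]; linear_combination -(t - s * κ) * e - 4 * κ * hst - 4 * (1 - y * y) * hκ)
  have aa := ha.1
  have ab : bt a b = 2 * x := eX.trans ex
  have ac : bt a c = 2 * y := (bt_symm _ _).trans (eY.trans ey)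
  have bc : bt b c = 2 * x * y + t + s * κ := (bt_symm _ _).trans (eZ.trans ez)
  have ba := (bt_symm b a).trans ab
  have ca := (bt_symm c a).trans ac
  have cb := (bt_symm c b).trans bc
  obtain ⟨e₂, he₂⟩ : ∃ e₂, e₂ = (t - s * κ)⁻¹ • (c - y • a - s • (b - x • a)) := ⟨_, rfl⟩
  obtain ⟨e₁, he₁⟩ : ∃ e₁, e₁ = b - x • a - κ • e₂ := ⟨_, rfl⟩
  have a2 : bt a e₂ = 0 := by
    simp only [he₂, map_sub, map_smul, smul_eq_mul, ab, ac, h.norm a ha]; ring
  have b2 : bt b e₂ = 1 := by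
    simp only [he₂, map_sub, map_smul, smul_eq_mul, ba, bc, h.norm b hb]; field_simp
    linear_combination 2 * s * hκ
  have c2 : bt c e₂ = s := by
    simp only [he₂, map_sub, map_smul, smul_eq_mul, ca, cb, h.norm c hc]; field_simp
    linear_combination -2 * hst
  have q2 : bt e₂ e₂ = 0 := by
    nth_rw 1 [he₂]
    simp only [map_sub, map_smul, LinearMap.sub_apply, LinearMap.smul_apply, smul_eq_mul, a2, b2, c2]; ring
  have a1 : bt a e₁ = 0 := by simp only [he₁, map_sub, map_smul, smul_eq_mul, ab, a2, h.norm a ha]; ring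
  have k12 : bt e₁ e₂ = 1 := by
    simp only [he₁, map_sub, map_smul, LinearMap.sub_apply, LinearMap.smul_apply, smul_eq_mul, a2, b2, q2]; ring
  have q1 : bt e₁ e₁ = 0 := by
    nth_rw 1 [he₁]
    simp only [map_sub, map_smul, LinearMap.sub_apply, LinearMap.smul_apply, smul_eq_mul, a1, bt_symm e₂ e₁, k12]
    simp only [he₁, map_sub, map_smul, smul_eq_mul, ba, b2, h.norm b hb]
    linear_combination -2 * hκ
  have z : ∀ e : W5 F, bt e e = 0 → psi e * psi e = 0 := fun e he => by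
    rw [psi_sq, (mul_eq_zero.1 ((bt_self e).symm.trans he)).resolve_left h2, zero_smul]
  have fr : Fr (psi a) (psi e₁) (psi e₂) := ⟨by rw [psi_sq, aa, one_smul], z _ q1, z _ q2,
    by rw [psi_swap, a1, zero_smul, zero_sub], by rw [psi_swap, a2, zero_smul, zero_sub],
    by rw [psi_swap, k12, one_smul]⟩
  obtain ⟨Γ, hΓ, m, hu⟩ := plat_hat p h2 hs fr
  have m1 := m 1 0 0 (by simp) (by simpa using ha.2)
  have m2 := m x 1 κ hκ (by
    convert hb.2
    rw [← map_smul, ← map_smul, ← map_smul, ← map_add, ← map_add, he₁]; congr 1; module)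
  have m3 := m y s t hst (by
    convert hc.2
    rw [← map_smul, ← map_smul, ← map_smul, ← map_add, ← map_add, he₁]; congr 1
    rw [eq_inv_smul_iff₀ hδ] at he₂
    linear_combination (norm := module) he₂)
  exact concl hx h4 hδ ex ey ez hy m1 m2 m3 (plat p h2 Γ (fun e => hx (by rw [ex, e, mul_zero])) κ0 hδ
    (hy.imp (fun k e => k (by rw [ey, e, mul_zero])) (ez ▸ ·)) m1 m2 m3 hu)

end Tri

variable {G F : Type*} [Group G] [Finite G] [Field F] [NeZero (2 : F)] [IsAlgClosed F]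
  {ρ : G →* Sp4 F}

theorem tri (p : ℕ) [Fact p.Prime] [CharP F p] (h : RS bt (roots ρ)) (hs : SMm ρ) :
    T1 bt (roots ρ) ∧ T4 bt (roots ρ) ∧ T5 bt (roots ρ) := by
  refine ⟨fun a ha b hb n1 n2 => ?_, fun a ha b hb c hc e hn hy => ?_, fun a ha b hb c hc e h4 hn hy => ?_⟩
  · by_cases hx : bt a b = 0
    · exact Or.inl hx
    by_cases h4 : bt a b ^ 2 = 4
    · have : (3 : F) = 0 := by
        rcases sq_eq_sq_iff_eq_or_eq_neg.1 (h4.trans (by norm_num : (4 : F) = 2 ^ 2)) with e | e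
        · exact Tri.four h ha hb n1 e
        · exact Tri.four h ha (h.neg b hb) (fun k => n2 (neg_eq_iff_eq_neg.1 k)) (by rw [map_neg, e, neg_neg])
      exact Or.inr (Or.inl (by linear_combination h4 + this))
    obtain ⟨c, hc, hn, hy⟩ := Tri.exists_third h ha b
    exact Or.inr ((Tri.main p h hs ha hb hc rfl rfl rfl hx h4 hn hy).1.imp_right (Or.imp_right fun e => ⟨h4, e⟩))
  · exact (Tri.main p h hs ha hb hc rfl rfl rfl (fun k => h.two (by rw [← e, k]; ring))
      (fun k => h.two (by linear_combination e - k)) hn hy).2.1 e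
  · exact (Tri.main p h hs ha hb hc rfl rfl rfl (fun k => one_ne_zero (α := F) (by
      rw [k] at e; linear_combination -e)) h4 hn hy).2.2 e

end CfsgLib.Dim4
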