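import Mathlib
import Cfsg.Agent.Lib.Dim4.Defs
import Cfsg.Agent.Lib.Mit.Root
import Cfsg.Agent.Lib.ClMax.SpTv
import Cfsg.Agent.Lib.ClDeg.SpGeo

/-!
DIM4, package TV: groups containing a transvection.  See `plans/DIM4.md`.
-/

set_option autoImplicit false

namespace CfsgLib.Dim4

open Matrix Cfsg Cfsg.Geo CfsgLib.Asch CfsgLib.Forms CfsgLib.Symp Subgroup
open scoped MatrixGroups commutatorElement

variable {G F : Type*} [Group G] [Field F] {ρ : G →* Sp4 F}

/-- the Gram matrix argument -/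
theorem gram_span {x : V4 F} (hs : Submodule.span F (Set.range fun g => ρ g • x) = ⊤)
    {K : Subfield F} {c : F} (hc : c ≠ 0) (h : ∀ g, c * B4 x (ρ g • x) ∈ K) :
    RealisableOver K (mats ρ) := by
  obtain ⟨κ, a, -, h1, h2⟩ := exists_linearIndependent' F (fun g => ρ g • x)
  let e := (Module.Basis.mk h2 (h1.trans hs).ge).indexEquiv (Pi.basisFun F I4)
  let Q : M4 F := of fun i j => (ρ (a (e.symm j)) • x) i
  have hQ : IsUnit Q := linearIndependent_cols_iff_isUnit.1 (h2.comp e.symm e.symm.injective)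
  have hN : ∀ g, Rat K (c • (Qᵀ * J (Fin 2) F * ((ρ g).1 * Q))) := fun g i j => by
    have e1 : (Qᵀ * J (Fin 2) F * ((ρ g).1 * Q)) i j =
        B4 (ρ (a (e.symm i)) • x) (ρ g • ρ (a (e.symm j)) • x) := by
      rw [spB_apply, mul_assoc]
      rfl
    rw [Matrix.smul_apply, e1, B4_inv, ← mul_smul, ← mul_smul, ← map_inv, ← map_mul, ← map_mul]
    exact h _
  have h1 := hN 1
  rw [map_one, OneMemClass.coe_one, one_mul] at h1
  obtain ⟨M₀, hM⟩ := rat_iff_exists.1 h1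
  have hd : (c • (Qᵀ * J (Fin 2) F * Q)).det ≠ 0 := by
    have := (isUnit_iff_isUnit_det _).1 hQ
    rw [det_smul, det_mul, det_mul, det_transpose]
    exact mul_ne_zero (pow_ne_zero _ hc) (mul_ne_zero (mul_ne_zero this.ne_zero
      (isUnit_det_J (Fin 2) F).ne_zero) this.ne_zero)
  refine realisableOver_iff.2 ⟨hQ.unit⁻¹, ?_⟩
  rintro _ ⟨g, rfl⟩
  have e2 : cj hQ.unit⁻¹ (ρ g).1 = (c • (Qᵀ * J (Fin 2) F * Q)).det⁻¹ •
      ((c • (Qᵀ * J (Fin 2) F * Q)).adjugate * (c • (Qᵀ * J (Fin 2) F * ((ρ g).1 * Q)))) := by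
    have : c • (Qᵀ * J (Fin 2) F * ((ρ g).1 * Q)) =
        c • (Qᵀ * J (Fin 2) F * Q) * cj hQ.unit⁻¹ (ρ g).1 := by
      rw [cj_apply, inv_inv, smul_mul_assoc, mul_assoc _ Q, mul_assoc _ _ (hQ.unit : M4 F),
        ← mul_assoc Q, IsUnit.mul_val_inv, one_mul, IsUnit.unit_spec]
    rw [this, ← mul_assoc, adjugate_mul, smul_mul_assoc, one_mul, smul_smul, inv_mul_cancel₀ hd,
      one_smul]
  rw [e2]
  refine Asch.Rat.smul (inv_mem ?_) (Asch.Rat.mul ?_ (hN g))
  · rw [← hM, ← RingHom.mapMatrix_apply, ← RingHom.map_det]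
    exact Subtype.coe_prop _
  · rw [← hM, ← RingHom.mapMatrix_apply, ← RingHom.map_adjugate]
    exact rat_iff_exists.2 ⟨_, rfl⟩

theorem B4_self (u : V4 F) : B4 u u = 0 := spB_self u

theorem B4_comm (u v : V4 F) : B4 u v = -B4 v u := spB_comm u v

theorem spT_smul' (w : V4 F) (c : F) (x : V4 F) : spT w c • x = x + (c * B4 x w) • w :=
  spT_smul w c x

/-- the action of `SL₂` on the plane spanned by `e, f` -/
noncomputable def pl (e f : V4 F) (d : F) (A : SL(2, F)) (x : V4 F) : V4 F :=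
  x + ((A 0 0 - 1) * (d * B4 x f) - A 0 1 * (d * B4 x e)) • e +
    (A 1 0 * (d * B4 x f) - (A 1 1 - 1) * (d * B4 x e)) • f

theorem pl_mul {e f : V4 F} {d : F} (h : d * B4 e f = 1) (A A' : SL(2, F)) (x : V4 F) :
    pl e f d A (pl e f d A' x) = pl e f d (A * A') x := by
  have h1 : d * B4 (pl e f d A' x) f = A' 0 0 * (d * B4 x f) - A' 0 1 * (d * B4 x e) := by
    simp only [pl, map_add, map_smul, LinearMap.add_apply, LinearMap.smul_apply, smul_eq_mul,
      B4_self]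
    linear_combination ((A' 0 0 - 1) * (d * B4 x f) - A' 0 1 * (d * B4 x e)) * h
  have h2 : d * B4 (pl e f d A' x) e = A' 1 1 * (d * B4 x e) - A' 1 0 * (d * B4 x f) := by
    simp only [pl, map_add, map_smul, LinearMap.add_apply, LinearMap.smul_apply, smul_eq_mul,
      B4_self, B4_comm f e]
    linear_combination (-(A' 1 0 * (d * B4 x f) - (A' 1 1 - 1) * (d * B4 x e))) * h
  rw [pl, h1, h2]
  simp only [pl, SL2.mul_ap]
  module

theorem pl_one (e f : V4 F) (d : F) (x : V4 F) : pl e f d 1 x = x := by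
  simp [pl, SL2.one_00, SL2.one_01, SL2.one_10, SL2.one_11]

/-- the elements of `SL₂` induced by the image of `ρ` -/
def plSub (ρ : G →* Sp4 F) {e f : V4 F} {d : F} (h : d * B4 e f = 1) : Subgroup SL(2, F) where
  carrier := {A | ∃ g, ∀ x, ρ g • x = pl e f d A x}
  one_mem' := ⟨1, fun x => by rw [map_one, one_smul, pl_one]⟩
  mul_mem' := by
    rintro A A' ⟨g, hg⟩ ⟨g', hg'⟩
    exact ⟨g * g', fun x => by rw [map_mul, mul_smul, hg', hg, pl_mul h]⟩
  inv_mem' := by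
    rintro A ⟨g, hg⟩
    exact ⟨g⁻¹, fun x => by rw [map_inv, inv_smul_eq_iff, hg, pl_mul h, mul_inv_cancel, pl_one]⟩

theorem tv_iff {u : V4 F} {d : F} : Tv ρ u d ↔ ∃ g, ∀ x, ρ g • x = x + (d * B4 x u) • u :=
  exists_congr fun g => ⟨fun h x => by rw [h, spT_smul'], fun h => sp_ext fun x => by
    rw [h, spT_smul']⟩

theorem tv_neg {u : V4 F} {d : F} : Tv ρ u (-d) ↔ Tv ρ u d :=
  ⟨fun h => by simpa using h.neg, Tv.neg⟩

theorem tv_conj {u : V4 F} {d : F} (g : G) : Tv ρ (ρ g • u) d ↔ Tv ρ u d :=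
  ⟨fun h => by simpa using h.conj g⁻¹, fun h => h.conj g⟩

theorem uu_mem_plSub {e f : V4 F} {d : F} (h : d * B4 e f = 1) (b : F) :
    SL2.uu b ∈ plSub ρ h ↔ Tv ρ e (b * d) := by
  rw [← tv_neg, tv_iff]
  refine exists_congr fun g => forall_congr' fun x => ?_
  simp [pl, mul_assoc]

theorem ll_mem_plSub {e f : V4 F} {d : F} (h : d * B4 e f = 1) (c : F) :
    SL2.ll c ∈ plSub ρ h ↔ Tv ρ f (c * d) := by
  rw [tv_iff]
  refine exists_congr fun g => forall_congr' fun x => ?_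
  simp [pl, mul_assoc]

theorem exists_neg_plane {e f : V4 F} {d l : F} (h : d * B4 e f = 1) (h3 : (3 : F) = 0)
    (hl : l ^ 2 = -1) (he : Tv ρ e (l * d)) (hf : Tv ρ f d) :
    ∃ g, ∀ x, ρ g • x = x - (2 : F) • ((d * B4 x f) • e - (d * B4 x e) • f) := by
  have h1 := mul_mem ((uu_mem_plSub h l).2 he) ((ll_mem_plSub (ρ := ρ) h 1).2 (by simpa using hf))
  have h2 : (SL2.uu l * SL2.ll 1) ^ 5 = -1 := by
    apply SL2.ext2 <;>
      simp only [pow_succ, pow_zero, one_mul, SL2.mul_ap, SL2.neg_ap, SL2.one_00, SL2.one_01,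
        SL2.one_10, SL2.one_11, SL2.uu_00, SL2.uu_01, SL2.uu_10, SL2.uu_11, SL2.ll_00, SL2.ll_01,
        SL2.ll_10, SL2.ll_11]
    · linear_combination (l ^ 3 + 9 * l ^ 2 + 27 * l + 26) * hl + (-4 * l - 8) * h3
    · linear_combination (l ^ 3 + 8 * l ^ 2 + 20 * l + 12) * hl + (-5 * l - 4) * h3
    · linear_combination (l ^ 2 + 8 * l + 20) * hl + (4 * l - 5) * h3
    · linear_combination (l ^ 2 + 7 * l + 14) * hl + (l - 4) * h3
  obtain ⟨g, hg⟩ := h2 ▸ pow_mem h1 5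
  refine ⟨g, fun x => ?_⟩
  rw [hg]
  simp only [pl, SL2.neg_ap, SL2.one_00, SL2.one_01, SL2.one_10, SL2.one_11]
  module

section Orbit

variable (hq : QS G) (hfix : NoFix ρ) {u : V4 F} {d : F} (hu : u ≠ 0) (hd : d ≠ 0) (ht : Tv ρ u d)
include hq hfix hu hd ht

/-- the conjugates of a transvection generate -/
theorem gen_of_tv {M : Subgroup (Sp4 F)} (hM : ∀ g, spT (ρ g • u) d ∈ M) (g : G) : ρ g ∈ M := by
  obtain ⟨t, ht⟩ := ht
  have h := hq.closure_eq_top (D := {x | ∃ g, ρ x = spT (ρ g • u) d}) (by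
    rintro x ⟨k, hk⟩ g
    exact ⟨g * k, by rw [map_mul, map_mul, map_inv, hk, conj_spT, map_mul, mul_smul]⟩)
    (d := t) ⟨1, by simpa using ht⟩ (fun hc => hu (hfix u fun g => ?_))
  · exact (closure_le (M.comap ρ)).2 (by rintro x ⟨k, hk⟩; exact mem_comap.2 (hk ▸ hM k)) (h ▸ mem_top g)
  · have h1 : ∀ g, ∃ a : Fˣ, ρ g • u = (a : F) • u := fun g => by
      have : spT (ρ g • u) d = spT u d := by
        rw [← conj_spT, ← ht, ← map_inv, ← map_mul, ← map_mul, Subgroup.mem_center_iff.1 hc g,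
          mul_inv_cancel_right]
      obtain ⟨a, ha⟩ := exists_smul_of_spT_eq hd this
      exact ⟨Units.mk0 a fun h0 => smul_ne_zero' (ρ g) hu (by rw [ha, h0, zero_smul]), ha⟩
    choose a ha using h1
    let φ : G →* Fˣ := MonoidHom.mk' a fun x y => Units.ext (smul_left_injective F hu (by
      simp only [← ha, map_mul, mul_smul, Units.val_mul]
      rw [ha y, smul_smul', ha x, smul_comm]))
    rw [ha, show a g = 1 from hq.hom_eq_one φ g, Units.val_one, one_smul]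

theorem inv_of_tv {S : Set (V4 F)}
    (hS : ∀ g c, Tv ρ u c → ∀ x ∈ S, x + (c * B4 x (ρ g • u)) • ρ g • u ∈ S) (g : G) :
    ∀ x ∈ S, ρ g • x ∈ S := by
  let M : Subgroup (Sp4 F) :=
    { carrier := {A | ∀ x ∈ S, A • x ∈ S ∧ A⁻¹ • x ∈ S}
      one_mem' := fun x hx => by simpa using hx
      mul_mem' := fun {A B} hA hB x hx => by
        rw [_root_.mul_inv_rev, mul_smul, mul_smul]
        exact ⟨(hA _ (hB x hx).1).1, (hB _ (hA x hx).2).2⟩
      inv_mem' := fun {A} hA x hx => by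
        rw [inv_inv]
        exact (hA x hx).symm }
  intro x hx
  refine (gen_of_tv hq hfix hu hd ht (M := M) (fun k y hy => ?_) g x hx).1
  rw [← spT_neg, spT_smul', spT_smul']
  exact ⟨hS k d ht y hy, hS k _ ht.neg y hy⟩

theorem exists_B4_ne_of_tv {v : V4 F} (hv : v ≠ 0) : ∃ g, B4 v (ρ g • u) ≠ 0 := by
  by_contra hn
  push Not at hn
  exact hv (hfix v fun g => inv_of_tv hq hfix hu hd ht (S := {v}) (by
    rintro k c - _ rfl
    simp [hn]) g v rfl)

theorem span_orbit_of_tv : Submodule.span F (Set.range fun g => ρ g • u) = ⊤ := by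
  by_contra hn
  obtain ⟨w, hw⟩ : ∃ w, w ∉ Submodule.span F (Set.range fun g => ρ g • u) := by
    by_contra h
    push Not at h
    exact hn (eq_top_iff.2 fun w _ => h w)
  obtain ⟨a, h1, h2⟩ := ClMax.exists_dual (spB_isAlt _ F) (spB_nondegenerate _ F) _ hw
  obtain ⟨g, hg⟩ := exists_B4_ne_of_tv hq hfix hu hd ht (v := a) (by
    rintro rfl
    simp at h1)
  exact hg (h2 _ (Submodule.subset_span ⟨g, rfl⟩))

theorem exists_cross (U : Submodule F (V4 F)) (hU : u ∈ U) (hne : U ≠ ⊤) :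
    ∃ g, ρ g • u ∉ U ∧ ∃ x ∈ U, B4 x (ρ g • u) ≠ 0 := by
  by_contra hn
  push Not at hn
  refine hne (eq_top_iff.2 ?_)
  rw [← span_orbit_of_tv hq hfix hu hd ht, Submodule.span_le]
  rintro _ ⟨g, rfl⟩
  refine inv_of_tv hq hfix hu hd ht (S := U) (fun k c _ x hx => ?_) g u hU
  by_cases hk : ρ k • u ∈ U
  · exact U.add_mem hx (U.smul_mem _ hk)
  · simpa [hn k hk x hx] using hx

/-- rationality -/
theorem rat_of_sq [Finite F] {K : Subfield F} (hK : ∀ c, Tv ρ u (c * d) ↔ c ∈ K)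
    (hsq : ∀ g, (d * B4 u (ρ g • u)) ^ 2 ∈ K) (g : G) : d * B4 u (ρ g • u) ∈ K := by
  by_cases h2 : (2 : F) = 0
  · have : CharP K 2 := (CharP.charP_iff_prime_eq_zero Nat.prime_two).2 (Subtype.ext h2)
    have : CharP F 2 := (CharP.charP_iff_prime_eq_zero Nat.prime_two).2 h2
    obtain ⟨k, hk⟩ := Finite.surjective_of_injective (frobenius K 2).injective ⟨_, hsq g⟩
    rw [← (frobenius F 2).injective (congrArg Subtype.val hk : frobenius F 2 k = frobenius F 2 _)]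
    exact k.2
  let L : Set (V4 F) := {v | ∃ a g, a ^ 2 ∈ K ∧ v = a • ρ g • u}
  have L1 : ∀ v ∈ L, ∀ w ∈ L, (d * B4 v w) ^ 2 ∈ K := by
    rintro _ ⟨a, g, ha, rfl⟩ _ ⟨b, g', hb, rfl⟩
    convert mul_mem (mul_mem ha hb) (hsq (g⁻¹ * g')) using 1
    rw [map_mul, map_inv, mul_smul, ← B4_inv]
    simp only [map_smul, LinearMap.smul_apply, smul_eq_mul]
    ring
  have L2 : ∀ w c, Tv ρ w c → ∀ v ∈ L, v + (c * B4 v w) • w ∈ L := by
    rintro w c hc _ ⟨a, g, ha, rfl⟩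
    obtain ⟨k, hk⟩ := tv_iff.1 hc
    exact ⟨a, k * g, ha, by rw [← hk, smul_smul', map_mul, mul_smul]⟩
  have L3 : ∀ w ∈ L, Tv ρ w d := by
    rintro _ ⟨a, g, ha, rfl⟩
    rw [tv_smul, tv_conj, mul_comm, hK]
    exact ha
  have L4 : ∀ g, ρ g • u ∈ L := fun g => ⟨1, g, by simp, by simp⟩
  have L5 : u ∈ L := by simpa using L4 1
  have hR : ∀ v ∈ L, d * B4 u v = 1 → ∀ w ∈ L, d * B4 u w = 1 → d * B4 v w ∈ K :=
    fun v hv hv1 w hw hw1 => by
      convert mul_mem (inv_mem (add_mem K.one_mem K.one_mem)) (sub_mem (sub_mem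
        (L1 u L5 _ (L2 w d (L3 w hw) v hv)) (L1 v hv w hw)) K.one_mem) using 1
      rw [map_add, map_smul, smul_eq_mul, mul_add, hv1, mul_left_comm d, hw1, one_add_one_eq_two]
      field_simp
      ring
  have key := inv_of_tv hq hfix hu hd ht
    (S := {x | d * B4 x u ∈ K ∧ ∀ r ∈ L, d * B4 u r = 1 → d * B4 x r ∈ K}) (fun g c hc x hx => by
      have hk : c * d⁻¹ ∈ K := (hK _).1 (by simpa [hd] using hc)
      by_cases h0 : B4 u (ρ g • u) = 0
      · refine ⟨by simpa [B4_comm (ρ g • u) u, h0] using hx.1, fun r hr hr1 => ?_⟩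
        convert sub_mem (add_mem (hx.2 r hr hr1) (hx.2 r hr hr1))
          (hx.2 _ (L2 _ c (hc.conj g) r hr) (by simpa [h0] using hr1)) using 1
        simp only [map_add, map_smul, LinearMap.add_apply, LinearMap.smul_apply, smul_eq_mul,
          B4_comm (ρ g • u) r]
        ring
      · have hβ := mul_ne_zero hd h0
        have hr' : (d * B4 u (ρ g • u))⁻¹ • ρ g • u ∈ L :=
          ⟨_, g, by rw [inv_pow]; exact inv_mem (hsq g), rfl⟩
        have hr1' : d * B4 u ((d * B4 u (ρ g • u))⁻¹ • ρ g • u) = 1 := by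
          rw [map_smul, smul_eq_mul]
          field_simp
        have h3 : ∀ r, d * B4 x r ∈ K → d * B4 ((d * B4 u (ρ g • u))⁻¹ • ρ g • u) r ∈ K →
            d * B4 (x + (c * B4 x (ρ g • u)) • ρ g • u) r ∈ K := fun r h4 h5 => by
          convert add_mem h4 (mul_mem (mul_mem hk (hsq g)) (mul_mem (hx.2 _ hr' hr1') h5)) using 1
          simp only [map_add, map_smul, LinearMap.add_apply, LinearMap.smul_apply, smul_eq_mul]
          field_simp
        refine ⟨h3 u hx.1 ?_, fun r hr hr1 => h3 r (hx.2 r hr hr1) (hR _ hr' hr1' r hr hr1)⟩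
        rw [B4_comm, mul_neg, hr1']
        exact neg_mem K.one_mem) g u ⟨by simp [B4_self], fun r _ h => h ▸ K.one_mem⟩
  rw [B4_comm, mul_neg]
  exact neg_mem key.1

theorem surj_of_full (hc : ∃ c : F, c ≠ 0 ∧ c ≠ 1) (hfull : ∀ c, Tv ρ u c) :
    Function.Surjective ρ := by
  obtain ⟨c, hc0, hc1⟩ := hc
  let M := ((DistribMulAction.toModuleAut F (V4 F)).comp ρ).range
  have hM : ∀ x, ClMax.Full B4 M x ↔ ∀ c, Tv ρ x c := fun x => by
    refine (Equiv.neg F).forall_congr fun c => ?_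
    rw [tv_iff]
    constructor
    · rintro ⟨_, ⟨g, rfl⟩, h⟩
      exact ⟨g, fun v => (h v).trans (by simp [B4_comm x v])⟩
    · rintro ⟨g, h⟩
      exact ⟨_, ⟨g, rfl⟩, fun v => (h v).trans (by simp [B4_comm x v])⟩
  obtain ⟨g, hg⟩ := exists_B4_ne_of_tv hq hfix hu hd ht hu
  have := ClMax.full_of_connected (M := M) (spB_isAlt _ F) (spB_nondegenerate _ F)
    (by rintro _ ⟨g, rfl⟩; exact B4_smul (ρ g)) hc0 hc1 ((hM u).2 hfull)
    ((hM _).2 fun c => (hfull c).conj g) hg (fun U hU _ hne => by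
      obtain ⟨k, hk, x, hx, hx'⟩ := exists_cross hq hfix hu hd ht U hU hne
      exact ⟨_, (hM _).2 fun c => (hfull c).conj k, hk, x, hx, fun h => hx' (by
        rw [B4_comm]; exact neg_eq_zero.2 h)⟩)
  exact MonoidHom.range_eq_top.1 (eq_top_of_spT_mem _ fun w c _ => (hM w).1 (this w) c)

omit hq hfix hu in
theorem tv_pair [Finite F] (g : G) (hg : B4 u (ρ g • u) ≠ 0) :
    (∃ K : Subfield F, (∀ c, Tv ρ u (c * d) ↔ c ∈ K) ∧ (d * B4 u (ρ g • u)) ^ 2 ∈ K) ∨
    ((2 : F) = 0 ∧ ∀ c, Tv ρ u (c * d) → c = 0 ∨ c = 1) ∨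
    ((3 : F) = 0 ∧ ((d * B4 u (ρ g • u)) ^ 2) ^ 2 = -1 ∧
      ∀ c, Tv ρ u (c * d) → c = 0 ∨ c = 1 ∨ c = -1) := by
  have hβ := mul_ne_zero hd hg
  have h1 : d * B4 ((d * B4 u (ρ g • u))⁻¹ • u) (ρ g • u) = 1 := by
    rw [map_smul B4, LinearMap.smul_apply, smul_eq_mul]
    field_simp
  have h2 := (uu_mem_plSub (ρ := ρ) h1 ((d * B4 u (ρ g • u)) ^ 2)).2 (by
    rw [tv_smul]
    convert ht using 1
    field_simp)
  rcases Mit.pair_sl (plSub ρ h1) (pow_ne_zero 2 hβ) h2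
    ((ll_mem_plSub h1 1).2 (by simpa using ht.conj g)) with ⟨K, k1, k2⟩ | ⟨k0, -, k2⟩ | ⟨k0, k1, -, k2⟩
  · exact Or.inl ⟨K, fun c => by rw [← k2, ll_mem_plSub, tv_conj], (k1 _).1 h2⟩
  · exact Or.inr (Or.inl ⟨k0, fun c hc => k2 c ((ll_mem_plSub h1 c).2 (hc.conj g))⟩)
  · exact Or.inr (Or.inr ⟨k0, k1, fun c hc => k2 c ((ll_mem_plSub h1 c).2 (hc.conj g))⟩)

theorem tv_good [Finite F] (hc : ∃ c : F, c ≠ 0 ∧ c ≠ 1)
    (h : ∀ g, B4 u (ρ g • u) ≠ 0 →
      ∃ K : Subfield F, (∀ c, Tv ρ u (c * d) ↔ c ∈ K) ∧ (d * B4 u (ρ g • u)) ^ 2 ∈ K) :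
    ∃ K : Subfield F, RealisableOver K (mats ρ) ∧ (K = ⊤ → Function.Surjective ρ) := by
  obtain ⟨g, hg⟩ := exists_B4_ne_of_tv hq hfix hu hd ht hu
  obtain ⟨K, hK, -⟩ := h g hg
  refine ⟨K, gram_span (span_orbit_of_tv hq hfix hu hd ht) hd
    (rat_of_sq hq hfix hu hd ht hK fun k => ?_), fun e => surj_of_full hq hfix hu hd ht hc fun c => ?_⟩
  · by_cases h0 : B4 u (ρ k • u) = 0
    · simp [h0]
    · obtain ⟨K', h1, h2⟩ := h k h0
      exact (hK _).1 ((h1 _).2 h2)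
  · simpa [hd] using (hK (c * d⁻¹)).2 (e ▸ Subfield.mem_top _)

omit hu in
/-- the exceptional pair in characteristic three -/
theorem exc_three (h3 : (3 : F) = 0) {e : V4 F} {l : F} (h : d * B4 e u = 1) (hl : l ^ 2 = -1)
    (he : Tv ρ e (l * d)) : ∃ n s, n ≠ 0 ∧ s ≠ 0 ∧ Tv ρ n s ∧ Tv ρ n (l * s) := by
  have hu : u ≠ 0 := by
    rintro rfl
    simp at h
  have hl0 : l ≠ 0 := by
    rintro rfl
    simp at hl
  have h2 : (2 : F) = -1 := by linear_combination h3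
  have hue : d * B4 u e = -1 := by rw [B4_comm, mul_neg, h]
  obtain ⟨g, hg, y, hy, hy'⟩ := exists_cross hq hfix hu hd ht (Submodule.span F {e, u})
    (Submodule.subset_span (by simp)) (fun e' => by
      have := ClMax.finrank_span_pair_le (F := F) e u
      rw [e', finrank_top, finrank_V4] at this
      omega)
  obtain ⟨z, hz⟩ := exists_neg_plane h h3 hl he ht
  have tw := ht.conj g
  generalize ρ g • u = w at hg hy' tw
  obtain ⟨a, ha⟩ : ∃ a, a = (d * B4 w u) • e - (d * B4 w e) • u := ⟨_, rfl⟩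
  obtain ⟨n, hn⟩ : ∃ n, n = w - a := ⟨_, rfl⟩
  have hae : B4 a e = B4 w e := by
    simp only [ha, map_sub, map_smul, LinearMap.sub_apply, LinearMap.smul_apply, smul_eq_mul,
      B4_self]
    linear_combination (-B4 w e) * hue
  have hau : B4 a u = B4 w u := by
    simp only [ha, map_sub, map_smul, LinearMap.sub_apply, LinearMap.smul_apply, smul_eq_mul,
      B4_self]
    linear_combination (B4 w u) * h
  have hne : B4 n e = 0 := by rw [hn, map_sub, LinearMap.sub_apply, hae, sub_self]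
  have hnu : B4 n u = 0 := by rw [hn, map_sub, LinearMap.sub_apply, hau, sub_self]
  have hna : B4 n a = 0 := by simp [ha, hne, hnu]
  have han : B4 a n = 0 := by rw [B4_comm, hna, neg_zero]
  let S : Set (V4 F) := {x | B4 n x = 0 ∧ ClDeg.spX n x ∈ ρ.range}
  have S1 : (-d) • a ∈ S := by
    have h1 : B4 n ((-d) • a) = 0 := by simp [hna]
    refine ⟨h1, ?_⟩
    have t1 : Tv ρ (n + a) d := by simpa [hn] using tw
    have t2 : Tv ρ (n - a) (-d) := by
      have := (tw.conj z).neg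
      rwa [hz, ← ha, show w - (2 : F) • a = n - a by rw [hn]; module] at this
    convert mul_mem t1 t2 using 1
    refine sp_ext fun x => ?_
    rw [ClDeg.spX_smul h1, mul_smul, spT_smul', spT_smul']
    simp only [map_add, map_sub, map_smul, LinearMap.add_apply, LinearMap.sub_apply,
      LinearMap.smul_apply, smul_eq_mul, B4_self, hna, han]
    match_scalars
    · ring
    · linear_combination (-d * B4 x a) * h3
    · linear_combination (-d * B4 x n) * h3
  have S2 : ∀ v c, B4 n v = 0 → Tv ρ v c → ∀ x ∈ S, x + (c * B4 x v) • v ∈ S := fun v c hv hc x hx => by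
    refine ⟨by simp [hx.1, hv], ?_⟩
    convert mul_mem (mul_mem hc hx.2) (inv_mem hc) using 1
    have : spT v c • n = n := by rw [spT_smul', hv, mul_zero, zero_smul, add_zero]
    rw [← spT_smul', ClDeg.spX, ClDeg.spX]
    conv_lhs => rw [← this, ← smul_add', ← conj_spT, ← conj_spT, ← conj_spT]
    group
  have S3 : ∀ x ∈ S, ∀ x' ∈ S, Tv ρ n (B4 x x') := fun x hx x' hx' => by
    have := mul_mem (inv_mem (mul_mem hx'.2 hx.2)) (mul_mem hx.2 hx'.2)
    rw [ClDeg.spX_mul hx'.1 hx.1, ClDeg.spX_mul hx.1 hx'.1, add_comm x', _root_.mul_inv_rev,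
      mul_assoc, inv_mul_cancel_left, ← spT_neg, ← spT_add] at this
    rwa [show B4 x x' = - -B4 x' x + -B4 x x' by
      rw [B4_comm x' x]
      linear_combination B4 x x' * h3]
  have S4 : ∀ v c, B4 n v = 0 → Tv ρ v c → ∀ x ∈ S, Tv ρ n (c * B4 x v ^ 2) :=
    fun v c hv hc x hx => by
      convert S3 x hx _ (S2 v c hv hc x hx) using 1
      simp only [map_add, map_smul, smul_eq_mul, B4_self]
      ring
  obtain ⟨x, hx, hxu⟩ : ∃ x ∈ S, B4 x u ≠ 0 := by
    by_cases h0 : B4 w u = 0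
    · refine ⟨_, S2 e _ hne he _ S1, ?_⟩
      have h1 : B4 w e ≠ 0 := fun h1 => hy' (by
        obtain ⟨p, q, rfl⟩ := Submodule.mem_span_pair.1 hy
        simp [B4_comm e w, B4_comm u w, h0, h1])
      have h4 : B4 e u ≠ 0 := right_ne_zero_of_mul_eq_one h
      simp [hau, hae, h0, h1, hd, hl0, h4]
    · exact ⟨_, S1, by simp [hau, h0, hd]⟩
  refine ⟨n, d * B4 x u ^ 2, fun h0 => hg ?_, mul_ne_zero hd (pow_ne_zero 2 hxu),
    S4 u d hnu ht x hx, ?_⟩
  · rw [sub_eq_zero.1 (hn.symm.trans h0)]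
    exact Submodule.mem_span_pair.2 ⟨d * B4 w u, -(d * B4 w e), by rw [ha]; module⟩
  · convert (((S4 e _ hne he x hx).add (S4 e _ hne he _ (S2 u _ hnu ht x hx))).add
      (S4 e _ hne he _ (S2 u _ hnu ht.neg x hx))).neg using 1
    simp only [map_add, map_smul, LinearMap.add_apply, LinearMap.smul_apply, smul_eq_mul]
    linear_combination (l * d * (B4 x e ^ 2 + B4 x u ^ 2)) * h3 +
      (2 * l * d * B4 x u ^ 2 * (d * B4 u e - 1)) * hue

end Orbit

theorem tv [Finite G] [Finite F] (hq : QS G) (hfix : NoFix ρ) {u : V4 F} {d : F} (hu : u ≠ 0)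
    (hd : d ≠ 0) (ht : Tv ρ u d) (h2 : (2 : F) = 0 → ∃ e, e ≠ 0 ∧ e ≠ d ∧ Tv ρ u e) :
    ∃ K : Subfield F, RealisableOver K (mats ρ) ∧ (K = ⊤ → Function.Surjective ρ) := by
  have hc : ∃ c : F, c ≠ 0 ∧ c ≠ 1 := by
    by_cases h : (2 : F) = 0
    · obtain ⟨e, h0, h1, -⟩ := h2 h
      exact ⟨e * d⁻¹, mul_ne_zero h0 (inv_ne_zero hd), fun h => h1 ((mul_inv_eq_one₀ hd).1 h)⟩
    · exact ⟨-1, neg_ne_zero.2 one_ne_zero, fun e => h (by linear_combination -e)⟩
  by_cases hex : ∃ g, (3 : F) = 0 ∧ ((d * B4 u (ρ g • u)) ^ 2) ^ 2 = -1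
  · obtain ⟨g, h3, hl⟩ := hex
    have hβ : d * B4 u (ρ g • u) ≠ 0 := fun h => by simp [h] at hl
    obtain ⟨n, s, hn, hs, t1, t2⟩ := exc_three hq hfix hd (ht.conj g) h3
      (e := (d * B4 u (ρ g • u))⁻¹ • u) (by
        rw [map_smul B4, LinearMap.smul_apply, smul_eq_mul, mul_left_comm, inv_mul_cancel₀ hβ]) hl (by
        rw [tv_smul]
        convert ht using 1
        rw [inv_pow, mul_right_comm, mul_inv_cancel₀ (pow_ne_zero 2 hβ), one_mul])
    have h2' : (2 : F) ≠ 0 := fun h => one_ne_zero (α := F) (by linear_combination h3 - h)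
    refine tv_good hq hfix hn hs t1 hc fun k hk => ?_
    rcases tv_pair hs t1 k hk with h | h | h
    · exact h
    · exact absurd h.1 h2'
    · rcases h.2.2 _ t2 with e | e | e <;> rw [e] at hl
      · simp at hl
      · exact absurd (by linear_combination hl) h2'
      · exact absurd (by linear_combination hl) h2'
  · refine tv_good hq hfix hu hd ht hc fun k hk => ?_
    rcases tv_pair hd ht k hk with h | h | h
    · exact h
    · obtain ⟨e, h0, h1, t⟩ := h2 h.1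
      rcases h.2 (e * d⁻¹) (by simpa [hd] using t) with e' | e'
      · exact absurd e' (mul_ne_zero h0 (inv_ne_zero hd))
      · exact absurd ((mul_inv_eq_one₀ hd).1 e') h1
    · exact absurd ⟨k, h.1, h.2.1⟩ hex

end CfsgLib.Dim4
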